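import Mathlib
import Cfsg.Agent.Lib.Helper96.HallSymStmt

/-! Piece BLK of S2536: a transitive Hall subgroup with a block system induces a Hall subgroup
on a block, and the `p`-adic valuations of the factorials satisfy the wreath product bound. -/

set_option autoImplicit false

namespace Cfsg.Agent.Lib.Helper99.HSBLK

open Equiv Cfsg.Agent.Lib.Helper96.HallSymStmt

theorem val_le_of_dvd (p : ℕ) [Fact p.Prime] {a b : ℕ} (hb : b ≠ 0) (h : a ∣ b) :
    padicValNat p a ≤ padicValNat p b := by
  obtain ⟨c, rfl⟩ := h
  have ha : a ≠ 0 := fun h0 => hb (by rw [h0, zero_mul])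
  have hc : c ≠ 0 := fun h0 => hb (by rw [h0, mul_zero])
  rw [padicValNat.mul ha hc]
  omega

theorem main : Cfsg.Agent.Lib.Helper96.HallSymStmt.BLK' := by
  intro hBLK1 hFACT Ω _ _ π H hHall hTrans hpos ι _ f a hsurj ha hfib hcard hblk
  obtain ⟨Ω', instF, instD, H', hΩ', hdvd1, hdvd2⟩ :=
    hBLK1 Ω H hTrans hpos ι f a hsurj hfib hblk
  have hb1 : 1 ≤ Fintype.card ι := by
    by_contra h
    have h0 : Fintype.card ι = 0 := by omega
    rw [h0, mul_zero] at hcard
    omega
  have hHpos : Nat.card ↥H ≠ 0 := Nat.card_pos.ne'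
  have hH'pos : Nat.card ↥H' ≠ 0 := Nat.card_pos.ne'
  have hPermΩ : Nat.card (Perm Ω) = (a * Fintype.card ι).factorial := by
    rw [Nat.card_perm, Nat.card_eq_fintype_card, hcard]
  have hPermΩ' : Nat.card (Perm Ω') = a.factorial := by
    rw [Nat.card_perm, Nat.card_eq_fintype_card, hΩ']
  have hHidx : Nat.card ↥H * H.index = (a * Fintype.card ι).factorial := by
    rw [← hPermΩ]
    exact Subgroup.card_mul_index H
  have hH'idx : Nat.card ↥H' * H'.index = a.factorial := by
    rw [← hPermΩ']
    exact Subgroup.card_mul_index H'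
  have hidx0 : H.index ≠ 0 := by
    intro h
    rw [h, mul_zero] at hHidx
    exact (Nat.factorial_pos _).ne' hHidx.symm
  have hidx0' : H'.index ≠ 0 := by
    intro h
    rw [h, mul_zero] at hH'idx
    exact (Nat.factorial_pos _).ne' hH'idx.symm
  have hfact := hFACT a (Fintype.card ι) ha
  have key : ∀ p : ℕ, p.Prime → p ∈ π →
      padicValNat p (a * Fintype.card ι).factorial ≤
        Fintype.card ι * padicValNat p (Nat.card ↥H') +
          padicValNat p (Fintype.card ι).factorial := by
    intro p hp hpπ
    haveI : Fact p.Prime := ⟨hp⟩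
    have h1 : padicValNat p H.index = 0 := by
      rw [padicValNat.eq_zero_iff]
      right; right
      exact hHall.2 p hp hpπ
    have h2 : padicValNat p (a * Fintype.card ι).factorial = padicValNat p (Nat.card ↥H) := by
      rw [← hHidx, padicValNat.mul hHpos hidx0, h1, add_zero]
    have h3 : padicValNat p (Nat.card ↥H) ≤
        padicValNat p (Nat.card ↥H' ^ Fintype.card ι * (Fintype.card ι).factorial) :=
      val_le_of_dvd p (mul_ne_zero (pow_ne_zero _ hH'pos) (Nat.factorial_pos _).ne') hdvd2
    rw [padicValNat.mul (pow_ne_zero _ hH'pos) (Nat.factorial_pos _).ne',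
      padicValNat.pow] at h3
    rw [h2]
    exact h3
  have hle : ∀ p : ℕ, p.Prime →
      padicValNat p (Nat.card ↥H') ≤ padicValNat p a.factorial := by
    intro p hp
    haveI : Fact p.Prime := ⟨hp⟩
    exact val_le_of_dvd p (Nat.factorial_pos _).ne' (Dvd.intro _ hH'idx)
  refine ⟨?_, Ω', instF, instD, H', hΩ', ?_, ?_⟩
  · intro p hp hpπ
    have h1 := key p hp hpπ
    have h2 := hle p hp
    have h3 : Fintype.card ι * padicValNat p (Nat.card ↥H') ≤
        Fintype.card ι * padicValNat p a.factorial := Nat.mul_le_mul_left _ h2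
    omega
  · intro p hp hdvd
    exact hHall.1 p hp (hdvd.trans hdvd1)
  · intro p hp hpπ hdvd
    haveI : Fact p.Prime := ⟨hp⟩
    have h1 := key p hp hpπ
    have h2 : padicValNat p (a.factorial ^ Fintype.card ι * (Fintype.card ι).factorial) ≤
        padicValNat p (a * Fintype.card ι).factorial :=
      val_le_of_dvd p (Nat.factorial_pos _).ne' hfact
    rw [padicValNat.mul (pow_ne_zero _ (Nat.factorial_pos _).ne') (Nat.factorial_pos _).ne',
      padicValNat.pow] at h2
    have h3 : Fintype.card ι * padicValNat p a.factorial ≤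
        Fintype.card ι * padicValNat p (Nat.card ↥H') := by omega
    have h4 : padicValNat p a.factorial ≤ padicValNat p (Nat.card ↥H') :=
      Nat.le_of_mul_le_mul_left h3 (by omega)
    have h5 : padicValNat p a.factorial =
        padicValNat p (Nat.card ↥H') + padicValNat p H'.index := by
      rw [← hH'idx, padicValNat.mul hH'pos hidx0']
    have h6 : padicValNat p H'.index = 0 := by omega
    rw [padicValNat.eq_zero_iff] at h6
    rcases h6 with h | h | h
    · exact hp.one_lt.ne' h
    · exact hidx0' h
    · exact h hdvd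

end Cfsg.Agent.Lib.Helper99.HSBLK
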