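import Mathlib
import Cfsg.Agent.Lib.Helper96.HallSymStmt

/-! Piece EX8 of S2536: the symmetric group of degree 8 has a Hall `{2, 3}`-subgroup (the
stabilizer of a partition into two sets of four points, of order `1152`). -/

set_option autoImplicit false

namespace Cfsg.Agent.Lib.Helper99.HSEX8

open Equiv Cfsg.Agent.Lib.Helper96.HallSymStmt

/-- the block function -/
def f (x : Fin 8) : Bool := decide (x.val < 4)

/-- a permutation swapping the two blocks -/
def t : Perm (Fin 8) := Fin.revPerm

theorem f_t : ∀ x : Fin 8, f (t x) = !f x := by decide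

theorem f_tinv : ∀ x : Fin 8, f (t⁻¹ x) = !f x := by decide

/-- the permutations fixing both blocks -/
def Kset : Set (Perm (Fin 8)) := {σ | ∀ x, f (σ x) = f x}

/-- the permutations swapping the blocks -/
def Mset : Set (Perm (Fin 8)) := {σ | ∀ x, f (σ x) = !f x}

/-- the stabilizer of the partition -/
def H : Subgroup (Perm (Fin 8)) where
  carrier := Kset ∪ Mset
  one_mem' := Or.inl (fun x => rfl)
  mul_mem' := by
    rintro a b (ha | ha) (hb | hb)
    · have ha' : ∀ x, f (a x) = f x := ha
      have hb' : ∀ x, f (b x) = f x := hb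
      left; intro x; rw [Perm.mul_apply, ha', hb']
    · have ha' : ∀ x, f (a x) = f x := ha
      have hb' : ∀ x, f (b x) = !f x := hb
      right; intro x; rw [Perm.mul_apply, ha', hb']
    · have ha' : ∀ x, f (a x) = !f x := ha
      have hb' : ∀ x, f (b x) = f x := hb
      right; intro x; rw [Perm.mul_apply, ha', hb']
    · have ha' : ∀ x, f (a x) = !f x := ha
      have hb' : ∀ x, f (b x) = !f x := hb
      left; intro x; rw [Perm.mul_apply, ha', hb', Bool.not_not]
  inv_mem' := by
    rintro a (ha | ha)
    · have ha' : ∀ x, f (a x) = f x := ha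
      left; intro x
      have h := ha' (a⁻¹ x)
      have e : a (a⁻¹ x) = x := by rw [← Perm.mul_apply, mul_inv_cancel, Perm.one_apply]
      rw [e] at h
      exact h.symm
    · have ha' : ∀ x, f (a x) = !f x := ha
      right; intro x
      have h := ha' (a⁻¹ x)
      have e : a (a⁻¹ x) = x := by rw [← Perm.mul_apply, mul_inv_cancel, Perm.one_apply]
      rw [e] at h
      rw [h, Bool.not_not]

theorem card_K : Kset.ncard = 576 := by
  have h1 : Kset = {g : Perm (Fin 8) | f ∘ g = f} := by
    ext σ
    exact ⟨fun h => funext h, fun h x => congrFun h x⟩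
  rw [h1, DomMulAct.stabilizer_ncard f, Fintype.prod_bool]
  have h2 : {a : Fin 8 | f a = true}.ncard = 4 := by
    rw [← Finset.coe_filter_univ, Set.ncard_coe_finset]
    decide
  have h3 : {a : Fin 8 | f a = false}.ncard = 4 := by
    rw [← Finset.coe_filter_univ, Set.ncard_coe_finset]
    decide
  rw [h2, h3]
  decide

theorem card_M : Mset.ncard = 576 := by
  have h1 : Mset = (fun σ => t * σ) '' Kset := by
    ext σ
    constructor
    · intro h
      have h' : ∀ x, f (σ x) = !f x := h
      refine ⟨t⁻¹ * σ, ?_, by simp⟩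
      intro x
      rw [Perm.mul_apply, f_tinv, h', Bool.not_not]
    · rintro ⟨k, hk, rfl⟩
      have hk' : ∀ x, f (k x) = f x := hk
      intro x
      show f ((t * k) x) = !f x
      rw [Perm.mul_apply, f_t, hk']
  rw [h1, Set.ncard_image_of_injective _ (mul_right_injective t), card_K]

theorem card_H : Nat.card ↥H = 1152 := by
  have h1 : Nat.card ↥H = (Kset ∪ Mset).ncard := rfl
  have hdisj : Disjoint Kset Mset := by
    rw [Set.disjoint_left]
    intro σ hK hM
    have h2 : f (σ 0) = f 0 := hK 0
    have h3 : f (σ 0) = !f 0 := hM 0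
    rw [h2] at h3
    exact absurd h3 (by decide)
  rw [h1, Set.ncard_union_eq hdisj, card_K, card_M]

theorem index_H : H.index = 35 := by
  have h1 := Subgroup.card_mul_index H
  rw [card_H, Nat.card_perm, Nat.card_eq_fintype_card, Fintype.card_fin] at h1
  have h2 : Nat.factorial 8 = 40320 := by decide
  rw [h2] at h1
  omega

theorem main : Cfsg.Agent.Lib.Helper96.HallSymStmt.EX8 := by
  intro π hπ
  refine ⟨H, ?_, ?_⟩
  · intro p hp hdvd
    rw [card_H] at hdvd
    have h1 : (1152 : ℕ) = 2 ^ 7 * 3 ^ 2 := by norm_num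
    rw [h1] at hdvd
    rcases (Nat.Prime.dvd_mul hp).1 hdvd with h | h
    · have h2 := (Nat.prime_dvd_prime_iff_eq hp Nat.prime_two).1 (hp.dvd_of_dvd_pow h)
      subst h2
      exact (hπ 2 hp (by norm_num)).2 (Or.inl rfl)
    · have h2 := (Nat.prime_dvd_prime_iff_eq hp Nat.prime_three).1 (hp.dvd_of_dvd_pow h)
      subst h2
      exact (hπ 3 hp (by norm_num)).2 (Or.inr rfl)
  · intro p hp hmem hdvd
    rw [index_H] at hdvd
    have h35 : (35 : ℕ) = 5 * 7 := by norm_num
    rw [h35] at hdvd
    have hp8 : p ≤ 8 := by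
      rcases (Nat.Prime.dvd_mul hp).1 hdvd with h | h
      · have h2 := Nat.le_of_dvd (by norm_num) h
        omega
      · have h2 := Nat.le_of_dvd (by norm_num) h
        omega
    rcases (hπ p hp hp8).1 hmem with rfl | rfl
    · norm_num at hdvd
    · norm_num at hdvd

end Cfsg.Agent.Lib.Helper99.HSEX8
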