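import Mathlib

set_option autoImplicit false
set_option linter.unusedSectionVars false

namespace Cfsg.Agent.Lib.Helper99.Hall4

universe v

variable {G : Type v} [Group G]

/-- the centralizer of `t` in `H` -/
def Cn (H : Subgroup G) (t : G) : Subgroup G := H ⊓ Subgroup.centralizer {t}

theorem mem_Cn {H : Subgroup G} {t g : G} : g ∈ Cn H t ↔ g ∈ H ∧ t * g = g * t := by
  unfold Cn
  rw [Subgroup.mem_inf, Subgroup.mem_centralizer_iff]
  simp

/-- the elements of `H` inverted by `t` -/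
def Iv (H : Subgroup G) (t : G) : Set G := {k | k ∈ H ∧ t * k * t = k⁻¹}

theorem mem_Iv {H : Subgroup G} {t k : G} : k ∈ Iv H t ↔ k ∈ H ∧ t * k * t = k⁻¹ := Iff.rfl

theorem odd_sq_eq_one {x : G} (hx : Odd (orderOf x)) (h : x * x = 1) : x = 1 := by
  have h2 : orderOf x ∣ 2 := orderOf_dvd_of_pow_eq_one (by rw [pow_two]; exact h)
  have h1 : orderOf x = 1 := by
    rcases (Nat.dvd_prime Nat.prime_two).mp h2 with h1 | h1
    · exact h1
    · rw [h1] at hx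
      exact absurd hx (by decide)
  exact orderOf_eq_one_iff.mp h1

theorem exists_pow_sq {k : G} (hk : Odd (orderOf k)) : ∃ j : ℕ, (k * k) ^ j = k := by
  obtain ⟨r, hr⟩ := hk
  refine ⟨r + 1, ?_⟩
  rw [← pow_two, ← pow_mul]
  have : 2 * (r + 1) = orderOf k + 1 := by omega
  rw [this, pow_succ, pow_orderOf_eq_one, one_mul]

theorem exists_sqrt {k : G} (hk : Odd (orderOf k)) : ∃ j : ℕ, k ^ j * k ^ j = k := by
  obtain ⟨r, hr⟩ := hk
  refine ⟨r + 1, ?_⟩
  rw [← pow_add]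
  have : r + 1 + (r + 1) = orderOf k + 1 := by omega
  rw [this, pow_succ, pow_orderOf_eq_one, one_mul]

theorem sq_inj {x y : G} (hx : Odd (orderOf x)) (hy : Odd (orderOf y)) (h : x * x = y * y) :
    x = y := by
  have h1 : orderOf (x * x) = orderOf x := by
    rw [← pow_two]
    exact (Odd.coprime_two_right hx).orderOf_pow
  have h2 : orderOf (y * y) = orderOf y := by
    rw [← pow_two]
    exact (Odd.coprime_two_right hy).orderOf_pow
  have h3 : orderOf x = orderOf y := by rw [← h1, ← h2, h]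
  obtain ⟨r, hr⟩ := hx
  have e1 : (x * x) ^ (r + 1) = x := by
    rw [← pow_two, ← pow_mul]
    have : 2 * (r + 1) = orderOf x + 1 := by omega
    rw [this, pow_succ, pow_orderOf_eq_one, one_mul]
  have e2 : (y * y) ^ (r + 1) = y := by
    rw [← pow_two, ← pow_mul]
    have : 2 * (r + 1) = orderOf y + 1 := by omega
    rw [this, pow_succ, pow_orderOf_eq_one, one_mul]
  rw [← e1, ← e2, h]

theorem inv_of_sq_one {t : G} (ht : t * t = 1) : t⁻¹ = t := inv_eq_of_mul_eq_one_right ht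

theorem inv_conj_pow {t w : G} (ht : t * t = 1) (hw : t * w * t = w⁻¹) (j : ℕ) :
    t * w ^ j * t = (w ^ j)⁻¹ := by
  have hti := inv_of_sq_one ht
  have h1 : t * w ^ j * t⁻¹ = (t * w * t⁻¹) ^ j := (conj_pow).symm
  rw [hti] at h1
  rw [h1, hw, inv_pow]

theorem conj_inv_of_inv {t e : G} (ht : t * t = 1) (he : t * e * t = e⁻¹) : t * e⁻¹ * t = e := by
  have hti := inv_of_sq_one ht
  have := congrArg (fun x => x⁻¹) he
  simp only [mul_inv_rev, inv_inv, hti] at this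
  rw [mul_assoc]
  exact this

theorem decomp_unique {H : Subgroup G} (hodd : ∀ h ∈ H, Odd (orderOf h)) {t : G}
    {c c' k k' : G} (hc : c ∈ H) (hc' : c' ∈ H) (hct : t * c = c * t) (hct' : t * c' = c' * t)
    (hk : k ∈ H) (hkt : t * k * t = k⁻¹) (hkt' : t * k' * t = k'⁻¹)
    (h : c * k = c' * k') : c = c' ∧ k = k' := by
  set d := c'⁻¹ * c with hd
  have hdH : d ∈ H := H.mul_mem (H.inv_mem hc') hc
  have hk' : k' = d * k := by rw [hd, mul_assoc, h, inv_mul_cancel_left]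
  have hdt : t * d = d * t := by
    have h1 : Commute t c := hct
    have h2 : Commute t c' := hct'
    exact (h2.inv_right.mul_right h1)
  have e1 : d * k⁻¹ = k⁻¹ * d⁻¹ := by
    have h3 : t * (d * k) * t = (d * k)⁻¹ := by rw [← hk']; exact hkt'
    rw [mul_inv_rev] at h3
    rw [← h3, ← mul_assoc, hdt, mul_assoc d, mul_assoc d, hkt]
  have e2 : k * d = d⁻¹ * k := by
    have := congrArg (fun x => k * x * k) e1
    simpa [mul_assoc] using this
  have e3 : k * d⁻¹ = d * k := by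
    have := congrArg (fun x => (k * x)⁻¹ * k) e1
    simpa [mul_assoc] using this
  have e4 : Commute (k * k) d := by
    show k * k * d = d * (k * k)
    rw [mul_assoc, e2, ← mul_assoc, e3, mul_assoc]
  obtain ⟨j, hj⟩ := exists_pow_sq (hodd k hk)
  have e5 : Commute k d := by
    rw [← hj]
    exact e4.pow_left j
  have e6 : d = d⁻¹ := by
    have h4 : d * k = d⁻¹ * k := by rw [← e5.eq, e2]
    exact mul_right_cancel h4
  have e7 : d * d = 1 := by
    nth_rewrite 2 [e6]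
    exact mul_inv_cancel d
  have e8 : d = 1 := odd_sq_eq_one (hodd d hdH) e7
  have e9 : c' = c := inv_mul_eq_one.mp e8
  refine ⟨e9.symm, ?_⟩
  rw [hk', e8, one_mul]

theorem decomp_exists {H : Subgroup G} (hodd : ∀ h ∈ H, Odd (orderOf h)) {t : G} (ht : t * t = 1)
    (hn : ∀ h ∈ H, t * h * t ∈ H) {h : G} (hh : h ∈ H) :
    ∃ c k, c ∈ H ∧ t * c = c * t ∧ k ∈ H ∧ t * k * t = k⁻¹ ∧ h = c * k := by
  set w := t * h⁻¹ * t * h with hw
  have hwH : w ∈ H := H.mul_mem (hn _ (H.inv_mem hh)) hh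
  have hti : t⁻¹ = t := inv_of_sq_one ht
  have hwt : t * w * t = w⁻¹ := by
    rw [hw]
    simp only [mul_inv_rev, inv_inv, hti, mul_assoc]
    rw [← mul_assoc t t, ht, one_mul]
  obtain ⟨j, hj⟩ := exists_sqrt (hodd w hwH)
  set e := w ^ j with he
  have heH : e ∈ H := H.pow_mem hwH j
  have het : t * e * t = e⁻¹ := inv_conj_pow ht hwt j
  refine ⟨h * e⁻¹, e, H.mul_mem hh (H.inv_mem heH), ?_, heH, het, by rw [inv_mul_cancel_right]⟩
  have k0 : t * h * t * (e * e) = h := by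
    rw [hj, hw]
    simp only [mul_assoc]
    rw [← mul_assoc t t, ht, one_mul, mul_inv_cancel_left, ← mul_assoc t t, ht, one_mul]
  have k1 : t * h * t = h * e⁻¹ * e⁻¹ := by
    calc t * h * t = t * h * t * (e * e) * (e * e)⁻¹ := by rw [mul_inv_cancel_right]
      _ = h * e⁻¹ * e⁻¹ := by rw [k0, mul_inv_rev, mul_assoc]
  have k2 : t * e⁻¹ = e * t := by
    have h5 := conj_inv_of_inv ht het
    calc t * e⁻¹ = t * e⁻¹ * t * t := by rw [mul_assoc (t * e⁻¹), ht, mul_one]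
      _ = e * t := by rw [h5]
  calc t * (h * e⁻¹) = t * h * (t * t) * e⁻¹ := by rw [ht, mul_one, mul_assoc]
    _ = (t * h * t) * (t * e⁻¹) := by simp only [mul_assoc]
    _ = h * e⁻¹ * e⁻¹ * (e * t) := by rw [k1, k2]
    _ = h * e⁻¹ * t := by simp only [mul_assoc, inv_mul_cancel_left]

theorem card_decomp {H : Subgroup G} [Finite H] (hodd : ∀ h ∈ H, Odd (orderOf h)) {t : G}
    (ht : t * t = 1) (hn : ∀ h ∈ H, t * h * t ∈ H) :
    Nat.card H = Nat.card (Cn H t) * Nat.card (Iv H t) := by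
  let f : (Cn H t) × (Iv H t) → H := fun p =>
    ⟨p.1.1 * p.2.1, H.mul_mem (mem_Cn.mp p.1.2).1 p.2.2.1⟩
  have hf : Function.Bijective f := by
    constructor
    · rintro ⟨⟨c, hc⟩, ⟨k, hk⟩⟩ ⟨⟨c', hc'⟩, ⟨k', hk'⟩⟩ h
      have h' : c * k = c' * k' := congrArg Subtype.val h
      obtain ⟨h1, h2⟩ := decomp_unique hodd (mem_Cn.mp hc).1 (mem_Cn.mp hc').1
        (mem_Cn.mp hc).2 (mem_Cn.mp hc').2 hk.1 hk.2 hk'.2 h'
      subst h1
      subst h2
      rfl
    · rintro ⟨h, hh⟩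
      obtain ⟨c, k, hc, hct, hk, hkt, e⟩ := decomp_exists hodd ht hn hh
      exact ⟨⟨⟨c, mem_Cn.mpr ⟨hc, hct⟩⟩, ⟨k, hk, hkt⟩⟩, Subtype.ext e.symm⟩
  rw [← Nat.card_congr (Equiv.ofBijective f hf), Nat.card_prod]

theorem cn_iff {H : Subgroup G} {t g : G} : g ∈ Cn H t ↔ g ∈ H ∧ MulAut.conj t g = g := by
  rw [mem_Cn, MulAut.conj_apply, mul_inv_eq_iff_eq_mul]

theorem iv_iff {H : Subgroup G} {t k : G} (ht : t * t = 1) :
    k ∈ Iv H t ↔ k ∈ H ∧ MulAut.conj t k = k⁻¹ := by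
  rw [mem_Iv, MulAut.conj_apply, inv_of_sq_one ht]

theorem decomp_unique' {H : Subgroup G} (hodd : ∀ h ∈ H, Odd (orderOf h)) {t : G}
    (ht : t * t = 1) {c c' k k' : G} (hc : c ∈ H) (hc' : c' ∈ H)
    (hct : MulAut.conj t c = c) (hct' : MulAut.conj t c' = c')
    (hk : k ∈ H) (hkt : MulAut.conj t k = k⁻¹) (hkt' : MulAut.conj t k' = k'⁻¹)
    (h : c * k = c' * k') : c = c' ∧ k = k' := by
  rw [MulAut.conj_apply, mul_inv_eq_iff_eq_mul] at hct hct'
  rw [MulAut.conj_apply, inv_of_sq_one ht] at hkt hkt'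
  exact decomp_unique hodd hc hc' hct hct' hk hkt hkt' h

theorem decomp_exists' {H : Subgroup G} (hodd : ∀ h ∈ H, Odd (orderOf h)) {t : G}
    (ht : t * t = 1) (hn : ∀ h ∈ H, t * h * t ∈ H) {h : G} (hh : h ∈ H) :
    ∃ c k, c ∈ H ∧ MulAut.conj t c = c ∧ k ∈ H ∧ MulAut.conj t k = k⁻¹ ∧ h = c * k := by
  obtain ⟨c, k, hc, hct, hk, hkt, e⟩ := decomp_exists hodd ht hn hh
  refine ⟨c, k, hc, ?_, hk, ?_, e⟩
  · rw [MulAut.conj_apply, mul_inv_eq_iff_eq_mul]
    exact hct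
  · rw [MulAut.conj_apply, inv_of_sq_one ht]
    exact hkt

theorem card_Iv_eq {H : Subgroup G} [Finite H] (hodd : ∀ h ∈ H, Odd (orderOf h)) {t1 t2 : G}
    (h1 : t1 * t1 = 1) (h2 : t2 * t2 = 1) (hc : t1 * t2 = t2 * t1)
    (hn1 : ∀ h ∈ H, t1 * h * t1 ∈ H) (hn2 : ∀ h ∈ H, t2 * h * t2 ∈ H) :
    Nat.card (Iv H t1) = Nat.card (Iv (Cn H t2) t1) * Nat.card (Iv (Cn H (t1 * t2)) t1) := by
  have hαα : ∀ x, MulAut.conj t1 (MulAut.conj t1 x) = x := by
    intro x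
    rw [← MulAut.mul_apply, ← map_mul, h1, map_one, MulAut.one_apply]
  have hαβ : ∀ x, MulAut.conj t1 (MulAut.conj t2 x) = MulAut.conj t2 (MulAut.conj t1 x) := by
    intro x
    rw [← MulAut.mul_apply, ← MulAut.mul_apply, ← map_mul, ← map_mul, hc]
  have h12 : ∀ x, MulAut.conj (t1 * t2) x = MulAut.conj t1 (MulAut.conj t2 x) := by
    intro x
    rw [map_mul, MulAut.mul_apply]
  have hnα : ∀ h ∈ H, MulAut.conj t1 h ∈ H := by
    intro h hh
    rw [MulAut.conj_apply, inv_of_sq_one h1]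
    exact hn1 h hh
  -- unpack memberships
  have unE : ∀ e ∈ Iv (Cn H t2) t1, e ∈ H ∧ MulAut.conj t2 e = e ∧ MulAut.conj t1 e = e⁻¹ := by
    intro e he
    obtain ⟨he1, he2⟩ := (iv_iff h1).mp he
    obtain ⟨he3, he4⟩ := cn_iff.mp he1
    exact ⟨he3, he4, he2⟩
  have unK : ∀ k ∈ Iv (Cn H (t1 * t2)) t1,
      k ∈ H ∧ MulAut.conj t2 k = k⁻¹ ∧ MulAut.conj t1 k = k⁻¹ := by
    intro k hk
    obtain ⟨hk1, hk2⟩ := (iv_iff h1).mp hk
    obtain ⟨hk3, hk4⟩ := cn_iff.mp hk1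
    refine ⟨hk3, ?_, hk2⟩
    rw [h12] at hk4
    have := congrArg (MulAut.conj t1) hk4
    rw [hαα, hk2] at this
    exact this
  have hf0 : ∀ e ∈ Iv (Cn H t2) t1, ∀ k ∈ Iv (Cn H (t1 * t2)) t1, e * k * e ∈ Iv H t1 := by
    intro e he k hk
    obtain ⟨he1, he2, he3⟩ := unE e he
    obtain ⟨hk1, hk2, hk3⟩ := unK k hk
    refine (iv_iff h1).mpr ⟨H.mul_mem (H.mul_mem he1 hk1) he1, ?_⟩
    rw [map_mul, map_mul, he3, hk3, mul_inv_rev, mul_inv_rev, mul_assoc]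
  let f : (Iv (Cn H t2) t1) × (Iv (Cn H (t1 * t2)) t1) → Iv H t1 := fun p =>
    ⟨p.1.1 * p.2.1 * p.1.1, hf0 _ p.1.2 _ p.2.2⟩
  have hf : Function.Bijective f := by
    constructor
    · rintro ⟨⟨e, he⟩, ⟨k, hk⟩⟩ ⟨⟨e', he'⟩, ⟨k', hk'⟩⟩ h
      have h' : e * k * e = e' * k' * e' := congrArg Subtype.val h
      obtain ⟨he1, he2, he3⟩ := unE e he
      obtain ⟨hk1, hk2, hk3⟩ := unK k hk
      obtain ⟨he1', he2', he3'⟩ := unE e' he'
      obtain ⟨hk1', hk2', hk3'⟩ := unK k' hk'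
      have h'' : (e * e) * (e⁻¹ * k * e) = (e' * e') * (e'⁻¹ * k' * e') := by
        simp only [mul_assoc, mul_inv_cancel_left]
        simpa only [mul_assoc] using h'
      obtain ⟨q1, q2⟩ := decomp_unique' hodd h2 (H.mul_mem he1 he1) (H.mul_mem he1' he1')
        (by rw [map_mul, he2]) (by rw [map_mul, he2'])
        (H.mul_mem (H.mul_mem (H.inv_mem he1) hk1) he1)
        (by rw [map_mul, map_mul, map_inv, he2, hk2, mul_inv_rev, mul_inv_rev, inv_inv, mul_assoc])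
        (by rw [map_mul, map_mul, map_inv, he2', hk2', mul_inv_rev, mul_inv_rev, inv_inv,
          mul_assoc]) h''
      have q3 : e = e' := sq_inj (hodd e he1) (hodd e' he1') q1
      subst q3
      have q4 : k = k' := by
        have := congrArg (fun x => e * x * e⁻¹) q2
        simpa [mul_assoc] using this
      subst q4
      rfl
    · rintro ⟨h, hh⟩
      obtain ⟨hhH, hht⟩ := (iv_iff h1).mp hh
      obtain ⟨c, κ, hcH, hct, hκH, hκt, e0⟩ := decomp_exists' hodd h2 hn2 hhH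
      have u1 : MulAut.conj t1 c * MulAut.conj t1 κ = c⁻¹ * (c * κ⁻¹ * c⁻¹) := by
        rw [← map_mul, ← e0, hht, e0, mul_inv_rev]
        simp only [mul_assoc, inv_mul_cancel_left]
      obtain ⟨u2, u3⟩ := decomp_unique' hodd h2 (hnα c hcH) (H.inv_mem hcH)
        (by rw [← hαβ, hct]) (by rw [map_inv, hct]) (hnα κ hκH)
        (by rw [← hαβ, hκt, map_inv])
        (by rw [map_mul, map_mul, map_inv, map_inv, hct, hκt, mul_inv_rev, mul_inv_rev, inv_inv,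
          inv_inv, mul_assoc]) u1
      obtain ⟨e, heq, heH, he2, he3⟩ : ∃ e, e * e = c ∧ e ∈ H ∧ MulAut.conj t2 e = e ∧
          MulAut.conj t1 e = e⁻¹ := by
        obtain ⟨j, hj⟩ := exists_sqrt (hodd c hcH)
        exact ⟨c ^ j, hj, H.pow_mem hcH j, by rw [map_pow, hct], by rw [map_pow, u2, inv_pow]⟩
      subst heq
      have hkH : e * κ * e⁻¹ ∈ H := H.mul_mem (H.mul_mem heH hκH) (H.inv_mem heH)
      have hk2 : MulAut.conj t2 (e * κ * e⁻¹) = (e * κ * e⁻¹)⁻¹ := by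
        rw [map_mul, map_mul, map_inv, he2, hκt]
        group
      have hk3 : MulAut.conj t1 (e * κ * e⁻¹) = (e * κ * e⁻¹)⁻¹ := by
        rw [map_mul, map_mul, map_inv, he3, u3]
        group
      refine ⟨⟨⟨e, (iv_iff h1).mpr ⟨cn_iff.mpr ⟨heH, he2⟩, he3⟩⟩,
        ⟨e * κ * e⁻¹, (iv_iff h1).mpr ⟨cn_iff.mpr ⟨hkH, ?_⟩, hk3⟩⟩⟩, ?_⟩
      · rw [h12, hk2, map_inv, hk3, inv_inv]
      · apply Subtype.ext
        show e * (e * κ * e⁻¹) * e = h
        rw [e0]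
        group
  rw [← Nat.card_congr (Equiv.ofBijective f hf), Nat.card_prod]

/-- Brauer–Wielandt formula for a four-group `{1, t1, t2, t1 t2}` acting on a group of odd
order. -/
theorem wielandt {H : Subgroup G} [Finite H] (hodd : ∀ h ∈ H, Odd (orderOf h)) {t1 t2 : G}
    (h1 : t1 * t1 = 1) (h2 : t2 * t2 = 1) (hc : t1 * t2 = t2 * t1)
    (hn1 : ∀ h ∈ H, t1 * h * t1 ∈ H) (hn2 : ∀ h ∈ H, t2 * h * t2 ∈ H) :
    Nat.card H * Nat.card (Cn (Cn H t2) t1) ^ 2 =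
      Nat.card (Cn H t1) * Nat.card (Cn H t2) * Nat.card (Cn H (t1 * t2)) := by
  have e1 := card_decomp hodd h1 hn1
  have e2 := card_Iv_eq hodd h1 h2 hc hn1 hn2
  have hodd2 : ∀ h ∈ Cn H t2, Odd (orderOf h) := fun h hh => hodd h (mem_Cn.mp hh).1
  have hodd3 : ∀ h ∈ Cn H (t1 * t2), Odd (orderOf h) := fun h hh => hodd h (mem_Cn.mp hh).1
  have hle2 : Cn H t2 ≤ H := fun h hh => (mem_Cn.mp hh).1
  have hle3 : Cn H (t1 * t2) ≤ H := fun h hh => (mem_Cn.mp hh).1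
  have : Finite (Cn H t2) := Finite.of_injective (Subgroup.inclusion hle2)
    (Subgroup.inclusion_injective hle2)
  have : Finite (Cn H (t1 * t2)) := Finite.of_injective (Subgroup.inclusion hle3)
    (Subgroup.inclusion_injective hle3)
  have hti := inv_of_sq_one h1
  have n2 : ∀ h ∈ Cn H t2, t1 * h * t1 ∈ Cn H t2 := by
    intro h hh
    obtain ⟨hh1, hh2⟩ := mem_Cn.mp hh
    refine mem_Cn.mpr ⟨hn1 h hh1, ?_⟩
    have c1 : Commute t2 t1 := hc.symm
    have c2 : Commute t2 h := hh2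
    exact (c1.mul_right c2).mul_right c1
  have n3 : ∀ h ∈ Cn H (t1 * t2), t1 * h * t1 ∈ Cn H (t1 * t2) := by
    intro h hh
    obtain ⟨hh1, hh2⟩ := mem_Cn.mp hh
    refine mem_Cn.mpr ⟨hn1 h hh1, ?_⟩
    have c1 : Commute (t1 * t2) t1 := by
      show t1 * t2 * t1 = t1 * (t1 * t2)
      rw [mul_assoc, hc]
    have c2 : Commute (t1 * t2) h := hh2
    exact (c1.mul_right c2).mul_right c1
  have e3 := card_decomp hodd2 h1 n2
  have e4 := card_decomp hodd3 h1 n3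
  have e5 : Cn (Cn H (t1 * t2)) t1 = Cn (Cn H t2) t1 := by
    ext g
    rw [mem_Cn, mem_Cn, mem_Cn, mem_Cn]
    constructor
    · rintro ⟨⟨a1, a2⟩, a3⟩
      refine ⟨⟨a1, ?_⟩, a3⟩
      calc t2 * g = t1 * (t1 * t2 * g) := by rw [← mul_assoc, ← mul_assoc, h1, one_mul]
        _ = t1 * (g * (t1 * t2)) := by rw [a2]
        _ = (t1 * g) * t1 * t2 := by simp only [mul_assoc]
        _ = g * (t1 * t1) * t2 := by rw [a3]; simp only [mul_assoc]
        _ = g * t2 := by rw [h1, mul_one]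
    · rintro ⟨⟨a1, a2⟩, a3⟩
      refine ⟨⟨a1, ?_⟩, a3⟩
      rw [mul_assoc, a2, ← mul_assoc, a3, mul_assoc]
  rw [e5] at e4
  rw [e1, e2, e3, e4]
  ring

end Cfsg.Agent.Lib.Helper99.Hall4
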