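import Cfsg.Agent.Lib.Helper99.HallA

set_option autoImplicit false
set_option linter.unusedSectionVars false

open MulAction
open scoped Pointwise

namespace Cfsg.Agent.Lib.Helper99.Hall4

universe u v

variable {G : Type v} {Ω : Type u} [Group G] [MulAction G Ω]

/-- four pairwise distinct points -/
def Dist4 (p1 p2 p3 p4 : Ω) : Prop :=
  p1 ≠ p2 ∧ p1 ≠ p3 ∧ p1 ≠ p4 ∧ p2 ≠ p3 ∧ p2 ≠ p4 ∧ p3 ≠ p4

/-- `G` is 4-transitive on `Ω` and elements fixing four points have odd order -/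
structure Hyp (G : Type v) (Ω : Type u) [Group G] [MulAction G Ω] : Prop where
  trans : ∀ p1 p2 p3 p4 q1 q2 q3 q4 : Ω, Dist4 p1 p2 p3 p4 → Dist4 q1 q2 q3 q4 →
    ∃ g : G, g • p1 = q1 ∧ g • p2 = q2 ∧ g • p3 = q3 ∧ g • p4 = q4
  odd : ∀ (g : G) (p1 p2 p3 p4 : Ω), Dist4 p1 p2 p3 p4 → g • p1 = p1 → g • p2 = p2 →
    g • p3 = p3 → g • p4 = p4 → Odd (orderOf g)

theorem pow_smul_fix {g : G} {x : Ω} (h : g • x = x) (n : ℕ) : g ^ n • x = x := by
  induction n with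
  | zero => simp
  | succ n ih => rw [pow_succ, mul_smul, h, ih]

theorem odd_smul_of_sq {g : G} {x : Ω} (hg : Odd (orderOf g)) (h : (g * g) • x = x) :
    g • x = x := by
  obtain ⟨j, hj⟩ := exists_pow_sq hg
  rw [← hj]
  exact pow_smul_fix h j

theorem odd_swap {g : G} {x y : Ω} (hg : Odd (orderOf g)) (h1 : g • x = y) (h2 : g • y = x) :
    x = y := by
  have : g • x = x := odd_smul_of_sq hg (by rw [mul_smul, h1, h2])
  rw [← this, h1]

theorem odd_perm2 {g : G} {x y : Ω} (hg : Odd (orderOf g)) (hx : g • x = x ∨ g • x = y)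
    (hy : g • y = x ∨ g • y = y) : g • x = x := by
  rcases hx with hx | hx
  · exact hx
  · rcases hy with hy | hy
    · exact hx.trans (odd_swap hg hx hy).symm
    · have : x = y := smul_left_cancel g (hx.trans hy.symm)
      exact hx.trans this.symm

theorem pow_odd_smul {g : G} {x : Ω} (h : (g * g) • x = x) {k : ℕ} (hk : Odd k) :
    g ^ k • x = g • x := by
  obtain ⟨r, rfl⟩ := hk
  rw [pow_succ, pow_mul, mul_smul, pow_two]
  have h' : (g * g) • (g • x) = g • x := by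
    rw [← mul_smul, mul_assoc, mul_smul, h]
  exact pow_smul_fix h' r

theorem exists_inv_of (h : Hyp G Ω) {p1 p2 p3 p4 : Ω} (hd : Dist4 p1 p2 p3 p4) (g : G)
    (h1 : g • g • p1 = p1) (h2 : g • g • p2 = p2) (h3 : g • g • p3 = p3)
    (h4 : g • g • p4 = p4) :
    ∃ t : G, t * t = 1 ∧ t • p1 = g • p1 ∧ t • p2 = g • p2 ∧ t • p3 = g • p3 ∧
      t • p4 = g • p4 := by
  have k1 : (g * g) • p1 = p1 := by rw [mul_smul, h1]
  have k2 : (g * g) • p2 = p2 := by rw [mul_smul, h2]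
  have k3 : (g * g) • p3 = p3 := by rw [mul_smul, h3]
  have k4 : (g * g) • p4 = p4 := by rw [mul_smul, h4]
  have hodd : Odd (orderOf (g * g)) := h.odd (g * g) p1 p2 p3 p4 hd k1 k2 k3 k4
  refine ⟨g ^ orderOf (g * g), ?_, pow_odd_smul k1 hodd, pow_odd_smul k2 hodd,
    pow_odd_smul k3 hodd, pow_odd_smul k4 hodd⟩
  rw [← pow_add, ← two_mul, pow_mul, pow_two, pow_orderOf_eq_one]

theorem mul_of_conj {t e : G} (ht : t * t = 1) (he : t * e * t = e⁻¹) : t * e = e⁻¹ * t := by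
  calc t * e = t * e * (t * t) := by rw [ht, mul_one]
    _ = (t * e * t) * t := by simp only [mul_assoc]
    _ = e⁻¹ * t := by rw [he]

theorem mul_inv_of_conj {t e : G} (ht : t * t = 1) (he : t * e * t = e⁻¹) :
    t * e⁻¹ = e * t := by
  have h5 := conj_inv_of_inv ht he
  calc t * e⁻¹ = t * e⁻¹ * t * t := by rw [mul_assoc (t * e⁻¹), ht, mul_one]
    _ = e * t := by rw [h5]

/-- two involutions whose product has odd order are conjugate by a power of the product -/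
theorem conj_sqrt {t t' : G} (ht : t * t = 1) (ht' : t' * t' = 1)
    (hodd : Odd (orderOf (t' * t))) :
    ∃ j : ℕ, (t' * t) ^ j * t * ((t' * t) ^ j)⁻¹ = t' := by
  have hdt : t * (t' * t) * t = (t' * t)⁻¹ := by
    rw [mul_inv_rev, inv_of_sq_one ht, inv_of_sq_one ht']
    simp only [mul_assoc]
    rw [ht, mul_one]
  obtain ⟨j, hj⟩ := exists_sqrt hodd
  have het : t * (t' * t) ^ j * t = ((t' * t) ^ j)⁻¹ := inv_conj_pow ht hdt j
  refine ⟨j, ?_⟩
  rw [mul_assoc, mul_inv_of_conj ht het, ← mul_assoc, hj, mul_assoc, ht, mul_one]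

theorem conj_agree (h : Hyp G Ω) {t t' : G} (ht : t * t = 1) (ht' : t' * t' = 1)
    {y1 y2 y3 y4 : Ω} (hy : Dist4 y1 y2 y3 y4)
    (hinv : ∀ z, z = y1 ∨ z = y2 ∨ z = y3 ∨ z = y4 →
      t • z = y1 ∨ t • z = y2 ∨ t • z = y3 ∨ t • z = y4)
    (hag : ∀ z, z = y1 ∨ z = y2 ∨ z = y3 ∨ z = y4 → t' • z = t • z) :
    ∃ e : G, e • y1 = y1 ∧ e • y2 = y2 ∧ e • y3 = y3 ∧ e • y4 = y4 ∧ e * t * e⁻¹ = t' := by
  have hfix : ∀ z, z = y1 ∨ z = y2 ∨ z = y3 ∨ z = y4 → (t' * t) • z = z := by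
    intro z hz
    rw [mul_smul, hag _ (hinv z hz), ← mul_smul, ht, one_smul]
  have f1 := hfix y1 (Or.inl rfl)
  have f2 := hfix y2 (Or.inr (Or.inl rfl))
  have f3 := hfix y3 (Or.inr (Or.inr (Or.inl rfl)))
  have f4 := hfix y4 (Or.inr (Or.inr (Or.inr rfl)))
  have hodd : Odd (orderOf (t' * t)) := h.odd _ y1 y2 y3 y4 hy f1 f2 f3 f4
  obtain ⟨j, hj⟩ := conj_sqrt ht ht' hodd
  exact ⟨(t' * t) ^ j, pow_smul_fix f1 j, pow_smul_fix f2 j, pow_smul_fix f3 j,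
    pow_smul_fix f4 j, hj⟩

theorem trans_conj (h : Hyp G Ω) {t s : G} (ht : t * t = 1) (hs : s * s = 1)
    {x1 x2 x3 x4 y1 y2 y3 y4 : Ω} (hx : Dist4 x1 x2 x3 x4) (hy : Dist4 y1 y2 y3 y4)
    (hinv : ∀ z, z = y1 ∨ z = y2 ∨ z = y3 ∨ z = y4 →
      s • z = y1 ∨ s • z = y2 ∨ s • z = y3 ∨ s • z = y4)
    (hpat : ∀ g0 : G, g0 • x1 = y1 → g0 • x2 = y2 → g0 • x3 = y3 → g0 • x4 = y4 →
      g0 • t • x1 = s • y1 ∧ g0 • t • x2 = s • y2 ∧ g0 • t • x3 = s • y3 ∧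
        g0 • t • x4 = s • y4) :
    ∃ g : G, g * t * g⁻¹ = s ∧ g • x1 = y1 ∧ g • x2 = y2 ∧ g • x3 = y3 ∧ g • x4 = y4 := by
  obtain ⟨g0, e1, e2, e3, e4⟩ := h.trans x1 x2 x3 x4 y1 y2 y3 y4 hx hy
  obtain ⟨f1, f2, f3, f4⟩ := hpat g0 e1 e2 e3 e4
  have ht' : (g0 * t * g0⁻¹) * (g0 * t * g0⁻¹) = 1 := by
    simp only [mul_assoc, inv_mul_cancel_left]
    rw [← mul_assoc t t, ht, one_mul, mul_inv_cancel]
  have i1 : g0⁻¹ • y1 = x1 := by rw [← e1, inv_smul_smul]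
  have i2 : g0⁻¹ • y2 = x2 := by rw [← e2, inv_smul_smul]
  have i3 : g0⁻¹ • y3 = x3 := by rw [← e3, inv_smul_smul]
  have i4 : g0⁻¹ • y4 = x4 := by rw [← e4, inv_smul_smul]
  have hag : ∀ z, z = y1 ∨ z = y2 ∨ z = y3 ∨ z = y4 → (g0 * t * g0⁻¹) • z = s • z := by
    rintro z (rfl | rfl | rfl | rfl)
    · rw [mul_smul, mul_smul, i1]
      exact f1
    · rw [mul_smul, mul_smul, i2]
      exact f2
    · rw [mul_smul, mul_smul, i3]
      exact f3
    · rw [mul_smul, mul_smul, i4]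
      exact f4
  obtain ⟨e, k1, k2, k3, k4, k5⟩ := conj_agree h hs ht' hy hinv hag
  refine ⟨e⁻¹ * g0, ?_, ?_, ?_, ?_, ?_⟩
  · rw [mul_inv_rev, inv_inv]
    calc e⁻¹ * g0 * t * (g0⁻¹ * e) = e⁻¹ * (g0 * t * g0⁻¹) * e := by simp only [mul_assoc]
      _ = s := by
        rw [← k5]
        simp only [mul_assoc, inv_mul_cancel_left, inv_mul_cancel, mul_one]
  · rw [mul_smul, e1, inv_smul_eq_iff, k1]
  · rw [mul_smul, e2, inv_smul_eq_iff, k2]
  · rw [mul_smul, e3, inv_smul_eq_iff, k3]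
  · rw [mul_smul, e4, inv_smul_eq_iff, k4]

/-- orbit-stabilizer for a subgroup, in ambient form -/
theorem card_eq_orbit_mul (K : Subgroup G) (x : Ω) (S : Set Ω)
    (h1 : ∀ g ∈ K, g • x ∈ S) (h2 : ∀ y ∈ S, ∃ g ∈ K, g • x = y) :
    Nat.card K = S.ncard * Nat.card (K ⊓ stabilizer G x : Subgroup G) := by
  have e1 := Subgroup.card_eq_card_quotient_mul_card_subgroup (stabilizer K x)
  have e2 : Nat.card (K ⧸ stabilizer K x) = S.ncard := by
    rw [← Nat.card_congr (orbitEquivQuotientStabilizer K x)]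
    have : orbit K x = S := by
      ext y
      constructor
      · rintro ⟨g, rfl⟩
        exact h1 g.1 g.2
      · intro hy
        obtain ⟨g, hg, rfl⟩ := h2 y hy
        exact ⟨⟨g, hg⟩, rfl⟩
    rw [this, Nat.card_coe_set_eq]
  have e3 : Nat.card (stabilizer K x) = Nat.card (K ⊓ stabilizer G x : Subgroup G) := by
    refine Nat.card_congr ⟨fun k => ⟨k.1.1, Subgroup.mem_inf.mpr ⟨k.1.2, ?_⟩⟩,
      fun g => ⟨⟨g.1, (Subgroup.mem_inf.mp g.2).1⟩, ?_⟩, fun k => rfl, fun g => rfl⟩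
    · exact mem_stabilizer_iff.mpr (mem_stabilizer_iff.mp k.2)
    · exact mem_stabilizer_iff.mpr (mem_stabilizer_iff.mp (Subgroup.mem_inf.mp g.2).2)
  rw [e1, e2, e3]

theorem card_conj (K K' : Subgroup G) (g : G) (h : ∀ x, x ∈ K ↔ g * x * g⁻¹ ∈ K') :
    Nat.card K = Nat.card K' := by
  refine Nat.card_congr ⟨fun k => ⟨g * k.1 * g⁻¹, (h k.1).mp k.2⟩,
    fun k => ⟨g⁻¹ * k.1 * g, (h _).mpr (by simp [mul_assoc])⟩, fun k => ?_,
    fun k => ?_⟩
  · apply Subtype.ext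
    simp [mul_assoc]
  · apply Subtype.ext
    simp [mul_assoc]

theorem mem_CnF {s : Set Ω} {t g : G} :
    g ∈ Cn (fixingSubgroup G s) t ↔ (∀ y ∈ s, g • y = y) ∧ t * g = g * t := by
  rw [mem_Cn, mem_fixingSubgroup_iff]

theorem conj_mem_iff (g t x : G) (s : Set Ω) :
    x ∈ Cn (fixingSubgroup G s) t ↔
      g * x * g⁻¹ ∈ Cn (fixingSubgroup G (g • s)) (g * t * g⁻¹) := by
  rw [mem_CnF, mem_CnF]
  constructor
  · rintro ⟨h1, h2⟩
    refine ⟨?_, ?_⟩
    · rintro y ⟨z, hz, rfl⟩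
      show (g * x * g⁻¹) • g • z = g • z
      rw [mul_smul, mul_smul, inv_smul_smul, h1 z hz]
    · simp only [mul_assoc, inv_mul_cancel_left]
      rw [← mul_assoc t x, h2, mul_assoc]
  · rintro ⟨h1, h2⟩
    refine ⟨?_, ?_⟩
    · intro z hz
      have := h1 (g • z) (Set.smul_mem_smul_set hz)
      rw [mul_smul, mul_smul, inv_smul_smul, smul_left_cancel_iff] at this
      exact this
    · have := congrArg (fun w => g⁻¹ * w * g) h2
      simpa [mul_assoc] using this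

theorem card_Cn_conj (g : G) (t : G) (s : Set Ω) :
    Nat.card (Cn (fixingSubgroup G s) t) =
      Nat.card (Cn (fixingSubgroup G (g • s)) (g * t * g⁻¹)) :=
  card_conj _ _ g (fun x => conj_mem_iff g t x s)

theorem norm_FS {t : G} (ht : t * t = 1) {s : Set Ω} (hts : ∀ x ∈ s, t • x ∈ s) :
    ∀ h ∈ fixingSubgroup G s, t * h * t ∈ fixingSubgroup G s := by
  intro h hh
  rw [mem_fixingSubgroup_iff] at hh ⊢
  intro x hx
  rw [mul_smul, mul_smul, hh _ (hts x hx), ← mul_smul, ht, one_smul]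

theorem odd_FS (h : Hyp G Ω) {s : Set Ω} {p1 p2 p3 p4 : Ω} (hd : Dist4 p1 p2 p3 p4)
    (h1 : p1 ∈ s) (h2 : p2 ∈ s) (h3 : p3 ∈ s) (h4 : p4 ∈ s) :
    ∀ g ∈ fixingSubgroup G s, Odd (orderOf g) := by
  intro g hg
  rw [mem_fixingSubgroup_iff] at hg
  exact h.odd g p1 p2 p3 p4 hd (hg _ h1) (hg _ h2) (hg _ h3) (hg _ h4)

theorem exists_dist4 [Finite Ω] {s : Set Ω} (hs : 4 ≤ s.ncard) :
    ∃ p1 p2 p3 p4, Dist4 p1 p2 p3 p4 ∧ p1 ∈ s ∧ p2 ∈ s ∧ p3 ∈ s ∧ p4 ∈ s := by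
  obtain ⟨p1, h1, -⟩ := Set.exists_mem_notMem_of_ncard_lt_ncard (s := (∅ : Set Ω)) (t := s)
    (by rw [Set.ncard_empty]; omega)
  obtain ⟨p2, h2, n2⟩ := Set.exists_mem_notMem_of_ncard_lt_ncard (s := ({p1} : Set Ω)) (t := s)
    (by rw [Set.ncard_singleton]; omega)
  obtain ⟨p3, h3, n3⟩ := Set.exists_mem_notMem_of_ncard_lt_ncard (s := ({p1, p2} : Set Ω))
    (t := s) (by
      have := Set.ncard_insert_le p1 ({p2} : Set Ω)
      rw [Set.ncard_singleton] at this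
      omega)
  obtain ⟨p4, h4, n4⟩ := Set.exists_mem_notMem_of_ncard_lt_ncard
    (s := ({p1, p2, p3} : Set Ω)) (t := s) (by
      have := Set.ncard_insert_le p1 ({p2, p3} : Set Ω)
      have := Set.ncard_insert_le p2 ({p3} : Set Ω)
      rw [Set.ncard_singleton] at this
      omega)
  simp only [Set.mem_insert_iff, Set.mem_singleton_iff, not_or] at n2 n3 n4
  exact ⟨p1, p2, p3, p4, ⟨fun e => n2 e.symm, fun e => n3.1 e.symm, fun e => n4.1 e.symm,
    fun e => n3.2 e.symm, fun e => n4.2.1 e.symm, fun e => n4.2.2 e.symm⟩, h1, h2, h3, h4⟩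

theorem fix_le3 [Finite Ω] (h : Hyp G Ω) {t : G} (ht : t * t = 1) (hne : t ≠ 1) :
    (fixedBy Ω t).ncard ≤ 3 := by
  by_contra hcon
  push Not at hcon
  obtain ⟨p1, p2, p3, p4, hd, h1, h2, h3, h4⟩ := exists_dist4 (s := fixedBy Ω t) (by omega)
  exact hne (odd_sq_eq_one (h.odd t p1 p2 p3 p4 hd h1 h2 h3 h4) ht)

/-- given involutions `a`, `t` with `a t a t` of odd order, a conjugate `e t` of `t`
(with `e` a power of `a t a t`) commutes with `a` -/
theorem mid {a t : G} (ha : a * a = 1) (ht : t * t = 1)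
    (hodd : Odd (orderOf (a * t * a * t))) :
    ∃ j : ℕ, ((a * t * a * t) ^ j * t) * ((a * t * a * t) ^ j * t) = 1 ∧
      a * ((a * t * a * t) ^ j * t) = ((a * t * a * t) ^ j * t) * a := by
  have ha' : ∀ x, a * (a * x) = x := fun x => by rw [← mul_assoc, ha, one_mul]
  have ht' : ∀ x, t * (t * x) = x := fun x => by rw [← mul_assoc, ht, one_mul]
  have hdt : t * (a * t * a * t) * t = (a * t * a * t)⁻¹ := by
    simp only [mul_inv_rev, inv_of_sq_one ha, inv_of_sq_one ht, mul_assoc, ht, mul_one]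
  have hda : a * (a * t * a * t) * a = (a * t * a * t)⁻¹ := by
    simp only [mul_inv_rev, inv_of_sq_one ha, inv_of_sq_one ht, mul_assoc, ha']
  have key : (a * t * a * t) * (t * a) = a * t := by
    simp only [mul_assoc, ht', ha, mul_one]
  generalize a * t * a * t = d at *
  obtain ⟨j, hj⟩ := exists_sqrt hodd
  refine ⟨j, ?_, ?_⟩
  · have het := inv_conj_pow ht hdt j
    calc d ^ j * t * (d ^ j * t) = d ^ j * (t * d ^ j * t) := by simp only [mul_assoc]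
      _ = 1 := by rw [het, mul_inv_cancel]
  · have hea := inv_conj_pow ha hda j
    calc a * (d ^ j * t) = a * d ^ j * t := (mul_assoc _ _ _).symm
      _ = (d ^ j)⁻¹ * a * t := by rw [mul_of_conj ha hea]
      _ = (d ^ j)⁻¹ * (d * (t * a)) := by rw [key, mul_assoc]
      _ = (d ^ j)⁻¹ * (d ^ j * d ^ j * (t * a)) := by rw [hj]
      _ = d ^ j * t * a := by simp only [mul_assoc, inv_mul_cancel_left]

end Cfsg.Agent.Lib.Helper99.Hall4
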