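import Cfsg.Agent.Lib.Helper99.HallB

set_option autoImplicit false
set_option linter.unusedSectionVars false
set_option linter.unusedSimpArgs false

open MulAction
open scoped Pointwise

namespace Cfsg.Agent.Lib.Helper99.Hall4

universe u v

variable {G : Type v} {Ω : Type u} [Group G] [MulAction G Ω]

/-- a dihedral configuration of involutions `a = (12)(34)`, `u = (34)`, `b = (13)(24)` on four
points -/
structure Cfg (G : Type v) (Ω : Type u) [Group G] [MulAction G Ω] where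
  p1 : Ω
  p2 : Ω
  p3 : Ω
  p4 : Ω
  a : G
  u : G
  b : G
  hd : Dist4 p1 p2 p3 p4
  a2 : a * a = 1
  a1 : a • p1 = p2
  a3 : a • p3 = p4
  u2 : u * u = 1
  u1 : u • p1 = p1
  u3 : u • p3 = p4
  b2 : b * b = 1
  b1 : b • p1 = p3
  b1' : b • p2 = p4
  au : a * u = u * a
  ab : a * b = b * a
  bub : b * u * b = a * u

namespace Cfg

variable (C : Cfg G Ω)

/-- the involution `(12)` -/
def v : G := C.a * C.u

theorem a2r (x : G) : C.a * (C.a * x) = x := by rw [← mul_assoc, C.a2, one_mul]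
theorem u2r (x : G) : C.u * (C.u * x) = x := by rw [← mul_assoc, C.u2, one_mul]
theorem b2r (x : G) : C.b * (C.b * x) = x := by rw [← mul_assoc, C.b2, one_mul]
theorem ua : C.u * C.a = C.a * C.u := C.au.symm
theorem uar (x : G) : C.u * (C.a * x) = C.a * (C.u * x) := by
  rw [← mul_assoc, C.ua, mul_assoc]
theorem ba : C.b * C.a = C.a * C.b := C.ab.symm
theorem bar (x : G) : C.b * (C.a * x) = C.a * (C.b * x) := by
  rw [← mul_assoc, C.ba, mul_assoc]
theorem bu : C.b * C.u = C.a * (C.u * C.b) := by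
  have h := congrArg (fun x => x * C.b) C.bub
  simp only [mul_assoc, C.b2, mul_one] at h
  exact h
theorem bur (x : G) : C.b * (C.u * x) = C.a * (C.u * (C.b * x)) := by
  rw [← mul_assoc, C.bu, mul_assoc, mul_assoc]

theorem a1' : C.a • C.p2 = C.p1 := by rw [← C.a1, ← mul_smul, C.a2, one_smul]
theorem a3' : C.a • C.p4 = C.p3 := by rw [← C.a3, ← mul_smul, C.a2, one_smul]
theorem u3' : C.u • C.p4 = C.p3 := by rw [← C.u3, ← mul_smul, C.u2, one_smul]
theorem u1' : C.u • C.p2 = C.p2 := by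
  have h : C.u • C.a • C.p1 = C.a • C.u • C.p1 := by rw [← mul_smul, ← mul_smul, C.ua]
  rw [C.a1, C.u1, C.a1] at h
  exact h
theorem b3 : C.b • C.p3 = C.p1 := by rw [← C.b1, ← mul_smul, C.b2, one_smul]
theorem b3' : C.b • C.p4 = C.p2 := by rw [← C.b1', ← mul_smul, C.b2, one_smul]

theorem v2 : C.v * C.v = 1 := by
  simp only [v, mul_assoc, C.a2r, C.u2r, C.b2r, C.uar, C.bar, C.bur, C.a2, C.u2, C.b2, C.ua,
    C.ba, C.bu, mul_one, one_mul]
theorem uv : C.u * C.v = C.a := by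
  simp only [v, mul_assoc, C.a2r, C.u2r, C.b2r, C.uar, C.bar, C.bur, C.a2, C.u2, C.b2, C.ua,
    C.ba, C.bu, mul_one, one_mul]
theorem vu : C.v * C.u = C.a := by
  simp only [v, mul_assoc, C.a2r, C.u2r, C.b2r, C.uar, C.bar, C.bur, C.a2, C.u2, C.b2, C.ua,
    C.ba, C.bu, mul_one, one_mul]
theorem av : C.a * C.v = C.v * C.a := by
  simp only [v, mul_assoc, C.a2r, C.u2r, C.b2r, C.uar, C.bar, C.bur, C.a2, C.u2, C.b2, C.ua,
    C.ba, C.bu, mul_one, one_mul]
theorem v1 : C.v • C.p1 = C.p2 := by rw [v, mul_smul, C.u1, C.a1]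
theorem v1' : C.v • C.p2 = C.p1 := by rw [v, mul_smul, C.u1', C.a1']
theorem v3 : C.v • C.p3 = C.p3 := by rw [v, mul_smul, C.u3, C.a3']
theorem v3' : C.v • C.p4 = C.p4 := by rw [v, mul_smul, C.u3', C.a3]
theorem vb : C.v * C.b = C.b * C.u := by
  simp only [v, mul_assoc, C.a2r, C.u2r, C.b2r, C.uar, C.bar, C.bur, C.a2, C.u2, C.b2, C.ua,
    C.ba, C.bu, mul_one, one_mul]
theorem ub : C.u * C.b = C.b * C.v := by
  simp only [v, mul_assoc, C.a2r, C.u2r, C.b2r, C.uar, C.bar, C.bur, C.a2, C.u2, C.b2, C.ua,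
    C.ba, C.bu, mul_one, one_mul]
theorem bvb : C.b * C.v * C.b = C.u := by
  simp only [v, mul_assoc, C.a2r, C.u2r, C.b2r, C.uar, C.bar, C.bur, C.a2, C.u2, C.b2, C.ua,
    C.ba, C.bu, mul_one, one_mul]
theorem ab2 : (C.a * C.b) * (C.a * C.b) = 1 := by
  simp only [v, mul_assoc, C.a2r, C.u2r, C.b2r, C.uar, C.bar, C.bur, C.a2, C.u2, C.b2, C.ua,
    C.ba, C.bu, mul_one, one_mul]
theorem ab1 : (C.a * C.b) • C.p1 = C.p4 := by rw [mul_smul, C.b1, C.a3]
theorem ab1' : (C.a * C.b) • C.p2 = C.p3 := by rw [mul_smul, C.b1', C.a3']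
theorem ab3 : (C.a * C.b) • C.p3 = C.p2 := by rw [mul_smul, C.b3, C.a1]
theorem ab3' : (C.a * C.b) • C.p4 = C.p1 := by rw [mul_smul, C.b3', C.a1']

end Cfg

theorem exists_cfg (h : Hyp G Ω) {p1 p2 p3 p4 : Ω} (hd : Dist4 p1 p2 p3 p4) :
    ∃ C : Cfg G Ω, C.p1 = p1 ∧ C.p2 = p2 ∧ C.p3 = p3 ∧ C.p4 = p4 := by
  obtain ⟨h12, h13, h14, h23, h24, h34⟩ := hd
  have hd : Dist4 p1 p2 p3 p4 := ⟨h12, h13, h14, h23, h24, h34⟩
  -- the involution a
  obtain ⟨ga, ga1, ga2, ga3, ga4⟩ := h.trans p1 p2 p3 p4 p2 p1 p4 p3 hd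
    ⟨h12.symm, h24, h23, h14, h13, h34.symm⟩
  obtain ⟨a, a2, a1, a1', a3, a3'⟩ := exists_inv_of h hd ga (by rw [ga1, ga2])
    (by rw [ga2, ga1]) (by rw [ga3, ga4]) (by rw [ga4, ga3])
  rw [ga1] at a1
  rw [ga2] at a1'
  rw [ga3] at a3
  rw [ga4] at a3'
  -- the involution u0
  obtain ⟨gu, gu1, gu2, gu3, gu4⟩ := h.trans p1 p2 p3 p4 p1 p2 p4 p3 hd
    ⟨h12, h14, h13, h24, h23, h34.symm⟩
  obtain ⟨u0, u02, u01, u01', u03, u03'⟩ := exists_inv_of h hd gu (by rw [gu1, gu1])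
    (by rw [gu2, gu2]) (by rw [gu3, gu4]) (by rw [gu4, gu3])
  rw [gu1] at u01
  rw [gu2] at u01'
  rw [gu3] at u03
  rw [gu4] at u03'
  have du1 : (a * u0 * a * u0) • p1 = p1 := by
    simp only [mul_smul, u01, a1, u01', a1']
  have du2 : (a * u0 * a * u0) • p2 = p2 := by
    simp only [mul_smul, u01, a1, u01', a1']
  have du3 : (a * u0 * a * u0) • p3 = p3 := by
    simp only [mul_smul, u03, a3, u03', a3']
  have du4 : (a * u0 * a * u0) • p4 = p4 := by
    simp only [mul_smul, u03, a3, u03', a3']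
  obtain ⟨ju, hu2, hau⟩ := mid a2 u02 (h.odd _ p1 p2 p3 p4 hd du1 du2 du3 du4)
  have u1 : ((a * u0 * a * u0) ^ ju * u0) • p1 = p1 := by
    rw [mul_smul, u01, pow_smul_fix du1]
  have u3 : ((a * u0 * a * u0) ^ ju * u0) • p3 = p4 := by
    rw [mul_smul, u03, pow_smul_fix du4]
  generalize (a * u0 * a * u0) ^ ju * u0 = u at hu2 hau u1 u3
  have u3' : u • p4 = p3 := by rw [← u3, ← mul_smul, hu2, one_smul]
  have u1' : u • p2 = p2 := by
    have h' : u • a • p1 = a • u • p1 := by rw [← mul_smul, ← mul_smul, hau]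
    rw [a1, u1, a1] at h'
    exact h'
  -- the involution b0
  obtain ⟨gb, gb1, gb2, gb3, gb4⟩ := h.trans p1 p2 p3 p4 p3 p4 p1 p2 hd
    ⟨h34, h13.symm, h23.symm, h14.symm, h24.symm, h12⟩
  obtain ⟨b0, b02, b01, b01', b03, b03'⟩ := exists_inv_of h hd gb (by rw [gb1, gb3])
    (by rw [gb2, gb4]) (by rw [gb3, gb1]) (by rw [gb4, gb2])
  rw [gb1] at b01
  rw [gb2] at b01'
  rw [gb3] at b03
  rw [gb4] at b03'
  have db1 : (a * b0 * a * b0) • p1 = p1 := by
    simp only [mul_smul, b01, a3, b03', a1']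
  have db2 : (a * b0 * a * b0) • p2 = p2 := by
    simp only [mul_smul, b01', a3', b03, a1]
  have db3 : (a * b0 * a * b0) • p3 = p3 := by
    simp only [mul_smul, b03, a1, b01', a3']
  have db4 : (a * b0 * a * b0) • p4 = p4 := by
    simp only [mul_smul, b03', a1', b01, a3]
  obtain ⟨jb, hb12, hab1⟩ := mid a2 b02 (h.odd _ p1 p2 p3 p4 hd db1 db2 db3 db4)
  have b11 : ((a * b0 * a * b0) ^ jb * b0) • p1 = p3 := by
    rw [mul_smul, b01, pow_smul_fix db3]
  have b12 : ((a * b0 * a * b0) ^ jb * b0) • p2 = p4 := by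
    rw [mul_smul, b01', pow_smul_fix db4]
  generalize (a * b0 * a * b0) ^ jb * b0 = b1 at hb12 hab1 b11 b12
  have b13 : b1 • p3 = p1 := by rw [← b11, ← mul_smul, hb12, one_smul]
  have b14 : b1 • p4 = p2 := by rw [← b12, ← mul_smul, hb12, one_smul]
  -- adjust b1 so that it conjugates u to v = a * u
  have hv2 : (a * u) * (a * u) = 1 := by
    rw [mul_assoc, ← mul_assoc u, ← hau, mul_assoc, hu2, mul_one, a2]
  have hu'2 : (b1 * u * b1) * (b1 * u * b1) = 1 := by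
    simp only [mul_assoc]
    rw [← mul_assoc b1 b1, hb12, one_mul, ← mul_assoc u u, hu2, one_mul, hb12]
  have e1 : (b1 * u * b1 * (a * u)) • p1 = p1 := by
    simp only [mul_smul, u1, a1, b12, u3', b13]
  have e2 : (b1 * u * b1 * (a * u)) • p2 = p2 := by
    simp only [mul_smul, u1', a1', b11, u3, b14]
  have e3 : (b1 * u * b1 * (a * u)) • p3 = p3 := by
    simp only [mul_smul, u3, a3', b13, u1, b11]
  have e4 : (b1 * u * b1 * (a * u)) • p4 = p4 := by
    simp only [mul_smul, u3', a3, b14, u1', b12]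
  obtain ⟨je, hje⟩ := conj_sqrt hv2 hu'2 (h.odd _ p1 p2 p3 p4 hd e1 e2 e3 e4)
  have hca : Commute a (b1 * u * b1 * (a * u)) := by
    have c1 : Commute a b1 := hab1
    have c2 : Commute a u := hau
    exact ((c1.mul_right c2).mul_right c1).mul_right ((Commute.refl a).mul_right c2)
  have hcae : Commute a ((b1 * u * b1 * (a * u)) ^ je) := hca.pow_right je
  have f1 := pow_smul_fix e1 je
  have f2 := pow_smul_fix e2 je
  have f3 := pow_smul_fix e3 je
  have f4 := pow_smul_fix e4 je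
  generalize (b1 * u * b1 * (a * u)) ^ je = e at hje hcae f1 f2 f3 f4
  -- b2 = e⁻¹ * b1
  have hb1i : b1⁻¹ = b1 := inv_of_sq_one hb12
  have g1 : (e⁻¹ * b1) * u = (a * u) * (e⁻¹ * b1) := by
    have h1 : b1 * u * b1 = e * (a * u) * e⁻¹ := hje.symm
    have h2 : b1 * u = e * (a * u) * e⁻¹ * b1 := by
      rw [← h1]
      simp only [mul_assoc, hb12, mul_one]
    rw [mul_assoc, h2]
    simp only [mul_assoc, inv_mul_cancel_left]
  have g2 : a * (e⁻¹ * b1) = (e⁻¹ * b1) * a := by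
    have c1 : Commute a b1 := hab1
    exact hcae.inv_right.mul_right c1
  have q1 : (e⁻¹ * b1) • p1 = p3 := by rw [mul_smul, b11, inv_smul_eq_iff, f3]
  have q2 : (e⁻¹ * b1) • p2 = p4 := by rw [mul_smul, b12, inv_smul_eq_iff, f4]
  have q3 : (e⁻¹ * b1) • p3 = p1 := by rw [mul_smul, b13, inv_smul_eq_iff, f1]
  have q4 : (e⁻¹ * b1) • p4 = p2 := by rw [mul_smul, b14, inv_smul_eq_iff, f2]
  generalize e⁻¹ * b1 = b2 at g1 g2 q1 q2 q3 q4
  have g3 : b2 * (a * u) = u * b2 := by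
    rw [← mul_assoc, ← g2, mul_assoc, g1, ← mul_assoc, ← mul_assoc, a2, one_mul]
  have s1 : (b2 * b2) • p1 = p1 := by rw [mul_smul, q1, q3]
  have s2 : (b2 * b2) • p2 = p2 := by rw [mul_smul, q2, q4]
  have s3 : (b2 * b2) • p3 = p3 := by rw [mul_smul, q3, q1]
  have s4 : (b2 * b2) • p4 = p4 := by rw [mul_smul, q4, q2]
  have hN : Odd (orderOf (b2 * b2)) := h.odd _ p1 p2 p3 p4 hd s1 s2 s3 s4
  have cu : Commute (b2 * b2) u := by
    show b2 * b2 * u = u * (b2 * b2)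
    rw [mul_assoc, g1, ← mul_assoc, g3, mul_assoc]
  have cv : Commute (b2 * b2) (a * u) := by
    show b2 * b2 * (a * u) = a * u * (b2 * b2)
    rw [mul_assoc, g3, ← mul_assoc, g1, mul_assoc]
  obtain ⟨r, hr⟩ := hN
  have hbpow : b2 ^ orderOf (b2 * b2) = (b2 * b2) ^ r * b2 := by
    rw [hr, pow_succ, pow_mul, pow_two]
  have hbb : b2 ^ orderOf (b2 * b2) * b2 ^ orderOf (b2 * b2) = 1 := by
    rw [← pow_add, ← two_mul, pow_mul, pow_two, pow_orderOf_eq_one]
  have hbu : b2 ^ orderOf (b2 * b2) * u = (a * u) * b2 ^ orderOf (b2 * b2) := by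
    calc b2 ^ orderOf (b2 * b2) * u = (b2 * b2) ^ r * (b2 * u) := by rw [hbpow, mul_assoc]
      _ = (b2 * b2) ^ r * (a * u) * b2 := by
        rw [g1]
        exact (mul_assoc _ _ _).symm
      _ = (a * u) * (b2 * b2) ^ r * b2 := by rw [(cv.pow_left r).eq]
      _ = (a * u) * b2 ^ orderOf (b2 * b2) := by
        rw [hbpow]
        exact mul_assoc _ _ _
  have hodd' : Odd (orderOf (b2 * b2)) := ⟨r, hr⟩
  refine ⟨{ p1 := p1, p2 := p2, p3 := p3, p4 := p4, a := a, u := u,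
            b := b2 ^ orderOf (b2 * b2), hd := hd, a2 := a2, a1 := a1, a3 := a3, u2 := hu2,
            u1 := u1, u3 := u3, b2 := hbb, b1 := ?_, b1' := ?_, au := hau, ab := ?_,
            bub := ?_ }, rfl, rfl, rfl, rfl⟩
  · rw [pow_odd_smul s1 hodd', q1]
  · rw [pow_odd_smul s2 hodd', q2]
  · have c1 : Commute a b2 := g2
    exact (c1.pow_right _).eq
  · rw [hbu, mul_assoc, hbb, mul_one]

end Cfsg.Agent.Lib.Helper99.Hall4
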