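import Cfsg.Agent.Lib.Helper99.HallC

set_option autoImplicit false
set_option linter.unusedSectionVars false
set_option linter.unusedSimpArgs false
set_option linter.unusedVariables false

open MulAction
open scoped Pointwise

namespace Cfsg.Agent.Lib.Helper99.Hall4

universe u v

variable {G : Type v} {Ω : Type u} [Group G] [MulAction G Ω]

/-- a finite group whose elements all have odd order has odd order -/
theorem odd_card_of_odd [Finite G] (L : Subgroup G) (hodd : ∀ g ∈ L, Odd (orderOf g)) :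
    Odd (Nat.card L) := by
  by_contra hcon
  rw [Nat.not_odd_iff_even] at hcon
  have : Fact (Nat.Prime 2) := ⟨Nat.prime_two⟩
  obtain ⟨x, hx⟩ := exists_prime_orderOf_dvd_card' (G := L) 2 hcon.two_dvd
  have h2 := hodd x.1 x.2
  rw [Subgroup.orderOf_coe, hx] at h2
  exact absurd h2 (by decide)

theorem comm_of_conj {g t : G} (hg : g * t * g⁻¹ = t) : t * g = g * t := by
  have := congrArg (fun w => w * g) hg
  simp only [mul_assoc, inv_mul_cancel, mul_one] at this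
  exact this.symm

theorem exists_moved [Finite Ω] (h : Hyp G Ω) (hn : 6 ≤ Nat.card Ω) {t : G} (ht : t * t = 1)
    (hne : t ≠ 1) (x y : Ω) : ∃ k : Ω, t • k ≠ k ∧ k ≠ x ∧ k ≠ y := by
  have h3 := fix_le3 h ht hne
  have hc := Set.ncard_add_ncard_compl (fixedBy Ω t)
  have h2 : ({x, y} : Set Ω).ncard ≤ 2 := by
    have := Set.ncard_insert_le x ({y} : Set Ω)
    rw [Set.ncard_singleton] at this
    exact this
  obtain ⟨k, hk, hk2⟩ := Set.exists_mem_notMem_of_ncard_lt_ncard (s := ({x, y} : Set Ω))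
    (t := (fixedBy Ω t)ᶜ) (by omega)
  simp only [Set.mem_insert_iff, Set.mem_singleton_iff, not_or] at hk2
  exact ⟨k, hk, hk2.1, hk2.2⟩

theorem mem_FS4 {x1 x2 x3 x4 : Ω} {g : G} :
    g ∈ fixingSubgroup G ({x1, x2, x3, x4} : Set Ω) ↔
      g • x1 = x1 ∧ g • x2 = x2 ∧ g • x3 = x3 ∧ g • x4 = x4 := by
  rw [mem_fixingSubgroup_iff]
  simp only [Set.mem_insert_iff, Set.mem_singleton_iff, forall_eq_or_imp, forall_eq]

/-- an odd-order element commuting with `t` and fixing all but two of the fixed points of `t`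
fixes these two as well -/
theorem odd_fix_pair {g t : G} (hg : Odd (orderOf g)) (hc : t * g = g * t) {r1 r2 : Ω}
    {T : Set Ω} (hf : ∀ z, t • z = z → z = r1 ∨ z = r2 ∨ z ∈ T) (h1 : t • r1 = r1)
    (h2 : t • r2 = r2) (hT : ∀ y ∈ T, g • y = y) : g • r1 = r1 ∧ g • r2 = r2 := by
  have key : ∀ r, t • r = r → g • r = r1 ∨ g • r = r2 ∨ g • r = r := by
    intro r hr
    have : t • g • r = g • r := by rw [← mul_smul, hc, mul_smul, hr]
    rcases hf _ this with e | e | e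
    · exact Or.inl e
    · exact Or.inr (Or.inl e)
    · have e2 := hT _ e
      exact Or.inr (Or.inr (smul_left_cancel g e2))
  have k1 : g • r1 = r1 ∨ g • r1 = r2 := by
    rcases key r1 h1 with e | e | e
    · exact Or.inl e
    · exact Or.inr e
    · exact Or.inl e
  have k2 : g • r2 = r1 ∨ g • r2 = r2 := by
    rcases key r2 h2 with e | e | e
    · exact Or.inl e
    · exact Or.inr e
    · exact Or.inr e
  have r1fix := odd_perm2 hg k1 k2
  refine ⟨r1fix, ?_⟩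
  rcases k2 with e | e
  · have e12 : r1 = r2 := smul_left_cancel g (r1fix.trans e.symm)
    exact e.trans e12
  · exact e

namespace Cfg

variable (C : Cfg G Ω)

theorem h12 : C.p1 ≠ C.p2 := C.hd.1
theorem h13 : C.p1 ≠ C.p3 := C.hd.2.1
theorem h14 : C.p1 ≠ C.p4 := C.hd.2.2.1
theorem h23 : C.p2 ≠ C.p3 := C.hd.2.2.2.1
theorem h24 : C.p2 ≠ C.p4 := C.hd.2.2.2.2.1
theorem h34 : C.p3 ≠ C.p4 := C.hd.2.2.2.2.2

/-- the four base points -/
def S4 : Set Ω := {C.p1, C.p2, C.p3, C.p4}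

/-- the pointwise stabilizer of the four base points -/
def H : Subgroup G := fixingSubgroup G C.S4

theorem mem_S4 {x : Ω} : x ∈ C.S4 ↔ x = C.p1 ∨ x = C.p2 ∨ x = C.p3 ∨ x = C.p4 := by
  simp only [S4, Set.mem_insert_iff, Set.mem_singleton_iff]

theorem mem_H {g : G} :
    g ∈ C.H ↔ g • C.p1 = C.p1 ∧ g • C.p2 = C.p2 ∧ g • C.p3 = C.p3 ∧ g • C.p4 = C.p4 :=
  mem_FS4

/-- number of fixed points of `a` -/
noncomputable def f : ℕ := (fixedBy Ω C.a).ncard
/-- order of the centralizer of `a` in `H` -/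
noncomputable def c : ℕ := Nat.card (Cn C.H C.a)
/-- order of the centralizer of `u` in `H` -/
noncomputable def d : ℕ := Nat.card (Cn C.H C.u)
/-- order of the centralizer of `⟨a, b⟩` in `H` -/
noncomputable def cV : ℕ := Nat.card (Cn (Cn C.H C.b) C.a)
/-- order of the centralizer of `⟨u, v⟩` in `H` -/
noncomputable def cW : ℕ := Nat.card (Cn (Cn C.H C.v) C.u)
/-- base points together with the fixed points of `a` -/
def Th : Set Ω := C.S4 ∪ fixedBy Ω C.a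
/-- the pointwise stabilizer of `Th` -/
def Y : Subgroup G := fixingSubgroup G C.Th
/-- order of the centralizer of `a` in `Y` -/
noncomputable def c0 : ℕ := Nat.card (Cn C.Y C.a)
/-- order of the centralizer of `⟨a, b⟩` in `Y` -/
noncomputable def cV0 : ℕ := Nat.card (Cn (Cn C.Y C.b) C.a)

theorem a_ne : C.a ≠ 1 := by
  intro e
  have := C.a1
  rw [e, one_smul] at this
  exact C.h12 this

theorem u_ne : C.u ≠ 1 := by
  intro e
  have := C.u3
  rw [e, one_smul] at this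
  exact C.h34 this

theorem uu (z : Ω) : C.u • C.u • z = z := by rw [← mul_smul, C.u2, one_smul]
theorem aa (z : Ω) : C.a • C.a • z = z := by rw [← mul_smul, C.a2, one_smul]
theorem bb (z : Ω) : C.b • C.b • z = z := by rw [← mul_smul, C.b2, one_smul]
theorem vv (z : Ω) : C.v • C.v • z = z := by rw [← mul_smul, C.v2, one_smul]

theorem conj_a (h : Hyp G Ω) {s : G} (hs : s * s = 1) {y1 y2 y3 y4 : Ω}
    (hy : Dist4 y1 y2 y3 y4) (h1 : s • y1 = y2) (h3 : s • y3 = y4) :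
    ∃ g : G, g * C.a * g⁻¹ = s ∧ g • C.p1 = y1 ∧ g • C.p2 = y2 ∧ g • C.p3 = y3 ∧
      g • C.p4 = y4 := by
  have h2 : s • y2 = y1 := by rw [← h1, ← mul_smul, hs, one_smul]
  have h4 : s • y4 = y3 := by rw [← h3, ← mul_smul, hs, one_smul]
  refine trans_conj h C.a2 hs C.hd hy ?_ ?_
  · intro z hz
    rcases hz with e | e | e | e
    · rw [e]; exact Or.inr (Or.inl h1)
    · rw [e]; exact Or.inl h2
    · rw [e]; exact Or.inr (Or.inr (Or.inr h3))
    · rw [e]; exact Or.inr (Or.inr (Or.inl h4))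
  · intro g0 e1 e2 e3 e4
    refine ⟨?_, ?_, ?_, ?_⟩
    · rw [C.a1, e2, h1]
    · rw [C.a1', e1, h2]
    · rw [C.a3, e4, h3]
    · rw [C.a3', e3, h4]

theorem card_conj_a (h : Hyp G Ω) {s : G} (hs : s * s = 1) {y1 y2 y3 y4 : Ω}
    (hy : Dist4 y1 y2 y3 y4) (h1 : s • y1 = y2) (h3 : s • y3 = y4) :
    Nat.card (Cn (fixingSubgroup G ({y1, y2, y3, y4} : Set Ω)) s) = C.c := by
  obtain ⟨g, hg, g1, g2, g3, g4⟩ := C.conj_a h hs hy h1 h3
  have e := card_Cn_conj g C.a C.S4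
  have e2 : g • C.S4 = ({y1, y2, y3, y4} : Set Ω) := by
    simp only [S4, Set.smul_set_insert, Set.smul_set_singleton, g1, g2, g3, g4]
  rw [hg, e2] at e
  exact e.symm

theorem card0_conj_a (h : Hyp G Ω) {s : G} (hs : s * s = 1) {y1 y2 y3 y4 : Ω}
    (hy : Dist4 y1 y2 y3 y4) (h1 : s • y1 = y2) (h3 : s • y3 = y4) :
    Nat.card (Cn (fixingSubgroup G (({y1, y2, y3, y4} : Set Ω) ∪ fixedBy Ω s)) s) = C.c0 := by
  obtain ⟨g, hg, g1, g2, g3, g4⟩ := C.conj_a h hs hy h1 h3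
  have e := card_Cn_conj g C.a C.Th
  have e2 : g • C.Th = ({y1, y2, y3, y4} : Set Ω) ∪ fixedBy Ω s := by
    rw [Th, Set.smul_set_union, smul_fixedBy, hg]
    simp only [S4, Set.smul_set_insert, Set.smul_set_singleton, g1, g2, g3, g4]
  rw [hg, e2] at e
  exact e.symm

theorem fix_conj_a (h : Hyp G Ω) {s : G} (hs : s * s = 1) {y1 y2 y3 y4 : Ω}
    (hy : Dist4 y1 y2 y3 y4) (h1 : s • y1 = y2) (h3 : s • y3 = y4) :
    (fixedBy Ω s).ncard = C.f := by
  obtain ⟨g, hg, -⟩ := C.conj_a h hs hy h1 h3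
  rw [← hg, ← smul_fixedBy, Set.ncard_smul_set]
  rfl

theorem dist_mov {z : Ω} (hz : C.u • z ≠ z) (hz3 : z ≠ C.p3) (hz4 : z ≠ C.p4) :
    Dist4 C.p3 C.p4 z (C.u • z) := by
  refine ⟨C.h34, fun e => hz3 e.symm, ?_, fun e => hz4 e.symm, ?_, fun e => hz e.symm⟩
  · intro e
    apply hz4
    rw [← C.u3, e, C.uu]
  · intro e
    apply hz3
    rw [← C.u3', e, C.uu]

theorem f_le3 [Finite Ω] (h : Hyp G Ω) : C.f ≤ 3 := fix_le3 h C.a2 C.a_ne

theorem fix_u [Finite Ω] (h : Hyp G Ω) (hn : 6 ≤ Nat.card Ω) : (fixedBy Ω C.u).ncard = C.f := by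
  obtain ⟨k, hk, hk3, hk4⟩ := exists_moved h hn C.u2 C.u_ne C.p3 C.p4
  exact C.fix_conj_a h C.u2 (C.dist_mov hk hk3 hk4) C.u3 rfl

theorem fix_b (h : Hyp G Ω) : (fixedBy Ω C.b).ncard = C.f :=
  C.fix_conj_a h C.b2 (y1 := C.p1) (y2 := C.p3) (y3 := C.p2) (y4 := C.p4)
    ⟨C.h13, C.h12, C.h14, C.h23.symm, C.h34, C.h24⟩ C.b1 C.b1'

theorem fix_ab (h : Hyp G Ω) : (fixedBy Ω (C.a * C.b)).ncard = C.f :=
  C.fix_conj_a h C.ab2 (y1 := C.p1) (y2 := C.p4) (y3 := C.p2) (y4 := C.p3)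
    ⟨C.h14, C.h12, C.h13, C.h24.symm, C.h34.symm, C.h23⟩ C.ab1 C.ab1'

theorem v_fix_iff {x : Ω} : C.v • x = x ↔ C.u • C.b • x = C.b • x := by
  rw [← mul_smul, C.ub, mul_smul]
  constructor
  · intro e
    rw [e]
  · intro e
    exact smul_left_cancel _ e

theorem S4_perm1 : ({C.p1, C.p3, C.p2, C.p4} : Set Ω) = C.S4 := by
  ext x
  simp only [S4, Set.mem_insert_iff, Set.mem_singleton_iff]
  tauto

theorem S4_perm2 : ({C.p1, C.p4, C.p2, C.p3} : Set Ω) = C.S4 := by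
  ext x
  simp only [S4, Set.mem_insert_iff, Set.mem_singleton_iff]
  tauto

theorem S4_perm3 : ({C.p3, C.p4, C.p1, C.p2} : Set Ω) = C.S4 := by
  ext x
  simp only [S4, Set.mem_insert_iff, Set.mem_singleton_iff]
  tauto

theorem card_Cn_b (h : Hyp G Ω) : Nat.card (Cn C.H C.b) = C.c := by
  have e := C.card_conj_a h C.b2 (y1 := C.p1) (y2 := C.p3) (y3 := C.p2) (y4 := C.p4)
    ⟨C.h13, C.h12, C.h14, C.h23.symm, C.h34, C.h24⟩ C.b1 C.b1'
  rw [C.S4_perm1] at e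
  exact e

theorem card_Cn_ab (h : Hyp G Ω) : Nat.card (Cn C.H (C.a * C.b)) = C.c := by
  have e := C.card_conj_a h C.ab2 (y1 := C.p1) (y2 := C.p4) (y3 := C.p2) (y4 := C.p3)
    ⟨C.h14, C.h12, C.h13, C.h24.symm, C.h34.symm, C.h23⟩ C.ab1 C.ab1'
  rw [C.S4_perm2] at e
  exact e

theorem card_Cn_v : Nat.card (Cn C.H C.v) = C.d := by
  have e := card_Cn_conj C.b C.u C.S4
  have e2 : C.b • C.S4 = C.S4 := by
    simp only [S4, Set.smul_set_insert, Set.smul_set_singleton, C.b1, C.b1', C.b3, C.b3']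
    ext x
    simp only [Set.mem_insert_iff, Set.mem_singleton_iff]
    tauto
  rw [e2, inv_of_sq_one C.b2, C.bub] at e
  exact e.symm

theorem odd_H (h : Hyp G Ω) : ∀ g ∈ C.H, Odd (orderOf g) :=
  odd_FS h C.hd (C.mem_S4.mpr (Or.inl rfl)) (C.mem_S4.mpr (Or.inr (Or.inl rfl)))
    (C.mem_S4.mpr (Or.inr (Or.inr (Or.inl rfl)))) (C.mem_S4.mpr (Or.inr (Or.inr (Or.inr rfl))))

theorem u_S4 : ∀ x ∈ C.S4, C.u • x ∈ C.S4 := by
  intro x hx
  rw [mem_S4] at hx ⊢
  rcases hx with e | e | e | e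
  · rw [e]; exact Or.inl C.u1
  · rw [e]; exact Or.inr (Or.inl C.u1')
  · rw [e]; exact Or.inr (Or.inr (Or.inr C.u3))
  · rw [e]; exact Or.inr (Or.inr (Or.inl C.u3'))

theorem v_S4 : ∀ x ∈ C.S4, C.v • x ∈ C.S4 := by
  intro x hx
  rw [mem_S4] at hx ⊢
  rcases hx with e | e | e | e
  · rw [e]; exact Or.inr (Or.inl C.v1)
  · rw [e]; exact Or.inl C.v1'
  · rw [e]; exact Or.inr (Or.inr (Or.inl C.v3))
  · rw [e]; exact Or.inr (Or.inr (Or.inr C.v3'))

theorem a_S4 : ∀ x ∈ C.S4, C.a • x ∈ C.S4 := by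
  intro x hx
  rw [mem_S4] at hx ⊢
  rcases hx with e | e | e | e
  · rw [e]; exact Or.inr (Or.inl C.a1)
  · rw [e]; exact Or.inl C.a1'
  · rw [e]; exact Or.inr (Or.inr (Or.inr C.a3))
  · rw [e]; exact Or.inr (Or.inr (Or.inl C.a3'))

theorem b_S4 : ∀ x ∈ C.S4, C.b • x ∈ C.S4 := by
  intro x hx
  rw [mem_S4] at hx ⊢
  rcases hx with e | e | e | e
  · rw [e]; exact Or.inr (Or.inr (Or.inl C.b1))
  · rw [e]; exact Or.inr (Or.inr (Or.inr C.b1'))
  · rw [e]; exact Or.inl C.b3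
  · rw [e]; exact Or.inr (Or.inl C.b3')

theorem a_mov : ∀ x ∈ C.S4, C.a • x ≠ x := by
  intro x hx
  rw [mem_S4] at hx
  rcases hx with e | e | e | e
  · rw [e, C.a1]; exact C.h12.symm
  · rw [e, C.a1']; exact C.h12
  · rw [e, C.a3]; exact C.h34.symm
  · rw [e, C.a3']; exact C.h34

theorem b_mov : ∀ x ∈ C.S4, C.b • x ≠ x := by
  intro x hx
  rw [mem_S4] at hx
  rcases hx with e | e | e | e
  · rw [e, C.b1]; exact C.h13.symm
  · rw [e, C.b1']; exact C.h24.symm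
  · rw [e, C.b3]; exact C.h13
  · rw [e, C.b3']; exact C.h24

theorem ab_S4 : ∀ x ∈ C.S4, (C.a * C.b) • x ∈ C.S4 := by
  intro x hx
  rw [mul_smul]
  exact C.a_S4 _ (C.b_S4 x hx)

theorem ab_mov : ∀ x ∈ C.S4, (C.a * C.b) • x ≠ x := by
  intro x hx
  rw [mem_S4] at hx
  rcases hx with e | e | e | e
  · rw [e, C.ab1]; exact C.h14.symm
  · rw [e, C.ab1']; exact C.h23.symm
  · rw [e, C.ab3]; exact C.h23
  · rw [e, C.ab3']; exact C.h14

theorem wiel_uv [Finite G] (h : Hyp G Ω) : Nat.card C.H * C.cW ^ 2 = C.d * C.d * C.c := by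
  have e := wielandt (C.odd_H h) C.u2 C.v2 (by rw [C.uv, C.vu]) (norm_FS C.u2 C.u_S4)
    (norm_FS C.v2 C.v_S4)
  rw [C.uv, C.card_Cn_v] at e
  exact e

theorem wiel_ab [Finite G] (h : Hyp G Ω) : Nat.card C.H * C.cV ^ 2 = C.c * C.c * C.c := by
  have e := wielandt (C.odd_H h) C.a2 C.b2 C.ab (norm_FS C.a2 C.a_S4) (norm_FS C.b2 C.b_S4)
  rw [C.card_Cn_b h, C.card_Cn_ab h] at e
  exact e

theorem cW_c [Finite G] (h : Hyp G Ω) : C.cW * C.c = C.d * C.cV := by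
  have e1 := C.wiel_uv h
  have e2 := C.wiel_ab h
  have hpos : 0 < Nat.card C.H := Nat.card_pos
  have e3 : Nat.card C.H * (C.cW * C.c) ^ 2 = Nat.card C.H * (C.d * C.cV) ^ 2 := by
    calc Nat.card C.H * (C.cW * C.c) ^ 2 = (Nat.card C.H * C.cW ^ 2) * C.c ^ 2 := by ring
      _ = C.d * C.d * C.c * C.c ^ 2 := by rw [e1]
      _ = C.d ^ 2 * (C.c * C.c * C.c) := by ring
      _ = C.d ^ 2 * (Nat.card C.H * C.cV ^ 2) := by rw [e2]
      _ = Nat.card C.H * (C.d * C.cV) ^ 2 := by ring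
  have e4 := Nat.eq_of_mul_eq_mul_left hpos e3
  exact Nat.pow_left_injective (by norm_num : (2 : ℕ) ≠ 0) e4

theorem two_le_fu [Finite Ω] : 2 ≤ (fixedBy Ω C.u).ncard := by
  have hsub : ({C.p1, C.p2} : Set Ω) ⊆ fixedBy Ω C.u := by
    intro x hx
    rcases hx with e | e
    · rw [e]; exact C.u1
    · rw [Set.mem_singleton_iff] at e
      rw [e]; exact C.u1'
  have := Set.ncard_le_ncard hsub
  rw [Set.ncard_pair C.h12] at this
  exact this

theorem trans_fix (h : Hyp G Ω) {x1 x2 y1 y2 : Ω} (hx1 : C.u • x1 = x1) (hx2 : C.u • x2 = x2)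
    (hx : x1 ≠ x2) (hy1 : C.u • y1 = y1) (hy2 : C.u • y2 = y2) (hy : y1 ≠ y2) :
    ∃ g : G, g • C.p3 = C.p3 ∧ g • C.p4 = C.p4 ∧ C.u * g = g * C.u ∧ g • x1 = y1 ∧
      g • x2 = y2 := by
  have n3 : ∀ z, C.u • z = z → C.p3 ≠ z := by
    intro z hz e
    rw [← e, C.u3] at hz
    exact C.h34 hz.symm
  have n4 : ∀ z, C.u • z = z → C.p4 ≠ z := by
    intro z hz e
    rw [← e, C.u3'] at hz
    exact C.h34 hz
  have hinv : ∀ z, z = C.p3 ∨ z = C.p4 ∨ z = y1 ∨ z = y2 →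
      C.u • z = C.p3 ∨ C.u • z = C.p4 ∨ C.u • z = y1 ∨ C.u • z = y2 := by
    intro z hz
    rcases hz with e | e | e | e
    · rw [e]; exact Or.inr (Or.inl C.u3)
    · rw [e]; exact Or.inl C.u3'
    · rw [e]; exact Or.inr (Or.inr (Or.inl hy1))
    · rw [e]; exact Or.inr (Or.inr (Or.inr hy2))
  obtain ⟨g, hg, g1, g2, g3, g4⟩ := trans_conj h C.u2 C.u2
    (x1 := C.p3) (x2 := C.p4) (x3 := x1) (x4 := x2) (y1 := C.p3) (y2 := C.p4) (y3 := y1)
    (y4 := y2) ⟨C.h34, n3 x1 hx1, n3 x2 hx2, n4 x1 hx1, n4 x2 hx2, hx⟩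
    ⟨C.h34, n3 y1 hy1, n3 y2 hy2, n4 y1 hy1, n4 y2 hy2, hy⟩ hinv (by
      intro g0 e1 e2 e3 e4
      refine ⟨?_, ?_, ?_, ?_⟩
      · rw [C.u3, e2]
      · rw [C.u3', e1]
      · rw [hx1, e3, hy1]
      · rw [hx2, e4, hy2])
  exact ⟨g, g1, g2, comm_of_conj hg, g3, g4⟩

theorem trans_mov (h : Hyp G Ω) {x y : Ω} (hx : C.u • x ≠ x) (hx3 : x ≠ C.p3)
    (hx4 : x ≠ C.p4) (hy : C.u • y ≠ y) (hy3 : y ≠ C.p3) (hy4 : y ≠ C.p4) :
    ∃ g : G, g • C.p3 = C.p3 ∧ g • C.p4 = C.p4 ∧ C.u * g = g * C.u ∧ g • x = y := by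
  have hinv : ∀ z, z = C.p3 ∨ z = C.p4 ∨ z = y ∨ z = C.u • y →
      C.u • z = C.p3 ∨ C.u • z = C.p4 ∨ C.u • z = y ∨ C.u • z = C.u • y := by
    intro z hz
    rcases hz with e | e | e | e
    · rw [e]; exact Or.inr (Or.inl C.u3)
    · rw [e]; exact Or.inl C.u3'
    · rw [e]; exact Or.inr (Or.inr (Or.inr rfl))
    · rw [e]; exact Or.inr (Or.inr (Or.inl (C.uu _)))
  obtain ⟨g, hg, g1, g2, g3, -⟩ := trans_conj h C.u2 C.u2 (C.dist_mov hx hx3 hx4)
    (C.dist_mov hy hy3 hy4) hinv (by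
      intro g0 e1 e2 e3 e4
      refine ⟨?_, ?_, ?_, ?_⟩
      · rw [C.u3, e2]
      · rw [C.u3', e1]
      · rw [e4]
      · rw [C.uu, C.uu, e3])
  exact ⟨g, g1, g2, comm_of_conj hg, g3⟩

/-- the basic counting identity -/
theorem count [Finite G] [Finite Ω] (h : Hyp G Ω) (hn : 6 ≤ Nat.card Ω) :
    C.f * ((C.f - 1) * C.d) = (Nat.card Ω - C.f - 2) * C.c := by
  have hfu := C.fix_u h hn
  have h2f := C.two_le_fu
  obtain ⟨k0, hk0, hk3, hk4⟩ := exists_moved h hn C.u2 C.u_ne C.p3 C.p4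
  set K : Subgroup G := Cn (fixingSubgroup G ({C.p3, C.p4} : Set Ω)) C.u with hK
  have memK : ∀ g : G, g ∈ K ↔ g • C.p3 = C.p3 ∧ g • C.p4 = C.p4 ∧ C.u * g = g * C.u := by
    intro g
    rw [hK, mem_CnF]
    simp only [Set.mem_insert_iff, Set.mem_singleton_iff, forall_eq_or_imp, forall_eq,
      and_assoc]
  have e1 : Nat.card K = C.f * Nat.card (K ⊓ stabilizer G C.p1 : Subgroup G) := by
    rw [← hfu]
    refine card_eq_orbit_mul K C.p1 (fixedBy Ω C.u) ?_ ?_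
    · intro g hg
      obtain ⟨-, -, hc⟩ := (memK g).mp hg
      show C.u • g • C.p1 = g • C.p1
      rw [← mul_smul, hc, mul_smul, C.u1]
    · intro y hy
      obtain ⟨y', hy', hne⟩ := Set.exists_ne_of_one_lt_ncard
        (by omega : 1 < (fixedBy Ω C.u).ncard) y
      obtain ⟨g, g3, g4, gc, g1, -⟩ := C.trans_fix h C.u1 C.u1' C.h12 hy hy' hne.symm
      exact ⟨g, (memK g).mpr ⟨g3, g4, gc⟩, g1⟩
  have e2 : Nat.card (K ⊓ stabilizer G C.p1 : Subgroup G) = (C.f - 1) * C.d := by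
    have e := card_eq_orbit_mul (K ⊓ stabilizer G C.p1) C.p2 (fixedBy Ω C.u \ {C.p1}) (by
        intro g hg
        obtain ⟨hgK, hg1⟩ := Subgroup.mem_inf.mp hg
        obtain ⟨-, -, hc⟩ := (memK g).mp hgK
        rw [mem_stabilizer_iff] at hg1
        refine ⟨?_, ?_⟩
        · show C.u • g • C.p2 = g • C.p2
          rw [← mul_smul, hc, mul_smul, C.u1']
        · intro e
          rw [Set.mem_singleton_iff] at e
          have : g • C.p2 = g • C.p1 := by rw [e, hg1]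
          exact C.h12 (smul_left_cancel g this).symm) (by
        intro y hy
        obtain ⟨hy1, hy2⟩ := hy
        rw [Set.mem_singleton_iff] at hy2
        obtain ⟨g, g3, g4, gc, g1, g2⟩ := C.trans_fix h C.u1 C.u1' C.h12 C.u1 hy1
          (Ne.symm hy2)
        exact ⟨g, Subgroup.mem_inf.mpr ⟨(memK g).mpr ⟨g3, g4, gc⟩,
          mem_stabilizer_iff.mpr g1⟩, g2⟩)
    have e' : (K ⊓ stabilizer G C.p1 ⊓ stabilizer G C.p2 : Subgroup G) = Cn C.H C.u := by
      ext g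
      rw [Subgroup.mem_inf, Subgroup.mem_inf, memK, mem_stabilizer_iff, mem_stabilizer_iff,
        mem_Cn, C.mem_H]
      tauto
    rw [e, e', Set.ncard_sdiff_singleton_of_mem (s := fixedBy Ω C.u) (a := C.p1) C.u1, hfu]
    rfl
  have e3 : Nat.card K = (Nat.card Ω - C.f - 2) * C.c := by
    have e := card_eq_orbit_mul K k0 ((fixedBy Ω C.u)ᶜ \ {C.p3, C.p4}) (by
        intro g hg
        obtain ⟨g3, g4, hc⟩ := (memK g).mp hg
        refine ⟨?_, ?_⟩
        · intro hfix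
          have hfix' : C.u • g • k0 = g • k0 := hfix
          rw [← mul_smul, hc, mul_smul] at hfix'
          exact hk0 (smul_left_cancel g hfix')
        · intro e
          rcases e with e | e
          · have : g • k0 = g • C.p3 := by rw [e, g3]
            exact hk3 (smul_left_cancel g this)
          · rw [Set.mem_singleton_iff] at e
            have : g • k0 = g • C.p4 := by rw [e, g4]
            exact hk4 (smul_left_cancel g this)) (by
        intro y hy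
        obtain ⟨hy1, hy2⟩ := hy
        simp only [Set.mem_insert_iff, Set.mem_singleton_iff, not_or] at hy2
        obtain ⟨g, g3, g4, gc, g1⟩ := C.trans_mov h hk0 hk3 hk4 hy1 hy2.1 hy2.2
        exact ⟨g, (memK g).mpr ⟨g3, g4, gc⟩, g1⟩)
    have e' : Nat.card (K ⊓ stabilizer G k0 : Subgroup G) = C.c := by
      have e'' : (K ⊓ stabilizer G k0 : Subgroup G) =
          Cn (fixingSubgroup G ({C.p3, C.p4, k0, C.u • k0} : Set Ω)) C.u := by
        ext g
        rw [Subgroup.mem_inf, memK, mem_stabilizer_iff, mem_Cn, mem_FS4]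
        constructor
        · rintro ⟨⟨g3, g4, gc⟩, gk⟩
          refine ⟨⟨g3, g4, gk, ?_⟩, gc⟩
          rw [← mul_smul, ← gc, mul_smul, gk]
        · rintro ⟨⟨g3, g4, gk, -⟩, gc⟩
          exact ⟨⟨g3, g4, gc⟩, gk⟩
      rw [e'']
      exact C.card_conj_a h C.u2 (C.dist_mov hk0 hk3 hk4) C.u3 rfl
    have hcompl := Set.ncard_add_ncard_compl (fixedBy Ω C.u)
    have hsub : ({C.p3, C.p4} : Set Ω) ⊆ (fixedBy Ω C.u)ᶜ := by
      intro x hx
      rcases hx with e | e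
      · intro e2
        have e3 : C.u • x = x := e2
        rw [e, C.u3] at e3
        exact C.h34 e3.symm
      · rw [Set.mem_singleton_iff] at e
        intro e2
        have e3 : C.u • x = x := e2
        rw [e, C.u3'] at e3
        exact C.h34 e3
    rw [e, e', Set.ncard_sdiff hsub, Set.ncard_pair C.h34]
    congr 1
    omega
  rw [← e3, e1, e2]

end Cfg

end Cfsg.Agent.Lib.Helper99.Hall4
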