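import Cfsg.Agent.Lib.Helper99.HallD

set_option autoImplicit false
set_option linter.unusedSectionVars false
set_option linter.unusedSimpArgs false
set_option linter.unusedVariables false

open MulAction
open scoped Pointwise

namespace Cfsg.Agent.Lib.Helper99.Hall4

universe u v

variable {G : Type v} {Ω : Type u} [Group G] [MulAction G Ω]

theorem orbit_bound [Finite Ω] (L : Subgroup G) (hodd : ∀ g ∈ L, Odd (orderOf g)) {s : G}
    (hs : s * s = 1) (hc : ∀ g ∈ L, s * g = g * s) (x : Ω) (hx : s • x ≠ x) (R : Set Ω)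
    (hR : ∀ g ∈ L, g • x ∈ R) (hsR : ∀ y ∈ R, s • y ∈ R) :
    2 * Nat.card L ≤ R.ncard * Nat.card (L ⊓ stabilizer G x : Subgroup G) := by
  set O : Set Ω := {y | ∃ g ∈ L, g • x = y} with hO
  have e := card_eq_orbit_mul L x O (fun g hg => ⟨g, hg, rfl⟩) (fun y hy => hy)
  have hsub1 : O ⊆ R := by
    rintro y ⟨g, hg, rfl⟩
    exact hR g hg
  have hsub2 : s • O ⊆ R := by
    rintro y ⟨z, hz, rfl⟩
    exact hsR z (hsub1 hz)
  have hdisj : Disjoint O (s • O) := by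
    rw [Set.disjoint_left]
    rintro y ⟨g, hg, rfl⟩ ⟨z, ⟨g', hg', rfl⟩, hz⟩
    have hz' : s • g' • x = g • x := hz
    have e1 : (g'⁻¹ * g) • x = s • x := by
      rw [mul_smul, ← hz', ← mul_smul s, hc g' hg', mul_smul, inv_smul_smul]
    have hk : g'⁻¹ * g ∈ L := L.mul_mem (L.inv_mem hg') hg
    have e2 : (g'⁻¹ * g) • s • x = x := by
      rw [← mul_smul, ← hc _ hk, mul_smul, e1, ← mul_smul, hs, one_smul]
    exact hx (odd_swap (hodd _ hk) e1 e2).symm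
  have hcard : (O ∪ s • O).ncard = O.ncard + O.ncard := by
    rw [Set.ncard_union_eq hdisj, Set.ncard_smul_set]
  have hle : (O ∪ s • O).ncard ≤ R.ncard := Set.ncard_le_ncard (Set.union_subset hsub1 hsub2)
  rw [e]
  calc 2 * (O.ncard * Nat.card (L ⊓ stabilizer G x : Subgroup G))
      = (O.ncard + O.ncard) * Nat.card (L ⊓ stabilizer G x : Subgroup G) := by ring
    _ ≤ R.ncard * Nat.card (L ⊓ stabilizer G x : Subgroup G) :=
        Nat.mul_le_mul_right _ (by omega)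

namespace Cfg

variable (C : Cfg G Ω)

theorem p1_mem : C.p1 ∈ C.S4 := C.mem_S4.mpr (Or.inl rfl)
theorem p2_mem : C.p2 ∈ C.S4 := C.mem_S4.mpr (Or.inr (Or.inl rfl))
theorem p3_mem : C.p3 ∈ C.S4 := C.mem_S4.mpr (Or.inr (Or.inr (Or.inl rfl)))
theorem p4_mem : C.p4 ∈ C.S4 := C.mem_S4.mpr (Or.inr (Or.inr (Or.inr rfl)))

theorem ncard_S4 [Finite Ω] : C.S4.ncard = 4 := by
  have h1 : C.p1 ∉ ({C.p2, C.p3, C.p4} : Set Ω) := by
    simp only [Set.mem_insert_iff, Set.mem_singleton_iff, not_or]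
    exact ⟨C.h12, C.h13, C.h14⟩
  have h2 : C.p2 ∉ ({C.p3, C.p4} : Set Ω) := by
    simp only [Set.mem_insert_iff, Set.mem_singleton_iff, not_or]
    exact ⟨C.h23, C.h24⟩
  rw [S4, Set.ncard_insert_of_notMem h1, Set.ncard_insert_of_notMem h2, Set.ncard_pair C.h34]

theorem Y_le_H : C.Y ≤ C.H := by
  intro g hg
  rw [Y, mem_fixingSubgroup_iff] at hg
  rw [H, mem_fixingSubgroup_iff]
  exact fun y hy => hg y (Or.inl hy)

theorem odd_Y (h : Hyp G Ω) : ∀ g ∈ C.Y, Odd (orderOf g) :=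
  fun g hg => C.odd_H h g (C.Y_le_H hg)

theorem Th_inv {t : G} (h1 : ∀ x ∈ C.S4, t • x ∈ C.S4) (hc : C.a * t = t * C.a) :
    ∀ x ∈ C.Th, t • x ∈ C.Th := by
  intro x hx
  rcases hx with e | e
  · exact Or.inl (h1 x e)
  · refine Or.inr ?_
    show C.a • t • x = t • x
    have e' : C.a • x = x := e
    rw [← mul_smul, hc, mul_smul, e']

theorem cV0_le [Finite G] : C.cV0 ≤ C.cV := by
  apply Subgroup.card_le_of_le
  intro g hg
  rw [mem_Cn, mem_Cn] at hg ⊢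
  exact ⟨⟨C.Y_le_H hg.1.1, hg.1.2⟩, hg.2⟩

theorem wiel_Y_ab [Finite G] (h : Hyp G Ω) :
    Nat.card C.Y * C.cV0 ^ 2 =
      C.c0 * Nat.card (Cn C.Y C.b) * Nat.card (Cn C.Y (C.a * C.b)) :=
  wielandt (C.odd_Y h) C.a2 C.b2 C.ab (norm_FS C.a2 (C.Th_inv C.a_S4 rfl))
    (norm_FS C.b2 (C.Th_inv C.b_S4 C.ab))

/-- the fixed points of `a` and of `u` -/
structure Ext (C : Cfg G Ω) where
  q5 : Ω
  q6 : Ω
  T : Set Ω
  hT : ∀ x ∈ T, ∀ y ∈ T, x = y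
  fa : fixedBy Ω C.a = {q5, q6} ∪ T
  fu : fixedBy Ω C.u = {C.p1, C.p2} ∪ T
  u5 : C.u • q5 = q6
  h56 : q5 ≠ q6

theorem exists_ext [Finite Ω] (h : Hyp G Ω) (hn : 6 ≤ Nat.card Ω) :
    ∃ E : C.Ext, E.T.ncard + 2 = C.f := by
  have hfu := C.fix_u h hn
  have h2f := C.two_le_fu
  have hf3 := C.f_le3 h
  have hsub : ({C.p1, C.p2} : Set Ω) ⊆ fixedBy Ω C.u := by
    intro x hx
    rcases hx with e | e
    · rw [e]; exact C.u1
    · rw [Set.mem_singleton_iff] at e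
      rw [e]; exact C.u1'
  have hTn : (fixedBy Ω C.u \ {C.p1, C.p2}).ncard = C.f - 2 := by
    rw [Set.ncard_sdiff hsub, Set.ncard_pair C.h12, hfu]
  have hfu' : fixedBy Ω C.u = ({C.p1, C.p2} : Set Ω) ∪ (fixedBy Ω C.u \ {C.p1, C.p2}) :=
    (Set.union_sdiff_cancel hsub).symm
  have memT : ∀ x, x ∈ fixedBy Ω C.u \ {C.p1, C.p2} ↔
      C.u • x = x ∧ x ≠ C.p1 ∧ x ≠ C.p2 := by
    intro x
    simp only [Set.mem_sdiff, Set.mem_insert_iff, Set.mem_singleton_iff, not_or, mem_fixedBy]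
  generalize fixedBy Ω C.u \ {C.p1, C.p2} = T at hTn hfu' memT
  have hT1 : ∀ x ∈ T, ∀ y ∈ T, x = y := (Set.ncard_le_one (s := T)).mp (by omega)
  have hTa : ∀ x ∈ T, C.a • x = x := by
    intro x hx
    obtain ⟨hx1, hx2, hx3⟩ := (memT x).mp hx
    have : C.a • x ∈ T := by
      rw [memT]
      refine ⟨?_, ?_, ?_⟩
      · rw [← mul_smul, C.ua, mul_smul, hx1]
      · intro e
        apply hx3
        rw [← C.a1, ← e, C.aa]
      · intro e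
        apply hx2
        rw [← C.a1', ← e, C.aa]
    exact hT1 _ this _ hx
  obtain ⟨q5, hq5, hq5T⟩ := Set.exists_mem_notMem_of_ncard_lt_ncard (s := T)
    (t := fixedBy Ω C.a) (by
      show T.ncard < C.f
      omega)
  have hq5a : C.a • q5 = q5 := hq5
  have hq5u : C.u • q5 ≠ q5 := by
    intro e
    apply hq5T
    rw [memT]
    refine ⟨e, ?_, ?_⟩
    · intro e1
      rw [e1, C.a1] at hq5a
      exact C.h12 hq5a.symm
    · intro e2
      rw [e2, C.a1'] at hq5a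
      exact C.h12 hq5a
  have hq6a : C.a • C.u • q5 = C.u • q5 := by
    rw [← mul_smul, C.au, mul_smul, hq5a]
  have hq6T : C.u • q5 ∉ T := by
    intro e
    obtain ⟨e1, -, -⟩ := (memT _).mp e
    rw [C.uu] at e1
    exact hq5u e1.symm
  have hsub2 : ({q5, C.u • q5} : Set Ω) ∪ T ⊆ fixedBy Ω C.a := by
    intro x hx
    rcases hx with (e | e) | e
    · rw [e]; exact hq5a
    · rw [Set.mem_singleton_iff] at e
      rw [e]; exact hq6a
    · exact hTa x e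
  have hdisj : Disjoint ({q5, C.u • q5} : Set Ω) T := by
    rw [Set.disjoint_left]
    intro x hx
    rcases hx with e | e
    · rw [e]; exact hq5T
    · rw [Set.mem_singleton_iff] at e
      rw [e]; exact hq6T
  have hcard : (({q5, C.u • q5} : Set Ω) ∪ T).ncard = C.f := by
    rw [Set.ncard_union_eq hdisj, Set.ncard_pair (Ne.symm hq5u), hTn]
    omega
  have hfa : fixedBy Ω C.a = ({q5, C.u • q5} : Set Ω) ∪ T :=
    (Set.eq_of_subset_of_ncard_le hsub2 (by rw [hcard]; exact le_refl _)).symm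
  refine ⟨⟨q5, C.u • q5, T, hT1, hfa, hfu', rfl, Ne.symm hq5u⟩, ?_⟩
  show T.ncard + 2 = C.f
  omega

namespace Ext

variable {C : Cfg G Ω} (E : C.Ext)

theorem u6 : C.u • E.q6 = E.q5 := by rw [← E.u5, C.uu]

theorem mem_fa {x : Ω} : C.a • x = x ↔ x = E.q5 ∨ x = E.q6 ∨ x ∈ E.T := by
  show x ∈ fixedBy Ω C.a ↔ _
  rw [E.fa, Set.mem_union, Set.mem_insert_iff, Set.mem_singleton_iff, or_assoc]

theorem mem_fu {x : Ω} : C.u • x = x ↔ x = C.p1 ∨ x = C.p2 ∨ x ∈ E.T := by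
  show x ∈ fixedBy Ω C.u ↔ _
  rw [E.fu, Set.mem_union, Set.mem_insert_iff, Set.mem_singleton_iff, or_assoc]

theorem a5 : C.a • E.q5 = E.q5 := E.mem_fa.mpr (Or.inl rfl)
theorem a6 : C.a • E.q6 = E.q6 := E.mem_fa.mpr (Or.inr (Or.inl rfl))
theorem aT {y : Ω} (hy : y ∈ E.T) : C.a • y = y := E.mem_fa.mpr (Or.inr (Or.inr hy))
theorem uT {y : Ω} (hy : y ∈ E.T) : C.u • y = y := E.mem_fu.mpr (Or.inr (Or.inr hy))
theorem vT {y : Ω} (hy : y ∈ E.T) : C.v • y = y := by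
  rw [Cfg.v, mul_smul, E.uT hy, E.aT hy]
theorem v5 : C.v • E.q5 = E.q6 := by rw [Cfg.v, mul_smul, E.u5, E.a6]
theorem v6 : C.v • E.q6 = E.q5 := by rw [Cfg.v, mul_smul, E.u6, E.a5]
theorem q5_nS : E.q5 ∉ C.S4 := fun hx => C.a_mov _ hx E.a5
theorem q6_nS : E.q6 ∉ C.S4 := fun hx => C.a_mov _ hx E.a6
theorem T_nS {y : Ω} (hy : y ∈ E.T) : y ∉ C.S4 := fun hx => C.a_mov _ hx (E.aT hy)
theorem q5_nT : E.q5 ∉ E.T := fun hx => E.h56 ((E.uT hx).symm.trans E.u5)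
theorem q6_nT : E.q6 ∉ E.T := fun hx => E.h56 (E.u6.symm.trans (E.uT hx))
theorem ne_S_q5 {x : Ω} (hx : x ∈ C.S4) : x ≠ E.q5 := fun e => E.q5_nS (e ▸ hx)
theorem ne_S_q6 {x : Ω} (hx : x ∈ C.S4) : x ≠ E.q6 := fun e => E.q6_nS (e ▸ hx)

theorem dist_34 : Dist4 C.p3 C.p4 E.q5 E.q6 :=
  ⟨C.h34, E.ne_S_q5 C.p3_mem, E.ne_S_q6 C.p3_mem, E.ne_S_q5 C.p4_mem, E.ne_S_q6 C.p4_mem,
    E.h56⟩

theorem dist_12 : Dist4 C.p1 C.p2 E.q5 E.q6 :=
  ⟨C.h12, E.ne_S_q5 C.p1_mem, E.ne_S_q6 C.p1_mem, E.ne_S_q5 C.p2_mem, E.ne_S_q6 C.p2_mem,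
    E.h56⟩

theorem bT {y : Ω} (hy : y ∈ E.T) : C.b • y = y := by
  have h1 : C.u • C.b • y = C.b • y := C.v_fix_iff.mp (E.vT hy)
  rcases E.mem_fu.mp h1 with e | e | e
  · exfalso
    have : y = C.p3 := by rw [← C.b1, ← e, C.bb]
    exact E.T_nS hy (this ▸ C.p3_mem)
  · exfalso
    have : y = C.p4 := by rw [← C.b1', ← e, C.bb]
    exact E.T_nS hy (this ▸ C.p4_mem)
  · exact E.hT _ e _ hy

theorem mem_fv {x : Ω} : C.v • x = x ↔ x = C.p3 ∨ x = C.p4 ∨ x ∈ E.T := by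
  rw [C.v_fix_iff, E.mem_fu]
  constructor
  · rintro (e | e | e)
    · left
      rw [← C.b1, ← e, C.bb]
    · right; left
      rw [← C.b1', ← e, C.bb]
    · right; right
      have := E.bT e
      rw [C.bb] at this
      rw [this]
      exact e
  · rintro (e | e | e)
    · left
      rw [e, C.b3]
    · right; left
      rw [e, C.b3']
    · right; right
      rw [E.bT e]
      exact e

theorem b6_of_b5 (hb : C.b • E.q5 = E.q5) : C.b • E.q6 = E.q6 := by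
  calc C.b • E.q6 = (C.b * C.u) • E.q5 := by rw [mul_smul, E.u5]
    _ = (C.v * C.b) • E.q5 := by rw [C.vb]
    _ = E.q6 := by rw [mul_smul, hb, E.v5]

theorem b6_of_b5' (hb : C.b • E.q5 = E.q6) : C.b • E.q6 = E.q5 := by rw [← hb, C.bb]

theorem b5_cases : C.b • E.q5 = E.q5 ∨ C.b • E.q5 = E.q6 := by
  have h1 : C.a • C.b • E.q5 = C.b • E.q5 := by rw [← mul_smul, C.ab, mul_smul, E.a5]
  rcases E.mem_fa.mp h1 with e | e | e
  · exact Or.inl e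
  · exact Or.inr e
  · exfalso
    have := E.bT e
    rw [C.bb] at this
    rw [← this] at e
    exact E.q5_nT e

theorem mem_Th {x : Ω} : x ∈ C.Th ↔ x ∈ C.S4 ∨ x = E.q5 ∨ x = E.q6 ∨ x ∈ E.T := by
  rw [Cfg.Th, Set.mem_union]
  exact or_congr Iff.rfl E.mem_fa

theorem mem_Y {g : G} :
    g ∈ C.Y ↔ g ∈ C.H ∧ g • E.q5 = E.q5 ∧ g • E.q6 = E.q6 ∧ ∀ y ∈ E.T, g • y = y := by
  rw [Cfg.Y, mem_fixingSubgroup_iff, Cfg.H, mem_fixingSubgroup_iff]
  constructor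
  · intro hg
    exact ⟨fun y hy => hg y (E.mem_Th.mpr (Or.inl hy)),
      hg _ (E.mem_Th.mpr (Or.inr (Or.inl rfl))),
      hg _ (E.mem_Th.mpr (Or.inr (Or.inr (Or.inl rfl)))),
      fun y hy => hg y (E.mem_Th.mpr (Or.inr (Or.inr (Or.inr hy))))⟩
  · rintro ⟨h1, h2, h3, h4⟩ y hy
    rcases E.mem_Th.mp hy with e | e | e | e
    · exact h1 y e
    · rw [e]; exact h2
    · rw [e]; exact h3
    · exact h4 y e

theorem mem_Y_of (h : Hyp G Ω) {g : G} (hg : g ∈ C.H) (hT : ∀ y ∈ E.T, g • y = y)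
    (hc : C.a * g = g * C.a) : g ∈ C.Y := by
  obtain ⟨k1, k2⟩ := odd_fix_pair (C.odd_H h g hg) hc (fun z hz => E.mem_fa.mp hz) E.a5 E.a6
    hT
  exact E.mem_Y.mpr ⟨hg, k1, k2, hT⟩

theorem fixT_u {g : G} (hg : g ∈ C.H) (hc : C.u * g = g * C.u) : ∀ y ∈ E.T, g • y = y := by
  intro y hy
  have h1 : C.u • g • y = g • y := by rw [← mul_smul, hc, mul_smul, E.uT hy]
  obtain ⟨g1, g2, -, -⟩ := C.mem_H.mp hg
  rcases E.mem_fu.mp h1 with e | e | e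
  · exfalso
    have : y = C.p1 := smul_left_cancel g (e.trans g1.symm)
    exact E.T_nS hy (this ▸ C.p1_mem)
  · exfalso
    have : y = C.p2 := smul_left_cancel g (e.trans g2.symm)
    exact E.T_nS hy (this ▸ C.p2_mem)
  · exact E.hT _ e _ hy

theorem fixT_v {g : G} (hg : g ∈ C.H) (hc : C.v * g = g * C.v) : ∀ y ∈ E.T, g • y = y := by
  intro y hy
  have h1 : C.v • g • y = g • y := by rw [← mul_smul, hc, mul_smul, E.vT hy]
  obtain ⟨-, -, g3, g4⟩ := C.mem_H.mp hg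
  rcases E.mem_fv.mp h1 with e | e | e
  · exfalso
    have : y = C.p3 := smul_left_cancel g (e.trans g3.symm)
    exact E.T_nS hy (this ▸ C.p3_mem)
  · exfalso
    have : y = C.p4 := smul_left_cancel g (e.trans g4.symm)
    exact E.T_nS hy (this ▸ C.p4_mem)
  · exact E.hT _ e _ hy

theorem Th_eq_u : ({C.p3, C.p4, E.q5, E.q6} : Set Ω) ∪ fixedBy Ω C.u = C.Th := by
  ext x
  have e1 : x ∈ fixedBy Ω C.u ↔ x = C.p1 ∨ x = C.p2 ∨ x ∈ E.T := E.mem_fu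
  rw [E.mem_Th, C.mem_S4, Set.mem_union, e1]
  simp only [Set.mem_insert_iff, Set.mem_singleton_iff]
  tauto

theorem Th_eq_v : ({C.p1, C.p2, E.q5, E.q6} : Set Ω) ∪ fixedBy Ω C.v = C.Th := by
  ext x
  have e1 : x ∈ fixedBy Ω C.v ↔ x = C.p3 ∨ x = C.p4 ∨ x ∈ E.T := E.mem_fv
  rw [E.mem_Th, C.mem_S4, Set.mem_union, e1]
  simp only [Set.mem_insert_iff, Set.mem_singleton_iff]
  tauto

theorem wiel_Y_uv [Finite G] (E : C.Ext) (h : Hyp G Ω) :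
    Nat.card C.Y * C.cW ^ 2 = C.c0 * C.c0 * C.c0 := by
  have e := wielandt (C.odd_Y h) C.u2 C.v2 (by rw [C.uv, C.vu])
    (norm_FS C.u2 (C.Th_inv C.u_S4 C.au)) (norm_FS C.v2 (C.Th_inv C.v_S4 C.av))
  have e1 : Nat.card (Cn C.Y C.u) = C.c0 := by
    have := C.card0_conj_a h C.u2 E.dist_34 C.u3 E.u5
    rw [E.Th_eq_u] at this
    exact this
  have e2 : Nat.card (Cn C.Y C.v) = C.c0 := by
    have := C.card0_conj_a h C.v2 E.dist_12 C.v1 E.v5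
    rw [E.Th_eq_v] at this
    exact this
  have e3 : Cn (Cn C.Y C.v) C.u = Cn (Cn C.H C.v) C.u := by
    ext g
    rw [mem_Cn, mem_Cn, mem_Cn, mem_Cn]
    constructor
    · rintro ⟨⟨a1, a2⟩, a3⟩
      exact ⟨⟨C.Y_le_H a1, a2⟩, a3⟩
    · rintro ⟨⟨a1, a2⟩, a3⟩
      refine ⟨⟨E.mem_Y_of h a1 (E.fixT_u a1 a3) ?_, a2⟩, a3⟩
      rw [← C.uv, mul_assoc, a2, ← mul_assoc, a3, mul_assoc]
  rw [e3, e1, e2, C.uv] at e
  exact e

theorem caseA [Finite G] [Finite Ω] (h : Hyp G Ω) (hb : C.b • E.q5 = E.q5) :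
    C.cV0 = C.cW := by
  have hb6 := E.b6_of_b5 hb
  have hsub : fixedBy Ω C.a ⊆ fixedBy Ω C.b := by
    intro x hx
    rcases E.mem_fa.mp hx with e | e | e
    · rw [e]; exact hb
    · rw [e]; exact hb6
    · exact E.bT e
  have hfb : fixedBy Ω C.b = fixedBy Ω C.a :=
    (Set.eq_of_subset_of_ncard_le hsub (by rw [C.fix_b h]; exact le_refl _)).symm
  have hsub2 : fixedBy Ω C.a ⊆ fixedBy Ω (C.a * C.b) := by
    intro x hx
    have hx' : C.a • x = x := hx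
    have hx2 : C.b • x = x := hsub hx
    show (C.a * C.b) • x = x
    rw [mul_smul, hx2, hx']
  have hfab : fixedBy Ω (C.a * C.b) = fixedBy Ω C.a :=
    (Set.eq_of_subset_of_ncard_le hsub2 (by rw [C.fix_ab h]; exact le_refl _)).symm
  have e := C.wiel_Y_ab h
  have e1 : Nat.card (Cn C.Y C.b) = C.c0 := by
    have := C.card0_conj_a h C.b2 (y1 := C.p1) (y2 := C.p3) (y3 := C.p2) (y4 := C.p4)
      ⟨C.h13, C.h12, C.h14, C.h23.symm, C.h34, C.h24⟩ C.b1 C.b1'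
    rw [C.S4_perm1, hfb] at this
    exact this
  have e2 : Nat.card (Cn C.Y (C.a * C.b)) = C.c0 := by
    have := C.card0_conj_a h C.ab2 (y1 := C.p1) (y2 := C.p4) (y3 := C.p2) (y4 := C.p3)
      ⟨C.h14, C.h12, C.h13, C.h24.symm, C.h34.symm, C.h23⟩ C.ab1 C.ab1'
    rw [C.S4_perm2, hfab] at this
    exact this
  rw [e1, e2, ← E.wiel_Y_uv h] at e
  have hpos : 0 < Nat.card C.Y := Nat.card_pos
  exact Nat.pow_left_injective (by norm_num : (2 : ℕ) ≠ 0) (Nat.eq_of_mul_eq_mul_left hpos e)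

/-- the pointwise stabilizer of the base points and `T` -/
def H7 : Subgroup G := fixingSubgroup G (C.S4 ∪ E.T)

theorem mem_H7 {g : G} : g ∈ E.H7 ↔ g ∈ C.H ∧ ∀ y ∈ E.T, g • y = y := by
  rw [H7, mem_fixingSubgroup_iff, Cfg.H, mem_fixingSubgroup_iff]
  constructor
  · intro hg
    exact ⟨fun y hy => hg y (Or.inl hy), fun y hy => hg y (Or.inr hy)⟩
  · rintro ⟨h1, h2⟩ y (hy | hy)
    · exact h1 y hy
    · exact h2 y hy

theorem odd_H7 (h : Hyp G Ω) : ∀ g ∈ E.H7, Odd (orderOf g) :=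
  fun g hg => C.odd_H h g (E.mem_H7.mp hg).1

theorem H7_eq_a (h : Hyp G Ω) : Cn E.H7 C.a = Cn C.Y C.a := by
  ext g
  rw [mem_Cn, mem_Cn, E.mem_H7]
  constructor
  · rintro ⟨⟨a1, a2⟩, a3⟩
    exact ⟨E.mem_Y_of h a1 a2 a3, a3⟩
  · rintro ⟨a1, a3⟩
    obtain ⟨b1, -, -, b4⟩ := E.mem_Y.mp a1
    exact ⟨⟨b1, b4⟩, a3⟩

theorem wiel_H7_uv [Finite G] (h : Hyp G Ω) :
    Nat.card E.H7 * C.cW ^ 2 = C.d * C.d * C.c0 := by
  have n1 : ∀ x ∈ C.S4 ∪ E.T, C.u • x ∈ C.S4 ∪ E.T := by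
    rintro x (hx | hx)
    · exact Or.inl (C.u_S4 x hx)
    · refine Or.inr ?_
      rw [E.uT hx]
      exact hx
  have n2 : ∀ x ∈ C.S4 ∪ E.T, C.v • x ∈ C.S4 ∪ E.T := by
    rintro x (hx | hx)
    · exact Or.inl (C.v_S4 x hx)
    · refine Or.inr ?_
      rw [E.vT hx]
      exact hx
  have e := wielandt (E.odd_H7 h) C.u2 C.v2 (by rw [C.uv, C.vu]) (norm_FS C.u2 n1)
    (norm_FS C.v2 n2)
  have e1 : Cn E.H7 C.u = Cn C.H C.u := by
    ext g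
    rw [mem_Cn, mem_Cn, E.mem_H7]
    constructor
    · rintro ⟨⟨a1, -⟩, a2⟩
      exact ⟨a1, a2⟩
    · rintro ⟨a1, a2⟩
      exact ⟨⟨a1, E.fixT_u a1 a2⟩, a2⟩
  have e2 : Cn E.H7 C.v = Cn C.H C.v := by
    ext g
    rw [mem_Cn, mem_Cn, E.mem_H7]
    constructor
    · rintro ⟨⟨a1, -⟩, a2⟩
      exact ⟨a1, a2⟩
    · rintro ⟨a1, a2⟩
      exact ⟨⟨a1, E.fixT_v a1 a2⟩, a2⟩
  rw [C.uv, e1, e2, E.H7_eq_a h, C.card_Cn_v] at e
  exact e

theorem wiel_H7_ab [Finite G] (h : Hyp G Ω) :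
    Nat.card E.H7 * C.cV0 ^ 2 =
      C.c0 * Nat.card (Cn E.H7 C.b) * Nat.card (Cn E.H7 (C.a * C.b)) := by
  have n1 : ∀ x ∈ C.S4 ∪ E.T, C.a • x ∈ C.S4 ∪ E.T := by
    rintro x (hx | hx)
    · exact Or.inl (C.a_S4 x hx)
    · refine Or.inr ?_
      rw [E.aT hx]
      exact hx
  have n2 : ∀ x ∈ C.S4 ∪ E.T, C.b • x ∈ C.S4 ∪ E.T := by
    rintro x (hx | hx)
    · exact Or.inl (C.b_S4 x hx)
    · refine Or.inr ?_
      rw [E.bT hx]
      exact hx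
  have e := wielandt (E.odd_H7 h) C.a2 C.b2 C.ab (norm_FS C.a2 n1) (norm_FS C.b2 n2)
  have e4 : Cn (Cn E.H7 C.b) C.a = Cn (Cn C.Y C.b) C.a := by
    ext g
    rw [mem_Cn, mem_Cn, mem_Cn, mem_Cn, E.mem_H7]
    constructor
    · rintro ⟨⟨⟨a1, a2⟩, a3⟩, a4⟩
      exact ⟨⟨E.mem_Y_of h a1 a2 a4, a3⟩, a4⟩
    · rintro ⟨⟨a1, a3⟩, a4⟩
      obtain ⟨b1, -, -, b4⟩ := E.mem_Y.mp a1
      exact ⟨⟨⟨b1, b4⟩, a3⟩, a4⟩
  rw [e4, E.H7_eq_a h] at e
  exact e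

theorem emptyT {y : Ω} (hT : E.T = ∅) {g : G} : ∀ y ∈ E.T, g • y = y := by
  rw [hT]
  intro y hy
  exact absurd hy (Set.notMem_empty y)

theorem c0_eq_c (h : Hyp G Ω) (hT : E.T = ∅) : C.c0 = C.c := by
  have : Cn C.Y C.a = Cn C.H C.a := by
    ext g
    rw [mem_Cn, mem_Cn]
    constructor
    · rintro ⟨a1, a2⟩
      exact ⟨C.Y_le_H a1, a2⟩
    · rintro ⟨a1, a2⟩
      exact ⟨E.mem_Y_of h a1 (E.emptyT (y := C.p1) hT) a2, a2⟩
  show Nat.card (Cn C.Y C.a) = Nat.card (Cn C.H C.a)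
  rw [this]

theorem cV0_eq_cV (h : Hyp G Ω) (hT : E.T = ∅) : C.cV0 = C.cV := by
  have : Cn (Cn C.Y C.b) C.a = Cn (Cn C.H C.b) C.a := by
    ext g
    rw [mem_Cn, mem_Cn, mem_Cn, mem_Cn]
    constructor
    · rintro ⟨⟨a1, a2⟩, a3⟩
      exact ⟨⟨C.Y_le_H a1, a2⟩, a3⟩
    · rintro ⟨⟨a1, a2⟩, a3⟩
      exact ⟨⟨E.mem_Y_of h a1 (E.emptyT (y := C.p1) hT) a3, a2⟩, a3⟩
  show Nat.card (Cn (Cn C.Y C.b) C.a) = Nat.card (Cn (Cn C.H C.b) C.a)
  rw [this]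

theorem orb2 [Finite G] [Finite Ω] (h : Hyp G Ω) (hT : E.T = ∅) {s : G} (hs : s * s = 1)
    (hS : ∀ x ∈ C.S4, s • x ∈ C.S4) (hS' : ∀ x ∈ C.S4, s • x ≠ x)
    (hf : (fixedBy Ω s).ncard = 2) (h5 : s • E.q5 = E.q6) :
    2 * Nat.card (Cn C.H s) ≤ (Nat.card Ω - 6) * Nat.card (Cn C.Y s) := by
  have h6 : s • E.q6 = E.q5 := by rw [← h5, ← mul_smul, hs, one_smul]
  have hR : ∀ g ∈ Cn C.H s, g • E.q5 ∈ (C.S4 ∪ fixedBy Ω s)ᶜ := by
    intro g hg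
    obtain ⟨hgH, hgc⟩ := mem_Cn.mp hg
    rintro (hx | hx)
    · have : g • (g • E.q5) = g • E.q5 := (mem_fixingSubgroup_iff G).mp hgH _ hx
      have e := smul_left_cancel g this
      rw [e] at hx
      exact E.q5_nS hx
    · have hx' : s • g • E.q5 = g • E.q5 := hx
      rw [← mul_smul, hgc, mul_smul, h5] at hx'
      exact E.h56 (smul_left_cancel g hx').symm
  have hsR : ∀ y ∈ (C.S4 ∪ fixedBy Ω s)ᶜ, s • y ∈ (C.S4 ∪ fixedBy Ω s)ᶜ := by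
    intro y hy
    rintro (hx | hx)
    · apply hy
      left
      have := hS _ hx
      rw [← mul_smul, hs, one_smul] at this
      exact this
    · apply hy
      right
      have hx' : s • s • y = s • y := hx
      show s • y = y
      exact smul_left_cancel s hx'
  have key := orbit_bound (Cn C.H s) (fun g hg => C.odd_H h g (mem_Cn.mp hg).1) hs
    (fun g hg => (mem_Cn.mp hg).2) E.q5 (by rw [h5]; exact E.h56.symm)
    ((C.S4 ∪ fixedBy Ω s)ᶜ) hR hsR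
  have hdisj : Disjoint C.S4 (fixedBy Ω s) :=
    Set.disjoint_left.mpr (fun x hx hx2 => hS' x hx hx2)
  have hcompl := Set.ncard_add_ncard_compl (C.S4 ∪ fixedBy Ω s)
  rw [Set.ncard_union_eq hdisj, C.ncard_S4, hf] at hcompl
  have hst : (Cn C.H s ⊓ stabilizer G E.q5 : Subgroup G) = Cn C.Y s := by
    ext g
    rw [Subgroup.mem_inf, mem_Cn, mem_Cn, mem_stabilizer_iff, E.mem_Y]
    constructor
    · rintro ⟨⟨a1, a2⟩, a3⟩
      refine ⟨⟨a1, a3, ?_, E.emptyT (y := C.p1) hT⟩, a2⟩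
      rw [← h5, ← mul_smul, ← a2, mul_smul, a3]
    · rintro ⟨⟨a1, a3, -, -⟩, a2⟩
      exact ⟨⟨a1, a2⟩, a3⟩
  rw [hst] at key
  have hR6 : ((C.S4 ∪ fixedBy Ω s)ᶜ).ncard = Nat.card Ω - 6 := by omega
  rw [hR6] at key
  exact key

theorem n6_of_f2 [Finite G] [Finite Ω] (h : Hyp G Ω) (hn : 6 ≤ Nat.card Ω) (hT : E.T = ∅)
    (hf : C.f = 2) : Nat.card Ω = 6 := by
  have hcount := C.count h hn
  rw [hf] at hcount
  have hcW := C.cW_c h
  have cpos : 0 < C.c := Nat.card_pos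
  have cVpos : 0 < C.cV := Nat.card_pos
  have Ypos : 0 < Nat.card C.Y := Nat.card_pos
  obtain ⟨m, hm⟩ : ∃ m, Nat.card Ω = m + 6 := ⟨Nat.card Ω - 6, by omega⟩
  have k1 : 2 * C.d = (m + 2) * C.c := by
    have e : Nat.card Ω - 2 - 2 = m + 2 := by omega
    rw [e] at hcount
    simpa using hcount
  have k2 : 2 * C.cW = (m + 2) * C.cV := by
    apply Nat.eq_of_mul_eq_mul_left cpos
    calc C.c * (2 * C.cW) = 2 * (C.cW * C.c) := by ring
      _ = 2 * (C.d * C.cV) := by rw [hcW]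
      _ = (2 * C.d) * C.cV := by ring
      _ = ((m + 2) * C.c) * C.cV := by rw [k1]
      _ = C.c * ((m + 2) * C.cV) := by ring
  rcases E.b5_cases with hb | hb
  · have e1 := E.caseA h hb
    have e2 := C.cV0_le
    rw [e1] at e2
    by_contra hne
    have hm1 : 1 ≤ m := by omega
    have : 3 * C.cV ≤ (m + 2) * C.cV := Nat.mul_le_mul_right _ (by omega)
    omega
  · exfalso
    have hb6 := E.b6_of_b5' hb
    have o1 := E.orb2 h hT C.b2 C.b_S4 C.b_mov (by rw [C.fix_b h, hf]) hb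
    have o2 := E.orb2 h hT C.ab2 C.ab_S4 C.ab_mov (by rw [C.fix_ab h, hf])
      (by rw [mul_smul, hb, E.a6])
    rw [C.card_Cn_b h] at o1
    rw [C.card_Cn_ab h] at o2
    have hm6 : Nat.card Ω - 6 = m := by omega
    rw [hm6] at o1 o2
    have w1 := E.wiel_Y_uv h
    have w2 := C.wiel_Y_ab h
    rw [E.c0_eq_c h hT] at w1 w2
    rw [E.cV0_eq_cV h hT] at w2
    have s1 : (2 * C.c) * (2 * C.c) ≤
        (m * Nat.card (Cn C.Y C.b)) * (m * Nat.card (Cn C.Y (C.a * C.b))) :=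
      Nat.mul_le_mul o1 o2
    have s2 : Nat.card C.Y * ((m + 2) * C.cV) ^ 2 ≤ Nat.card C.Y * (m * C.cV) ^ 2 := by
      calc Nat.card C.Y * ((m + 2) * C.cV) ^ 2 = Nat.card C.Y * (2 * C.cW) ^ 2 := by rw [k2]
        _ = 4 * (Nat.card C.Y * C.cW ^ 2) := by ring
        _ = 4 * (C.c * C.c * C.c) := by rw [w1]
        _ = C.c * ((2 * C.c) * (2 * C.c)) := by ring
        _ ≤ C.c * ((m * Nat.card (Cn C.Y C.b)) * (m * Nat.card (Cn C.Y (C.a * C.b)))) :=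
            Nat.mul_le_mul_left _ s1
        _ = m ^ 2 * (C.c * Nat.card (Cn C.Y C.b) * Nat.card (Cn C.Y (C.a * C.b))) := by ring
        _ = m ^ 2 * (Nat.card C.Y * C.cV ^ 2) := by rw [w2]
        _ = Nat.card C.Y * (m * C.cV) ^ 2 := by ring
    have s3 : ((m + 2) * C.cV) ^ 2 ≤ (m * C.cV) ^ 2 := Nat.le_of_mul_le_mul_left s2 Ypos
    have s4 : (m + 2) * C.cV ≤ m * C.cV := by
      by_contra hlt
      push Not at hlt
      have := Nat.pow_lt_pow_left hlt (by norm_num : (2 : ℕ) ≠ 0)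
      omega
    have s5 : m + 2 ≤ m := Nat.le_of_mul_le_mul_right s4 cVpos
    omega

end Ext

end Cfg

end Cfsg.Agent.Lib.Helper99.Hall4
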