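import Cfsg.Agent.Lib.Helper99.HallE

set_option autoImplicit false
set_option linter.unusedSectionVars false
set_option linter.unusedSimpArgs false
set_option linter.unusedVariables false

open MulAction
open scoped Pointwise

namespace Cfsg.Agent.Lib.Helper99.Hall4

universe u v

variable {G : Type v} {Ω : Type u} [Group G] [MulAction G Ω]

theorem conj_FS_iff (g x : G) (s : Set Ω) :
    x ∈ fixingSubgroup G s ↔ g * x * g⁻¹ ∈ fixingSubgroup G (g • s) := by
  rw [mem_fixingSubgroup_iff, mem_fixingSubgroup_iff]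
  constructor
  · rintro h1 y ⟨z, hz, rfl⟩
    show (g * x * g⁻¹) • g • z = g • z
    rw [mul_smul, mul_smul, inv_smul_smul, h1 z hz]
  · intro h1 z hz
    have := h1 (g • z) (Set.smul_mem_smul_set hz)
    rw [mul_smul, mul_smul, inv_smul_smul, smul_left_cancel_iff] at this
    exact this

theorem odd_fix3_aux {g t : G} (hg : Odd (orderOf g)) (hc : t * g = g * t) {x1 x2 x3 : Ω}
    (hmem : ∀ y : Ω, t • y = y ↔ y = x1 ∨ y = x2 ∨ y = x3) (hgz : g • x3 = x3) :
    ∀ y : Ω, t • y = y → g • y = y := by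
  have t1 := (hmem x1).mpr (Or.inl rfl)
  have t2 := (hmem x2).mpr (Or.inr (Or.inl rfl))
  obtain ⟨k1, k2⟩ := odd_fix_pair hg hc (r1 := x1) (r2 := x2) (T := {x3})
    (fun w hw => by
      rcases (hmem w).mp hw with e' | e' | e'
      · exact Or.inl e'
      · exact Or.inr (Or.inl e')
      · exact Or.inr (Or.inr (Set.mem_singleton_iff.mpr e'))) t1 t2
    (fun y hy => by
      rw [Set.mem_singleton_iff] at hy
      rw [hy]
      exact hgz)
  intro y hy
  rcases (hmem y).mp hy with e' | e' | e'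
  · rw [e']; exact k1
  · rw [e']; exact k2
  · rw [e']; exact hgz

/-- an odd-order element commuting with `t` and fixing one of the three fixed points of `t`
fixes all of them -/
theorem odd_fix3 {g t : G} (hg : Odd (orderOf g)) (hc : t * g = g * t)
    (hf : (fixedBy Ω t).ncard = 3) {z : Ω} (hz : t • z = z) (hgz : g • z = z) :
    ∀ y : Ω, t • y = y → g • y = y := by
  obtain ⟨x1, x2, x3, -, -, -, hs⟩ := Set.ncard_eq_three.mp hf
  have mem : ∀ y : Ω, t • y = y ↔ y = x1 ∨ y = x2 ∨ y = x3 := by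
    intro y
    show y ∈ fixedBy Ω t ↔ _
    rw [hs]
    simp only [Set.mem_insert_iff, Set.mem_singleton_iff]
  rcases (mem z).mp hz with e | e | e
  · rw [e] at hgz
    exact odd_fix3_aux hg hc (x1 := x2) (x2 := x3) (x3 := x1)
      (fun y => (mem y).trans ⟨fun h => by tauto, fun h => by tauto⟩) hgz
  · rw [e] at hgz
    exact odd_fix3_aux hg hc (x1 := x1) (x2 := x3) (x3 := x2)
      (fun y => (mem y).trans ⟨fun h => by tauto, fun h => by tauto⟩) hgz
  · rw [e] at hgz
    exact odd_fix3_aux hg hc mem hgz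

theorem par_aux {m c d : ℕ} (hc : Odd c) (hd : Odd d) (e : 6 * d = m * c) : m % 4 = 2 := by
  have hm : Even m := by
    have : Even (m * c) := by
      rw [← e]
      exact ⟨3 * d, by ring⟩
    rcases Nat.even_mul.mp this with h1 | h1
    · exact h1
    · exact absurd h1 (Nat.not_even_iff_odd.mpr hc)
  obtain ⟨m', rfl⟩ := hm
  have e2 : 3 * d = m' * c := by
    have e3 : (m' + m') * c = 2 * (m' * c) := by ring
    rw [e3] at e
    generalize m' * c = D at e
    omega
  have hm' : Odd m' := by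
    have : Odd (m' * c) := by
      rw [← e2]
      exact (by decide : Odd 3).mul hd
    exact (Nat.odd_mul.mp this).1
  obtain ⟨r, rfl⟩ := hm'
  omega

/-- an odd-order element commuting with a fixed-point-free involution on four points is
trivial there -/
theorem four_pt [Finite Ω] {g a : G} (hg : Odd (orderOf g)) (ha : a * a = 1)
    (hc : a * g = g * a) (R : Set Ω) (hR : R.ncard = 4) (haR : ∀ x ∈ R, a • x ∈ R)
    (hgR : ∀ x ∈ R, g • x ∈ R) (hfix : ∀ x ∈ R, a • x ≠ x) : ∀ x ∈ R, g • x = x := by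
  intro x hx
  have aa : ∀ z : Ω, a • a • z = z := fun z => by rw [← mul_smul, ha, one_smul]
  have ag : ∀ z : Ω, g • a • z = a • g • z := fun z => by rw [← mul_smul, ← hc, mul_smul]
  have hg2 : Odd (orderOf (g * g)) := by
    rw [← pow_two]
    exact Odd.of_dvd_nat hg (orderOf_pow_dvd 2)
  have hax := hfix x hx
  have h2 : ({x, a • x} : Set Ω).ncard = 2 := Set.ncard_pair (Ne.symm hax)
  obtain ⟨y, hy, hy2⟩ := Set.exists_mem_notMem_of_ncard_lt_ncard
    (s := ({x, a • x} : Set Ω)) (t := R) (by omega)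
  simp only [Set.mem_insert_iff, Set.mem_singleton_iff, not_or] at hy2
  obtain ⟨hyx, hyax⟩ := hy2
  have hay := hfix y hy
  have hayx : a • y ≠ x := by
    intro e
    apply hyax
    rw [← e, aa]
  have hayax : a • y ≠ a • x := fun e => hyx (smul_left_cancel a e)
  have hsub : ({x, a • x, y, a • y} : Set Ω) ⊆ R := by
    intro z hz
    simp only [Set.mem_insert_iff, Set.mem_singleton_iff] at hz
    rcases hz with e | e | e | e
    · rw [e]; exact hx
    · rw [e]; exact haR x hx
    · rw [e]; exact hy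
    · rw [e]; exact haR y hy
  have hc4 : ({x, a • x, y, a • y} : Set Ω).ncard = 4 := by
    have n1 : x ∉ ({a • x, y, a • y} : Set Ω) := by
      simp only [Set.mem_insert_iff, Set.mem_singleton_iff, not_or]
      exact ⟨Ne.symm hax, Ne.symm hyx, Ne.symm hayx⟩
    have n2 : a • x ∉ ({y, a • y} : Set Ω) := by
      simp only [Set.mem_insert_iff, Set.mem_singleton_iff, not_or]
      exact ⟨Ne.symm hyax, Ne.symm hayax⟩
    rw [Set.ncard_insert_of_notMem n1, Set.ncard_insert_of_notMem n2,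
      Set.ncard_pair (Ne.symm hay)]
  have hall : ∀ z ∈ R, z = x ∨ z = a • x ∨ z = y ∨ z = a • y := by
    intro z hz
    have := Set.eq_of_subset_of_ncard_le hsub (le_of_eq (hR.trans hc4.symm))
    rw [← this] at hz
    simpa only [Set.mem_insert_iff, Set.mem_singleton_iff] using hz
  have aux : ∀ w, w ∈ R → w ≠ x → w ≠ a • x →
      (∀ z ∈ R, z = x ∨ z = a • x ∨ z = w ∨ z = a • w) → g • x = w → False := by
    intro w hw hwx hwax hallw hgx
    rcases hallw _ (hgR w hw) with e | e | e | e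
    · exact hwx (odd_swap hg hgx e).symm
    · have e1 : (g * g) • x = a • x := by rw [mul_smul, hgx, e]
      have e2 : (g * g) • a • x = x := by
        rw [mul_smul, ag, hgx, ag, e, aa]
      exact hax (odd_swap hg2 e1 e2).symm
    · exact hwx (smul_left_cancel g (e.trans hgx.symm))
    · have : g • a • x = g • w := by rw [ag, hgx, e]
      exact hwax (smul_left_cancel g this).symm
  rcases hall _ (hgR x hx) with e | e | e | e
  · exact e
  · exfalso
    have e2 : g • a • x = x := by rw [ag, e, aa]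
    exact hax (odd_swap hg e e2).symm
  · exact (aux y hy hyx hyax hall e).elim
  · refine (aux (a • y) (haR y hy) hayx hayax ?_ e).elim
    intro z hz
    rcases hall z hz with e' | e' | e' | e'
    · exact Or.inl e'
    · exact Or.inr (Or.inl e')
    · exact Or.inr (Or.inr (Or.inr (by rw [aa]; exact e')))
    · exact Or.inr (Or.inr (Or.inl e'))

namespace Cfg

variable (C : Cfg G Ω)

theorem nums3 [Finite G] [Finite Ω] (h : Hyp G Ω) (hn : 6 ≤ Nat.card Ω) (hf : C.f = 3) :
    ∃ m, Nat.card Ω = m + 5 ∧ 6 * C.d = m * C.c ∧ 6 * C.cW = m * C.cV := by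
  have hcount := C.count h hn
  rw [hf] at hcount
  have hcW := C.cW_c h
  have cpos : 0 < C.c := Nat.card_pos
  refine ⟨Nat.card Ω - 5, by omega, ?_⟩
  have e : Nat.card Ω - 3 - 2 = Nat.card Ω - 5 := by omega
  rw [e] at hcount
  generalize Nat.card Ω - 5 = m at hcount
  have k1 : 6 * C.d = m * C.c := by omega
  refine ⟨k1, ?_⟩
  apply Nat.eq_of_mul_eq_mul_left cpos
  calc C.c * (6 * C.cW) = 6 * (C.cW * C.c) := by ring
    _ = 6 * (C.d * C.cV) := by rw [hcW]
    _ = (6 * C.d) * C.cV := by ring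
    _ = (m * C.c) * C.cV := by rw [k1]
    _ = C.c * (m * C.cV) := by ring

theorem f3_11 [Finite G] [Finite Ω] [FaithfulSMul G Ω] (h : Hyp G Ω) (hf : C.f = 3)
    (hn11 : Nat.card Ω = 11) (hcc : C.c = C.c0) : Nat.card C.H = 1 := by
  have hdisj : Disjoint C.S4 (fixedBy Ω C.a) :=
    Set.disjoint_left.mpr (fun x hx hx2 => C.a_mov x hx hx2)
  have hTh : C.Th.ncard = 7 := by
    rw [Cfg.Th, Set.ncard_union_eq hdisj, C.ncard_S4]
    show 4 + C.f = 7
    omega
  have hcompl := Set.ncard_add_ncard_compl C.Th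
  have hR : (C.Th)ᶜ.ncard = 4 := by omega
  have hc0 : C.c0 = 1 := by
    show Nat.card (Cn C.Y C.a) = 1
    rw [Subgroup.card_eq_one, Subgroup.eq_bot_iff_forall]
    intro g hg
    obtain ⟨hgY, hgc⟩ := mem_Cn.mp hg
    apply FaithfulSMul.eq_of_smul_eq_smul (α := Ω)
    intro x
    rw [one_smul]
    by_cases hx : x ∈ C.Th
    · exact (mem_fixingSubgroup_iff G).mp hgY x hx
    · refine four_pt (C.odd_Y h g hgY) C.a2 hgc (C.Th)ᶜ hR ?_ ?_ ?_ x hx
      · intro x hx hax
        apply hx
        have := C.Th_inv C.a_S4 rfl _ hax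
        rw [C.aa] at this
        exact this
      · intro x hx hgx
        apply hx
        have := (mem_fixingSubgroup_iff G).mp hgY _ hgx
        have e := smul_left_cancel g this
        rw [e] at hgx
        exact hgx
      · intro x hx e
        exact hx (Or.inr e)
  have wab := C.wiel_ab h
  rw [hcc, hc0] at wab
  simp only [mul_one] at wab
  exact Nat.dvd_one.mp (Dvd.intro _ wab)

namespace Ext

variable {C : Cfg G Ω} (E : C.Ext)

theorem H7_eq_s (h : Hyp G Ω) {q7 : Ω} (hq7 : q7 ∈ E.T) {s : G}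
    (hf : (fixedBy Ω s).ncard = 3) (hsT : ∀ y ∈ E.T, s • y = y) :
    Cn E.H7 s = Cn (fixingSubgroup G (C.S4 ∪ fixedBy Ω s)) s := by
  ext g
  rw [mem_Cn, mem_CnF, E.mem_H7]
  constructor
  · rintro ⟨⟨a1, a2⟩, a3⟩
    refine ⟨?_, a3⟩
    rintro y (hy | hy)
    · exact (mem_fixingSubgroup_iff G).mp a1 y hy
    · exact odd_fix3 (C.odd_H h g a1) a3 hf (hsT q7 hq7) (a2 q7 hq7) y hy
  · rintro ⟨a1, a3⟩
    exact ⟨⟨(mem_fixingSubgroup_iff G).mpr (fun y hy => a1 y (Or.inl hy)),
      fun y hy => a1 y (Or.inr (hsT y hy))⟩, a3⟩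

theorem wiel_H7_ab3 [Finite G] [Finite Ω] (h : Hyp G Ω) {q7 : Ω} (hq7 : q7 ∈ E.T)
    (hf : C.f = 3) : Nat.card E.H7 * C.cV0 ^ 2 = C.c0 * C.c0 * C.c0 := by
  have e := E.wiel_H7_ab h
  have e1 : Nat.card (Cn E.H7 C.b) = C.c0 := by
    rw [E.H7_eq_s h hq7 (by rw [C.fix_b h, hf]) (fun y hy => E.bT hy)]
    have := C.card0_conj_a h C.b2 (y1 := C.p1) (y2 := C.p3) (y3 := C.p2) (y4 := C.p4)
      ⟨C.h13, C.h12, C.h14, C.h23.symm, C.h34, C.h24⟩ C.b1 C.b1'
    rw [C.S4_perm1] at this
    exact this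
  have e2 : Nat.card (Cn E.H7 (C.a * C.b)) = C.c0 := by
    rw [E.H7_eq_s h hq7 (by rw [C.fix_ab h, hf])
      (fun y hy => by rw [mul_smul, E.bT hy, E.aT hy])]
    have := C.card0_conj_a h C.ab2 (y1 := C.p1) (y2 := C.p4) (y3 := C.p2) (y4 := C.p3)
      ⟨C.h14, C.h12, C.h13, C.h24.symm, C.h34.symm, C.h23⟩ C.ab1 C.ab1'
    rw [C.S4_perm2] at this
    exact this
  rw [e1, e2] at e
  exact e

theorem caseA3 [Finite G] [Finite Ω] (h : Hyp G Ω) (hn : 6 ≤ Nat.card Ω) {q7 : Ω}
    (hq7 : q7 ∈ E.T) (hf : C.f = 3) (hb : C.b • E.q5 = E.q5) :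
    (Nat.card Ω = 7 ∧ 3 ∣ Nat.card C.H) ∨ (Nat.card Ω = 11 ∧ C.c = C.c0) := by
  obtain ⟨m, hm, k1, k2⟩ := C.nums3 h hn hf
  have cVpos : 0 < C.cV := Nat.card_pos
  have c0pos : 0 < C.c0 := Nat.card_pos
  have e1 := E.caseA h hb
  have e2 := C.cV0_le
  rw [e1] at e2
  have hm6 : m ≤ 6 := by
    by_contra hcon
    have : 7 * C.cV ≤ m * C.cV := Nat.mul_le_mul_right _ (by omega)
    omega
  have oc : Odd C.c := odd_card_of_odd (Cn C.H C.a) (fun g hg => C.odd_H h g (mem_Cn.mp hg).1)
  have od : Odd C.d := odd_card_of_odd (Cn C.H C.u) (fun g hg => C.odd_H h g (mem_Cn.mp hg).1)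
  have hpar := par_aux oc od k1
  have hm2 : m = 2 ∨ m = 6 := by omega
  rcases hm2 with rfl | rfl
  · left
    refine ⟨by omega, ?_⟩
    have : C.c = 3 * C.d := by omega
    have hdvd : C.c ∣ Nat.card C.H := Subgroup.card_dvd_of_le (fun g hg => (mem_Cn.mp hg).1)
    exact (Dvd.intro _ this.symm).trans hdvd
  · right
    refine ⟨by omega, ?_⟩
    have hdc : C.d = C.c := by omega
    have w3 := E.wiel_H7_uv h
    have w4 := E.wiel_H7_ab3 h hq7 hf
    rw [e1, w3, hdc] at w4
    have : C.c * C.c = C.c0 * C.c0 := Nat.eq_of_mul_eq_mul_right c0pos w4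
    exact Nat.mul_self_inj.mp this

theorem B1 [Finite G] [Finite Ω] (h : Hyp G Ω) (hfixT : ∀ g ∈ C.H, ∀ y ∈ E.T, g • y = y)
    {x : Ω} (hx : ∀ g ∈ C.H, g • x = x) (hxS : x ∉ C.S4) (hxT : x ∉ E.T) : C.H = C.Y := by
  have hxu : C.u • x ≠ x := by
    intro e
    rcases E.mem_fu.mp e with e1 | e1 | e1
    · exact hxS (e1 ▸ C.p1_mem)
    · exact hxS (e1 ▸ C.p2_mem)
    · exact hxT e1
  have hx3 : x ≠ C.p3 := fun e => hxS (e ▸ C.p3_mem)
  have hx4 : x ≠ C.p4 := fun e => hxS (e ▸ C.p4_mem)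
  obtain ⟨g0, hg0, g1, g2, g3, g4⟩ := C.conj_a h C.u2 (C.dist_mov hxu hx3 hx4) C.u3 rfl
  have hux : ∀ k ∈ C.H, k • C.u • x = C.u • x := by
    intro k hk
    have := hx _ (norm_FS C.u2 C.u_S4 k hk)
    rw [mul_smul, mul_smul] at this
    have e2 := congrArg (fun z => C.u • z) this
    simp only [C.uu] at e2
    exact e2
  have hL : fixingSubgroup G (g0 • C.S4) = C.H := by
    have hle : C.H ≤ fixingSubgroup G (g0 • C.S4) := by
      intro k hk
      rw [mem_fixingSubgroup_iff]
      have e2 : g0 • C.S4 = ({C.p3, C.p4, x, C.u • x} : Set Ω) := by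
        simp only [Cfg.S4, Set.smul_set_insert, Set.smul_set_singleton, g1, g2, g3, g4]
      rw [e2]
      obtain ⟨-, -, k3, k4⟩ := C.mem_H.mp hk
      intro y hy
      simp only [Set.mem_insert_iff, Set.mem_singleton_iff] at hy
      rcases hy with e | e | e | e
      · rw [e]; exact k3
      · rw [e]; exact k4
      · rw [e]; exact hx k hk
      · rw [e]; exact hux k hk
    have hcard : Nat.card (fixingSubgroup G (g0 • C.S4)) = Nat.card C.H :=
      (card_conj C.H (fixingSubgroup G (g0 • C.S4)) g0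
        (fun k => conj_FS_iff g0 k C.S4)).symm
    exact (Subgroup.eq_of_le_of_card_ge hle (le_of_eq hcard)).symm
  have hfa : ∀ q : Ω, C.a • q = q → ∀ k ∈ C.H, k • q = q := by
    intro q hq k hk
    have hk' : g0 * k * g0⁻¹ ∈ C.H := by
      rw [← hL]
      exact (conj_FS_iff g0 k C.S4).mp hk
    have hq' : C.u • g0 • q = g0 • q := by
      rw [← hg0, mul_smul, mul_smul, inv_smul_smul, hq]
    have hfix : ∀ k' ∈ C.H, k' • g0 • q = g0 • q := by
      intro k' hk'
      rcases E.mem_fu.mp hq' with e | e | e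
      · rw [e]; exact (C.mem_H.mp hk').1
      · rw [e]; exact (C.mem_H.mp hk').2.1
      · exact hfixT k' hk' _ e
    have := hfix _ hk'
    rw [mul_smul, mul_smul, inv_smul_smul] at this
    exact smul_left_cancel g0 this
  apply le_antisymm
  · intro k hk
    exact E.mem_Y.mpr ⟨hk, hfa _ E.a5 k hk, hfa _ E.a6 k hk, hfixT k hk⟩
  · exact C.Y_le_H

theorem B2 [Finite G] [Finite Ω] [FaithfulSMul G Ω] (h : Hyp G Ω) {q7 : Ω} (hq7 : q7 ∈ E.T)
    (hfixT : ∀ g ∈ C.H, ∀ y ∈ E.T, g • y = y) (hcc : C.c = C.c0)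
    (hF : ∀ x, (∀ g ∈ C.H, g • x = x) → x ∈ C.S4 ∨ x ∈ E.T) : False := by
  -- step 1: every four points determine a fifth one
  have st1 : ∀ z1 z2 z3 z4 : Ω, Dist4 z1 z2 z3 z4 →
      ∃ z5, (z5 ≠ z1 ∧ z5 ≠ z2 ∧ z5 ≠ z3 ∧ z5 ≠ z4) ∧
        (∀ k ∈ fixingSubgroup G ({z1, z2, z3, z4} : Set Ω), k • z5 = z5) ∧
        ∀ x, (∀ k ∈ fixingSubgroup G ({z1, z2, z3, z4} : Set Ω), k • x = x) →
          x = z1 ∨ x = z2 ∨ x = z3 ∨ x = z4 ∨ x = z5 := by
    intro z1 z2 z3 z4 hz
    obtain ⟨g1, e1, e2, e3, e4⟩ := h.trans C.p1 C.p2 C.p3 C.p4 z1 z2 z3 z4 C.hd hz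
    have eS : g1 • C.S4 = ({z1, z2, z3, z4} : Set Ω) := by
      simp only [Cfg.S4, Set.smul_set_insert, Set.smul_set_singleton, e1, e2, e3, e4]
    have conj : ∀ k, k ∈ C.H ↔
        g1 * k * g1⁻¹ ∈ fixingSubgroup G ({z1, z2, z3, z4} : Set Ω) := by
      intro k
      rw [← eS]
      exact conj_FS_iff g1 k C.S4
    refine ⟨g1 • q7, ⟨?_, ?_, ?_, ?_⟩, ?_, ?_⟩
    · intro e
      rw [← e1] at e
      exact E.T_nS hq7 ((smul_left_cancel g1 e) ▸ C.p1_mem)
    · intro e
      rw [← e2] at e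
      exact E.T_nS hq7 ((smul_left_cancel g1 e) ▸ C.p2_mem)
    · intro e
      rw [← e3] at e
      exact E.T_nS hq7 ((smul_left_cancel g1 e) ▸ C.p3_mem)
    · intro e
      rw [← e4] at e
      exact E.T_nS hq7 ((smul_left_cancel g1 e) ▸ C.p4_mem)
    · intro k hk
      have hk' : g1⁻¹ * k * g1 ∈ C.H := by
        rw [conj]
        have : g1 * (g1⁻¹ * k * g1) * g1⁻¹ = k := by
          simp only [mul_assoc, mul_inv_cancel_left, mul_inv_cancel, mul_one]
        rw [this]
        exact hk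
      have := hfixT _ hk' q7 hq7
      rw [mul_smul, mul_smul, inv_smul_eq_iff] at this
      exact this
    · intro x hx
      have hx' : ∀ k' ∈ C.H, k' • g1⁻¹ • x = g1⁻¹ • x := by
        intro k' hk'
        have := hx _ ((conj k').mp hk')
        rw [mul_smul, mul_smul] at this
        exact eq_inv_smul_iff.mpr this
      rcases hF _ hx' with e | e
      · rw [C.mem_S4] at e
        rcases e with e | e | e | e
        · left
          rw [← e1, ← e, smul_inv_smul]
        · right; left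
          rw [← e2, ← e, smul_inv_smul]
        · right; right; left
          rw [← e3, ← e, smul_inv_smul]
        · right; right; right; left
          rw [← e4, ← e, smul_inv_smul]
      · right; right; right; right
        have := E.hT _ e _ hq7
        rw [← this, smul_inv_smul]
  -- step 2
  have hd0 : Dist4 C.p1 C.p2 q7 E.q5 :=
    ⟨C.h12, fun e => E.T_nS hq7 (e ▸ C.p1_mem), E.ne_S_q5 C.p1_mem,
      fun e => E.T_nS hq7 (e ▸ C.p2_mem), E.ne_S_q5 C.p2_mem, fun e => E.q5_nT (e ▸ hq7)⟩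
  have st2 : ∀ k ∈ fixingSubgroup G ({C.p1, C.p2, q7, E.q5} : Set Ω), k • E.q6 = E.q6 := by
    obtain ⟨z5, ⟨n1, n2, n3, n4⟩, hz5, huniq⟩ := st1 _ _ _ _ hd0
    have haz : ∀ k ∈ fixingSubgroup G ({C.p1, C.p2, q7, E.q5} : Set Ω),
        k • C.a • z5 = C.a • z5 := by
      intro k hk
      have hnorm := norm_FS C.a2 (s := ({C.p1, C.p2, q7, E.q5} : Set Ω)) (by
        intro y hy
        simp only [Set.mem_insert_iff, Set.mem_singleton_iff] at hy ⊢
        rcases hy with e | e | e | e
        · rw [e, C.a1]; tauto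
        · rw [e, C.a1']; tauto
        · rw [e, E.aT hq7]; tauto
        · rw [e, E.a5]; tauto) k hk
      have := hz5 _ hnorm
      rw [mul_smul, mul_smul] at this
      have e2 := congrArg (fun z => C.a • z) this
      simp only [C.aa] at e2
      exact e2
    have hz5a : C.a • z5 = z5 := by
      rcases huniq _ haz with e | e | e | e | e
      · exfalso
        apply n2
        rw [← C.a1, ← e, C.aa]
      · exfalso
        apply n1
        rw [← C.a1', ← e, C.aa]
      · exfalso
        apply n3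
        have := congrArg (fun z => C.a • z) e
        simp only [C.aa, E.aT hq7] at this
        exact this
      · exfalso
        apply n4
        have := congrArg (fun z => C.a • z) e
        simp only [C.aa, E.a5] at this
        exact this
      · exact e
    rcases E.mem_fa.mp hz5a with e | e | e
    · exact absurd e n4
    · rw [← e]
      exact hz5
    · exact absurd (E.hT _ e _ hq7) n3
  -- step 3
  have st3 : ∀ x, C.u • x ≠ x → ∀ k ∈ fixingSubgroup G ({C.p1, C.p2, q7, x} : Set Ω),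
      k • C.u • x = C.u • x := by
    intro x hxu k hk
    have hx1 : C.p1 ≠ x := fun e => hxu (e ▸ C.u1)
    have hx2 : C.p2 ≠ x := fun e => hxu (e ▸ C.u1')
    have hux1 : C.p1 ≠ C.u • x := by
      intro e
      apply hx1
      have := congrArg (fun z => C.u • z) e
      simp only [C.uu, C.u1] at this
      exact this
    have hux2 : C.p2 ≠ C.u • x := by
      intro e
      apply hx2
      have := congrArg (fun z => C.u • z) e
      simp only [C.uu, C.u1'] at this
      exact this
    obtain ⟨g, hg, g1, g2, g5, g6⟩ := trans_conj h C.u2 C.u2 E.dist_12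
      (y1 := C.p1) (y2 := C.p2) (y3 := x) (y4 := C.u • x)
      ⟨C.h12, hx1, hux1, hx2, hux2, fun e => hxu e.symm⟩
      (by
        intro z hz
        rcases hz with e | e | e | e
        · rw [e]; exact Or.inl C.u1
        · rw [e]; exact Or.inr (Or.inl C.u1')
        · rw [e]; exact Or.inr (Or.inr (Or.inr rfl))
        · rw [e]; exact Or.inr (Or.inr (Or.inl (C.uu _))))
      (by
        intro g0 e1 e2 e3 e4
        refine ⟨?_, ?_, ?_, ?_⟩
        · rw [C.u1, e1]
        · rw [C.u1', e2]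
        · rw [E.u5, e4]
        · rw [E.u6, C.uu, e3])
    have gu := comm_of_conj hg
    have g7 : g • q7 = q7 := by
      have h1 : C.u • g • q7 = g • q7 := by rw [← mul_smul, gu, mul_smul, E.uT hq7]
      rcases E.mem_fu.mp h1 with e | e | e
      · exfalso
        exact E.T_nS hq7 ((smul_left_cancel g (e.trans g1.symm)) ▸ C.p1_mem)
      · exfalso
        exact E.T_nS hq7 ((smul_left_cancel g (e.trans g2.symm)) ▸ C.p2_mem)
      · exact E.hT _ e _ hq7
    obtain ⟨k1, k2, k7, kx⟩ := mem_FS4.mp hk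
    have hk' : g⁻¹ * k * g ∈ fixingSubgroup G ({C.p1, C.p2, q7, E.q5} : Set Ω) := by
      rw [mem_FS4]
      refine ⟨?_, ?_, ?_, ?_⟩
      · rw [mul_smul, mul_smul, g1, k1, inv_smul_eq_iff, g1]
      · rw [mul_smul, mul_smul, g2, k2, inv_smul_eq_iff, g2]
      · rw [mul_smul, mul_smul, g7, k7, inv_smul_eq_iff, g7]
      · rw [mul_smul, mul_smul, g5, kx, inv_smul_eq_iff, g5]
    have := st2 _ hk'
    rw [mul_smul, mul_smul, g6, inv_smul_eq_iff, g6] at this
    exact this
  -- step 4
  have st4 : ∀ k ∈ C.H, C.u * k = k * C.u := by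
    intro k hk
    apply comm_of_conj
    apply FaithfulSMul.eq_of_smul_eq_smul (α := Ω)
    intro x
    obtain ⟨k1, k2, -, -⟩ := C.mem_H.mp hk
    have k7 := hfixT k hk q7 hq7
    have ki1 : k⁻¹ • C.p1 = C.p1 := by rw [inv_smul_eq_iff, k1]
    have ki2 : k⁻¹ • C.p2 = C.p2 := by rw [inv_smul_eq_iff, k2]
    have ki7 : k⁻¹ • q7 = q7 := by rw [inv_smul_eq_iff, k7]
    rw [mul_smul, mul_smul]
    by_cases hxu : C.u • x = x
    · have hkx : k • x = x := by
        rcases E.mem_fu.mp hxu with e | e | e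
        · rw [e]; exact k1
        · rw [e]; exact k2
        · rw [E.hT _ e _ hq7]; exact k7
      have hkix : k⁻¹ • x = x := by rw [inv_smul_eq_iff, hkx]
      rw [hkix, hxu, hkx]
    · have hx'u : C.u • k⁻¹ • x ≠ k⁻¹ • x := by
        intro e
        apply hxu
        have hkx' : k • k⁻¹ • x = k⁻¹ • x := by
          rcases E.mem_fu.mp e with e' | e' | e'
          · rw [e']; exact k1
          · rw [e']; exact k2
          · rw [E.hT _ e' _ hq7]; exact k7
        rw [smul_inv_smul] at hkx'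
        rw [← hkx'] at e
        exact e
      have hA1 := st3 x hxu
      have hA2 : ∀ m ∈ fixingSubgroup G ({C.p1, C.p2, q7, x} : Set Ω),
          m • k • C.u • k⁻¹ • x = k • C.u • k⁻¹ • x := by
        intro m hm
        obtain ⟨m1, m2, m7, mx⟩ := mem_FS4.mp hm
        have hm' : k⁻¹ * m * k ∈ fixingSubgroup G ({C.p1, C.p2, q7, k⁻¹ • x} : Set Ω) := by
          rw [mem_FS4]
          refine ⟨?_, ?_, ?_, ?_⟩
          · rw [mul_smul, mul_smul, k1, m1, ki1]
          · rw [mul_smul, mul_smul, k2, m2, ki2]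
          · rw [mul_smul, mul_smul, k7, m7, ki7]
          · rw [mul_smul, mul_smul, smul_inv_smul, mx]
        have := st3 _ hx'u _ hm'
        rw [mul_smul, mul_smul, inv_smul_eq_iff] at this
        exact this
      have hdx : Dist4 C.p1 C.p2 q7 x :=
        ⟨C.h12, fun e => E.T_nS hq7 (e ▸ C.p1_mem), fun e => hxu (e ▸ C.u1),
          fun e => E.T_nS hq7 (e ▸ C.p2_mem), fun e => hxu (e ▸ C.u1'),
          fun e => hxu (e ▸ E.uT hq7)⟩
      obtain ⟨z5, ⟨n1, n2, n3, n4⟩, hz5, huniq⟩ := st1 _ _ _ _ hdx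
      have r1 : C.u • x = z5 := by
        rcases huniq _ hA1 with e | e | e | e | e
        · exfalso
          apply hxu
          have := congrArg (fun z => C.u • z) e
          simp only [C.uu, C.u1] at this
          rw [this]
          exact C.u1
        · exfalso
          apply hxu
          have := congrArg (fun z => C.u • z) e
          simp only [C.uu, C.u1'] at this
          rw [this]
          exact C.u1'
        · exfalso
          apply hxu
          have := congrArg (fun z => C.u • z) e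
          simp only [C.uu, E.uT hq7] at this
          rw [this]
          exact E.uT hq7
        · exact absurd e hxu
        · exact e
      have r2 : k • C.u • k⁻¹ • x = z5 := by
        rcases huniq _ hA2 with e | e | e | e | e
        · exfalso
          apply hx'u
          have e2 := congrArg (fun z => k⁻¹ • z) e
          simp only [inv_smul_smul, ki1] at e2
          have := congrArg (fun z => C.u • z) e2
          simp only [C.uu, C.u1] at this
          rw [this]
          exact C.u1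
        · exfalso
          apply hx'u
          have e2 := congrArg (fun z => k⁻¹ • z) e
          simp only [inv_smul_smul, ki2] at e2
          have := congrArg (fun z => C.u • z) e2
          simp only [C.uu, C.u1'] at this
          rw [this]
          exact C.u1'
        · exfalso
          apply hx'u
          have e2 := congrArg (fun z => k⁻¹ • z) e
          simp only [inv_smul_smul, ki7] at e2
          have := congrArg (fun z => C.u • z) e2
          simp only [C.uu, E.uT hq7] at this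
          rw [this]
          exact E.uT hq7
        · exfalso
          apply hx'u
          have e2 := congrArg (fun z => k⁻¹ • z) e
          simp only [inv_smul_smul] at e2
          exact e2
        · exact e
      exact r2.trans r1.symm
  -- step 5
  have st5 : ∀ k ∈ C.H, C.a * k = k * C.a := by
    intro k hk
    have hu := st4 k hk
    have hv : C.v * k = k * C.v := by
      have e := st4 _ (norm_FS C.b2 C.b_S4 k hk)
      have hvb : C.v = C.b * C.u * C.b := C.bub.symm
      calc C.v * k = C.b * (C.u * (C.b * k * C.b)) * C.b := by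
            rw [hvb]
            simp only [mul_assoc, C.b2, mul_one]
        _ = C.b * ((C.b * k * C.b) * C.u) * C.b := by rw [e]
        _ = k * C.v := by
            rw [hvb]
            simp only [mul_assoc, C.b2r]
    rw [← C.uv, mul_assoc, hv, ← mul_assoc, hu, mul_assoc]
  have hCn : Cn C.Y C.a = Cn C.H C.a := by
    have hle : Cn C.Y C.a ≤ Cn C.H C.a := by
      intro g hg
      rw [mem_Cn] at hg ⊢
      exact ⟨C.Y_le_H hg.1, hg.2⟩
    exact Subgroup.eq_of_le_of_card_ge hle (le_of_eq hcc)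
  have hq5 : ∀ k ∈ C.H, k • E.q5 = E.q5 := by
    intro k hk
    have : k ∈ Cn C.Y C.a := by
      rw [hCn]
      exact mem_Cn.mpr ⟨hk, st5 k hk⟩
    exact (E.mem_Y.mp (mem_Cn.mp this).1).2.1
  rcases hF _ hq5 with e | e
  · exact E.q5_nS e
  · exact E.q5_nT e

theorem caseB3 [Finite G] [Finite Ω] [FaithfulSMul G Ω] (h : Hyp G Ω) (hn : 6 ≤ Nat.card Ω)
    {q7 : Ω} (hq7 : q7 ∈ E.T) (hf : C.f = 3) (hb : C.b • E.q5 = E.q6) :
    Nat.card Ω = 11 ∧ C.c = C.c0 := by
  obtain ⟨m, hm, k1, k2⟩ := C.nums3 h hn hf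
  have hcW := C.cW_c h
  have cVpos : 0 < C.cV := Nat.card_pos
  have c0pos : 0 < C.c0 := Nat.card_pos
  have dpos : 0 < C.d := Nat.card_pos
  have hb6 := E.b6_of_b5' hb
  have hV : C.cV0 = C.cV := by
    have : Cn (Cn C.Y C.b) C.a = Cn (Cn C.H C.b) C.a := by
      ext g
      rw [mem_Cn, mem_Cn, mem_Cn, mem_Cn]
      constructor
      · rintro ⟨⟨a1, a2⟩, a3⟩
        exact ⟨⟨C.Y_le_H a1, a2⟩, a3⟩
      · rintro ⟨⟨a1, a2⟩, a3⟩
        refine ⟨⟨E.mem_Y_of h a1 ?_ a3, a2⟩, a3⟩
        intro y hy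
        have h1 : C.a • g • y = g • y := by rw [← mul_smul, a3, mul_smul, E.aT hy]
        have h2 : C.b • g • y = g • y := by rw [← mul_smul, a2, mul_smul, E.bT hy]
        rcases E.mem_fa.mp h1 with e | e | e
        · exfalso
          rw [e, hb] at h2
          exact E.h56 h2.symm
        · exfalso
          rw [e, hb6] at h2
          exact E.h56 h2
        · exact E.hT _ e _ hy
    show Nat.card (Cn (Cn C.Y C.b) C.a) = Nat.card (Cn (Cn C.H C.b) C.a)
    rw [this]
  have w3 := E.wiel_H7_uv h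
  have w4 := E.wiel_H7_ab3 h hq7 hf
  rw [hV] at w4
  have wab := C.wiel_ab h
  have e5 : C.d * C.d * C.c0 * (C.c * C.c) = C.d * C.d * C.c0 * (C.c0 * C.c0) := by
    calc C.d * C.d * C.c0 * (C.c * C.c)
        = (Nat.card E.H7 * C.cW ^ 2) * (C.c * C.c) := by rw [w3]
      _ = Nat.card E.H7 * (C.cW * C.c) ^ 2 := by ring
      _ = Nat.card E.H7 * (C.d * C.cV) ^ 2 := by rw [hcW]
      _ = C.d * C.d * (Nat.card E.H7 * C.cV ^ 2) := by ring
      _ = C.d * C.d * (C.c0 * C.c0 * C.c0) := by rw [w4]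
      _ = C.d * C.d * C.c0 * (C.c0 * C.c0) := by ring
  have hcc : C.c = C.c0 :=
    Nat.mul_self_inj.mp (Nat.eq_of_mul_eq_mul_left (Nat.mul_pos (Nat.mul_pos dpos dpos) c0pos)
      e5)
  refine ⟨?_, hcc⟩
  have hH7 : Nat.card E.H7 = Nat.card C.H := by
    have : Nat.card E.H7 * C.cV ^ 2 = Nat.card C.H * C.cV ^ 2 := by rw [w4, wab, hcc]
    exact Nat.eq_of_mul_eq_mul_right (pow_pos cVpos 2) this
  have hfixT : ∀ g ∈ C.H, ∀ y ∈ E.T, g • y = y := by
    have hle : E.H7 ≤ C.H := fun g hg => (E.mem_H7.mp hg).1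
    have := Subgroup.eq_of_le_of_card_ge hle (le_of_eq hH7.symm)
    intro g hg
    rw [← this] at hg
    exact (E.mem_H7.mp hg).2
  by_cases hF : ∃ x, (∀ g ∈ C.H, g • x = x) ∧ x ∉ C.S4 ∧ x ∉ E.T
  · obtain ⟨x, hx, hxS, hxT⟩ := hF
    have hHY := E.B1 h hfixT hx hxS hxT
    have w1 := E.wiel_Y_uv h
    rw [← hHY, ← hcc, ← wab] at w1
    have hpos : 0 < Nat.card C.H := Nat.card_pos
    have hWV : C.cW = C.cV :=
      Nat.pow_left_injective (by norm_num : (2 : ℕ) ≠ 0) (Nat.eq_of_mul_eq_mul_left hpos w1)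
    rw [hWV] at k2
    have : m = 6 := (Nat.eq_of_mul_eq_mul_right cVpos k2).symm
    omega
  · exfalso
    push Not at hF
    refine E.B2 h hq7 hfixT hcc ?_
    intro x hx
    by_contra hcon
    push Not at hcon
    exact hcon.2 (hF x hx hcon.1)

end Ext

/-- the main case distinction -/
theorem main_cases [Finite G] [Finite Ω] [FaithfulSMul G Ω] (h : Hyp G Ω)
    (hn : 6 ≤ Nat.card Ω) :
    Nat.card Ω = 6 ∨ (Nat.card Ω = 7 ∧ 3 ∣ Nat.card C.H) ∨
      (Nat.card Ω = 11 ∧ Nat.card C.H = 1) := by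
  obtain ⟨E, hE⟩ := C.exists_ext h hn
  have hf3 := C.f_le3 h
  have hfc : C.f = 2 ∨ C.f = 3 := by omega
  rcases hfc with hf | hf
  · left
    have hT : E.T = ∅ := by
      rw [← Set.ncard_eq_zero]
      omega
    exact E.n6_of_f2 h hn hT hf
  · right
    have hT1 : E.T.ncard = 1 := by omega
    obtain ⟨q7, hq7⟩ := Set.ncard_eq_one.mp hT1
    have hq7' : q7 ∈ E.T := by
      rw [hq7]
      exact Set.mem_singleton q7
    rcases E.b5_cases with hb | hb
    · rcases E.caseA3 h hn hq7' hf hb with h7 | ⟨h11, hcc⟩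
      · exact Or.inl h7
      · exact Or.inr ⟨h11, C.f3_11 h hf h11 hcc⟩
    · obtain ⟨h11, hcc⟩ := E.caseB3 h hn hq7' hf hb
      exact Or.inr ⟨h11, C.f3_11 h hf h11 hcc⟩

end Cfg

end Cfsg.Agent.Lib.Helper99.Hall4
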