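import Cfsg.Agent.Lib.Helper99.HallF

set_option autoImplicit false
set_option linter.unusedSectionVars false
set_option linter.unusedSimpArgs false
set_option linter.unusedVariables false

open MulAction
open scoped Pointwise

namespace Cfsg.Agent.Lib.Helper99.Hall4

universe u v

theorem conj_fix_aux {G : Type v} {Ω : Type u} [Group G] [MulAction G Ω] {k g : G} {p y : Ω}
    (hk : k • p = y) (hg : g • p = p) : (k * g * k⁻¹) • y = y := by
  rw [← hk, mul_smul, mul_smul, inv_smul_smul, hg]

theorem emb4_inj {α : Type u} {p1 p2 p3 p4 : α} (hd : Dist4 p1 p2 p3 p4) :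
    Function.Injective ![p1, p2, p3, p4] := by
  obtain ⟨h12, h13, h14, h23, h24, h34⟩ := hd
  intro i j hij
  fin_cases i <;> fin_cases j <;> simp at hij <;>
    first | rfl | exact absurd hij (by assumption) | exact absurd hij.symm (by assumption)

theorem num45 {n s g : ℕ} (hn : n = 4 ∨ n = 5) (hcard : g = n.descFactorial 4 * s)
    (hdvd : g ∣ n.factorial) (spos : 0 < s) : g = n.factorial := by
  rcases hn with rfl | rfl
  · have d : (4 : ℕ).descFactorial 4 = 24 := by decide
    have f : (4 : ℕ).factorial = 24 := by decide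
    rw [d] at hcard
    rw [f] at hdvd ⊢
    have := Nat.le_of_dvd (by norm_num) hdvd
    omega
  · have d : (5 : ℕ).descFactorial 4 = 120 := by decide
    have f : (5 : ℕ).factorial = 120 := by decide
    rw [d] at hcard
    rw [f] at hdvd ⊢
    have := Nat.le_of_dvd (by norm_num) hdvd
    omega

theorem num6 {s g : ℕ} (hcard : g = (6 : ℕ).descFactorial 4 * s)
    (hdvd : g ∣ (6 : ℕ).factorial) (spos : 0 < s) (hodd : Odd s) : g = 360 := by
  have d : (6 : ℕ).descFactorial 4 = 360 := by decide
  have f : (6 : ℕ).factorial = 720 := by decide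
  rw [d] at hcard
  rw [f] at hdvd
  have := Nat.le_of_dvd (by norm_num) hdvd
  rw [Nat.odd_iff] at hodd
  omega

theorem num7 {s g : ℕ} (hcard : g = (7 : ℕ).descFactorial 4 * s)
    (hdvd : g ∣ (7 : ℕ).factorial) (spos : 0 < s) (hodd : Odd s) (h3 : 3 ∣ s) : g = 2520 := by
  have d : (7 : ℕ).descFactorial 4 = 840 := by decide
  have f : (7 : ℕ).factorial = 5040 := by decide
  rw [d] at hcard
  rw [f] at hdvd
  have := Nat.le_of_dvd (by norm_num) hdvd
  rw [Nat.odd_iff] at hodd
  omega

theorem hyp_of {α : Type u} [Fintype α] [DecidableEq α] (G : Subgroup (Equiv.Perm α))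
    (hG : IsMultiplyPretransitive G α 4) (x : Fin 4 ↪ α)
    (hodd : Odd (Nat.card (stabilizer G x))) : Hyp G α := by
  have hpre : IsPretransitive G (Fin 4 ↪ α) := hG
  constructor
  · intro p1 p2 p3 p4 q1 q2 q3 q4 hp hq
    obtain ⟨g, hg⟩ := exists_smul_eq G (⟨![p1, p2, p3, p4], emb4_inj hp⟩ : Fin 4 ↪ α)
      ⟨![q1, q2, q3, q4], emb4_inj hq⟩
    have key : ∀ i : Fin 4, g • ![p1, p2, p3, p4] i = ![q1, q2, q3, q4] i := by
      intro i
      exact DFunLike.congr_fun hg i
    exact ⟨g, key 0, key 1, key 2, key 3⟩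
  · intro g p1 p2 p3 p4 hp h1 h2 h3 h4
    obtain ⟨k, hk⟩ := exists_smul_eq G (⟨![p1, p2, p3, p4], emb4_inj hp⟩ : Fin 4 ↪ α) x
    have hfix : g • (⟨![p1, p2, p3, p4], emb4_inj hp⟩ : Fin 4 ↪ α) =
        ⟨![p1, p2, p3, p4], emb4_inj hp⟩ := by
      ext i
      show g • ![p1, p2, p3, p4] i = ![p1, p2, p3, p4] i
      fin_cases i
      · exact h1
      · exact h2
      · exact h3
      · exact h4
    have hmem : k * g * k⁻¹ ∈ stabilizer G x := conj_fix_aux hk hfix
    have h5 : orderOf (k * g * k⁻¹) = orderOf g := MulEquiv.orderOf_eq (MulAut.conj k) g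
    rw [← h5]
    have h6 : orderOf (k * g * k⁻¹) ∣ Nat.card (stabilizer G x) := by
      have := orderOf_dvd_natCard (⟨k * g * k⁻¹, hmem⟩ : stabilizer G x)
      rwa [← Subgroup.orderOf_coe] at this
    exact Odd.of_dvd_nat hodd h6

/-- M. Hall's theorem on 4-transitive groups with odd four-point stabilizers -/
theorem hall_main {α : Type u} [Fintype α] [DecidableEq α] (G : Subgroup (Equiv.Perm α))
    (hG : IsMultiplyPretransitive G α 4) (x : Fin 4 ↪ α)
    (hodd : Odd (Nat.card (stabilizer G x))) :
    ((Fintype.card α = 4 ∨ Fintype.card α = 5) ∧ G = ⊤) ∨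
      ((Fintype.card α = 6 ∨ Fintype.card α = 7) ∧ G = alternatingGroup α) ∨
      (Fintype.card α = 11 ∧ Nat.card G = 7920) := by
  have hpre : IsPretransitive G (Fin 4 ↪ α) := hG
  have hyp := hyp_of G hG x hodd
  have hcard : Nat.card G = (Fintype.card α).descFactorial 4 * Nat.card (stabilizer G x) := by
    have e := card_eq_orbit_mul (⊤ : Subgroup G) x Set.univ (fun g _ => Set.mem_univ _)
      (fun y _ => by
        obtain ⟨g, hg⟩ := exists_smul_eq G x y
        exact ⟨g, Subgroup.mem_top g, hg⟩)
    rw [Subgroup.card_top, top_inf_eq, Set.ncard_univ,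
      Nat.card_eq_fintype_card (α := Fin 4 ↪ α), Fintype.card_embedding_eq,
      Fintype.card_fin] at e
    exact e
  have hperm : Nat.card (Equiv.Perm α) = (Fintype.card α).factorial := by
    rw [Nat.card_eq_fintype_card, Fintype.card_perm]
  have hdvd : Nat.card G ∣ (Fintype.card α).factorial := by
    have := Subgroup.card_subgroup_dvd_card G
    rw [hperm] at this
    exact this
  have hidx := Subgroup.card_mul_index G
  rw [hperm] at hidx
  have hn4 : 4 ≤ Fintype.card α := by
    have := Fintype.card_le_of_embedding x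
    rw [Fintype.card_fin] at this
    exact this
  have hd4 : Dist4 (x 0) (x 1) (x 2) (x 3) := by
    refine ⟨?_, ?_, ?_, ?_, ?_, ?_⟩ <;> exact x.injective.ne (by decide)
  have hstab : stabilizer G x = fixingSubgroup G ({x 0, x 1, x 2, x 3} : Set α) := by
    ext g
    rw [mem_stabilizer_iff, mem_FS4]
    constructor
    · intro e
      have key : ∀ i : Fin 4, g • x i = x i := by
        intro i
        exact DFunLike.congr_fun e i
      exact ⟨key 0, key 1, key 2, key 3⟩
    · rintro ⟨h0, h1, h2, h3⟩
      ext i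
      show g • x i = x i
      fin_cases i
      · exact h0
      · exact h1
      · exact h2
      · exact h3
  have spos : 0 < Nat.card (stabilizer G x) := Nat.card_pos
  by_cases hn6 : Fintype.card α < 6
  · left
    have hn : Fintype.card α = 4 ∨ Fintype.card α = 5 := by omega
    refine ⟨hn, ?_⟩
    apply Subgroup.eq_top_of_card_eq
    rw [hperm]
    exact num45 hn hcard hdvd spos
  · right
    have hn6' : 6 ≤ Nat.card α := by
      rw [Nat.card_eq_fintype_card]
      omega
    obtain ⟨C, c1, c2, c3, c4⟩ := exists_cfg hyp hd4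
    have hH : C.H = stabilizer G x := by
      rw [hstab, Cfg.H, Cfg.S4, c1, c2, c3, c4]
    rcases C.main_cases hyp hn6' with h6 | ⟨h7, h3⟩ | ⟨h11, h1⟩
    · rw [Nat.card_eq_fintype_card] at h6
      left
      refine ⟨Or.inl h6, ?_⟩
      rw [h6] at hcard hdvd hidx
      have hg := num6 hcard hdvd spos hodd
      apply Equiv.Perm.eq_alternatingGroup_of_index_eq_two
      rw [hg] at hidx
      have f : (6 : ℕ).factorial = 720 := by decide
      rw [f] at hidx
      omega
    · rw [Nat.card_eq_fintype_card] at h7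
      left
      refine ⟨Or.inr h7, ?_⟩
      rw [h7] at hcard hdvd hidx
      rw [hH] at h3
      have hg := num7 hcard hdvd spos hodd h3
      apply Equiv.Perm.eq_alternatingGroup_of_index_eq_two
      rw [hg] at hidx
      have f : (7 : ℕ).factorial = 5040 := by decide
      rw [f] at hidx
      omega
    · rw [Nat.card_eq_fintype_card] at h11
      right
      refine ⟨h11, ?_⟩
      rw [hH] at h1
      rw [h11, h1] at hcard
      rw [hcard]
      decide

end Cfsg.Agent.Lib.Helper99.Hall4
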