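import Mathlib
import Cfsg.Agent.Lib.Helper44.MCentStmt
import Cfsg.Agent.Lib.Helper44.OMat2

set_option autoImplicit false
set_option linter.unusedSectionVars false

/-! Piece [OR] of S2716: in odd characteristic every isometry of the minus form is an element of
`Ω` times an isometry whose matrix is fixed by the odd-order field automorphism `σ`. -/

namespace Cfsg.Agent.Lib.Helper99.MCentOR

open Matrix Module QuadraticMap
open Cfsg.Agent.Lib.Helper44.QSpace Cfsg.Agent.Lib.Helper44.OGroup Cfsg.Agent.Lib.Helper44.Spinor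
open Cfsg.Agent.Lib.Helper44.CartanD Cfsg.Agent.Lib.Helper44.OMat Cfsg.Agent.Lib.Helper44.CD2a
open Cfsg.Agent.Lib.Helper44.Omega2 Cfsg.Agent.Lib.Helper44.OMat2
open Cfsg.Agent.Lib.Helper44.NegPairs Cfsg.Agent.Lib.Helper44.MFldStmt

universe u

section abstract

variable {F : Type*} [Field F] {V : Type*} [AddCommGroup V] [Module F V]

/-- A product of reflections is a commutator times a product of reflections in "rational"
vectors, as soon as every non-singular value is a square multiple of a rational value. -/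
theorem decomp (h2 : (2 : F) ≠ 0) (Q : QuadraticForm F V) (R : V → Prop)
    (hR : ∀ v, Q v ≠ 0 → ∃ (v₀ : V) (c : F), R v₀ ∧ Q v = c ^ 2 * Q v₀)
    (vs : List V) (hvs : ∀ v ∈ vs, Q v ≠ 0) :
    ∃ (κ : ↥(O Q)) (ws : List V), κ ∈ commutator ↥(O Q) ∧ (∀ w ∈ ws, R w) ∧
      (vs.map (refl Q)).prod = κ * (ws.map (refl Q)).prod := by
  induction vs with
  | nil => exact ⟨1, [], Subgroup.one_mem _, by simp, by simp⟩
  | cons v vs ih =>
    obtain ⟨κ', ws', hκ', hws', hprod⟩ := ih (fun w hw => hvs w (List.mem_cons_of_mem _ hw))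
    have hv : Q v ≠ 0 := hvs v List.mem_cons_self
    obtain ⟨v₀, c, hRv₀, hQ⟩ := hR v hv
    have hv₀ : Q v₀ ≠ 0 := by
      intro h0
      rw [h0, mul_zero] at hQ
      exact hv hQ
    have hcomm : refl Q v * refl Q v₀ ∈ commutator ↥(O Q) := by
      apply refl_mul_refl_mem_commutator h2 hv hv₀
      refine ⟨c * Q v₀, ?_⟩
      rw [hQ]
      ring
    have hr : refl Q v₀ * refl Q v₀ = 1 := refl_mul_self Q v₀
    have hnorm : refl Q v₀ * κ' * (refl Q v₀)⁻¹ ∈ commutator ↥(O Q) := by
      have hN : (commutator ↥(O Q)).Normal := inferInstance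
      exact hN.conj_mem κ' hκ' (refl Q v₀)
    refine ⟨refl Q v * refl Q v₀ * (refl Q v₀ * κ' * (refl Q v₀)⁻¹), v₀ :: ws',
      Subgroup.mul_mem _ hcomm hnorm, ?_, ?_⟩
    · intro w hw
      rcases List.mem_cons.mp hw with rfl | hw
      · exact hRv₀
      · exact hws' w hw
    · rw [List.map_cons, List.prod_cons, List.map_cons, List.prod_cons, hprod]
      have e : refl Q v * refl Q v₀ * (refl Q v₀ * κ' * (refl Q v₀)⁻¹) *
          (refl Q v₀ * (ws'.map (refl Q)).prod)
          = refl Q v * (refl Q v₀ * refl Q v₀) * κ' * (ws'.map (refl Q)).prod := by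
        group
      rw [e, hr]
      group

end abstract

section matrices

variable {F : Type*} [Field F] {ι : Type} [Fintype ι] [DecidableEq ι]

theorem map_list_prod_fixed (σ : F ≃+* F) (L : List (Matrix ι ι F))
    (hL : ∀ M ∈ L, M.map σ = M) : (L.prod).map σ = L.prod := by
  induction L with
  | nil =>
    rw [List.prod_nil]
    exact Matrix.map_one (σ : F →+* F) (map_zero _) (map_one _)
  | cons A L ih =>
    rw [List.prod_cons]
    have h1 : (A * L.prod).map σ = A.map σ * (L.prod).map σ :=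
      Matrix.map_mul (f := (σ : F →+* F))
    rw [h1, hL A List.mem_cons_self, ih (fun M hM => hL M (List.mem_cons_of_mem _ hM))]

theorem reflectionMatrix_map_fixed (Q : (ι → F) → F) (σ : F ≃+* F)
    (hQ : ∀ v : ι → F, Q (fun k => σ (v k)) = σ (Q v)) (w : ι → F) (hw : ∀ k, σ (w k) = w k) :
    (Cfsg.reflectionMatrix Q w).map σ = Cfsg.reflectionMatrix Q w := by
  have hw' : (fun k => σ (w k)) = w := funext hw
  have hQw : σ (Q w) = Q w := by rw [← hQ w, hw']
  have hpol : ∀ k, σ (Cfsg.polarVec Q w k) = Cfsg.polarVec Q w k := by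
    intro k
    unfold Cfsg.polarVec QuadraticMap.polar
    have e1 : (fun j => σ ((w + Pi.single k (1 : F) : ι → F) j)) = w + Pi.single k 1 := by
      funext j
      by_cases hjk : j = k
      · subst hjk; simp [hw]
      · simp [hw, hjk]
    have e2 : (fun j => σ ((Pi.single k (1 : F) : ι → F) j)) = Pi.single k 1 := by
      funext j
      by_cases hjk : j = k
      · subst hjk; simp
      · simp [hjk]
    rw [map_sub, map_sub, ← hQ (w + Pi.single k 1), ← hQ (Pi.single k 1), e1, e2, hQw]
  ext i k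
  unfold Cfsg.reflectionMatrix
  simp only [Matrix.map_apply, Matrix.sub_apply, Matrix.smul_apply, Matrix.vecMulVec_apply,
    smul_eq_mul, map_sub, map_mul, map_inv₀, hQw, hw, hpol]
  congr 1
  by_cases hik : i = k
  · subst hik; simp
  · simp [hik]

end matrices

theorem invS_minus {F : Type u} [Field F] (m : ℕ) (a b : F) (σ : F ≃+* F) (ha : σ a = a)
    (hb : σ b = b) (v : MI m → F) :
    Cfsg.quadFormMinus m F a b (fun k => σ (v k)) = σ (Cfsg.quadFormMinus m F a b v) := by
  unfold Cfsg.quadFormMinus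
  simp only [map_add, map_sum, map_mul, map_pow, ha, hb]

theorem aux (hSQ : Cfsg.Agent.Lib.Helper44.MCentStmt.SqClass.{u})
    (F : Type u) [Field F] [Fintype F] (m : ℕ) (hm : 3 ≤ m) (a b : F) (hab : Aniso a b)
    (h2 : (2 : F) ≠ 0) (σ : RingAut F) (hσa : σ a = a) (hσb : σ b = b) (hodd : Odd (orderOf σ))
    (s : ↥(Cfsg.isometryGroup F ⇑(minusQ m F a b))) :
    ∃ (ω : ↥(Cfsg.Omega F ⇑(minusQ m F a b)))
      (t : ↥(Cfsg.isometryGroup F ⇑(minusQ m F a b))),
      ((t : GL (MI m) F) : Matrix (MI m) (MI m) F).map σ =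
        ((t : GL (MI m) F) : Matrix (MI m) (MI m) F) ∧
      s = (ω : ↥(Cfsg.isometryGroup F ⇑(minusQ m F a b))) * t := by
  have hS : Sep (minusQ m F a b) := sep_minusQ h2 m a b hab
  have hCD : CDP (minusQ m F a b) := cdp_of_two_ne_zero h2 hS
  have hInv : ∀ v : MI m → F, (minusQ m F a b) (fun k => σ (v k)) = σ ((minusQ m F a b) v) :=
    invS_minus m a b σ hσa hσb
  obtain ⟨vs, hvs, hs⟩ := exists_prod_of_cdp hCD s
  -- rational representatives of square classes
  have hR : ∀ v : MI m → F, (minusQ m F a b) v ≠ 0 → ∃ (v₀ : MI m → F) (c : F),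
      (∀ k, σ (v₀ k) = v₀ k) ∧ (minusQ m F a b) v = c ^ 2 * (minusQ m F a b) v₀ := by
    intro v hv
    obtain ⟨e, c, he, hc, hσe, hy⟩ := hSQ F h2 σ hodd _ hv
    let i0 : Fin m := ⟨0, by omega⟩
    refine ⟨e • Pi.single (Sum.inl (Sum.inl i0)) 1 + Pi.single (Sum.inl (Sum.inr i0)) 1, c, ?_, ?_⟩
    · intro k
      rcases k with (k | k) | k
      · by_cases hk : k = i0
        · subst hk; simp [hσe]
        · simp [hk]
      · by_cases hk : k = i0
        · subst hk; simp
        · simp [hk]
      · simp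
    · have hval : (minusQ m F a b)
          (e • Pi.single (Sum.inl (Sum.inl i0)) 1 + Pi.single (Sum.inl (Sum.inr i0)) 1) = e := by
        show Cfsg.quadFormMinus m F a b _ = e
        unfold Cfsg.quadFormMinus
        simp [Pi.single_apply]
      rw [hval, hy]
      ring
  obtain ⟨κ, ws, hκ, hws, hprod⟩ :=
    decomp h2 (minusQ m F a b) (fun v => ∀ k, σ (v k) = v k) hR vs hvs
  have hω : (isoEquiv (minusQ m F a b)).symm κ ∈ Cfsg.Omega F ⇑(minusQ m F a b) :=
    (mem_omega_iff (minusQ m F a b) _).2 (by rw [MulEquiv.apply_symm_apply]; exact hκ)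
  refine ⟨⟨(isoEquiv (minusQ m F a b)).symm κ, hω⟩,
    (isoEquiv (minusQ m F a b)).symm ((ws.map (refl (minusQ m F a b))).prod), ?_, ?_⟩
  · have hmat : ((((isoEquiv (minusQ m F a b)).symm ((ws.map (refl (minusQ m F a b))).prod)
        : ↥(Cfsg.isometryGroup F ⇑(minusQ m F a b))) : GL (MI m) F) : Matrix (MI m) (MI m) F)
        = (ws.map (fun v => Cfsg.reflectionMatrix (⇑(minusQ m F a b)) v)).prod := by
      apply matrix_ext_mulVec
      intro x
      rw [symm_prod_matrix_mulVec, prod_reflection_mulVec]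
    rw [hmat]
    apply map_list_prod_fixed
    intro M hM
    obtain ⟨w, hw, rfl⟩ := List.mem_map.mp hM
    exact reflectionMatrix_map_fixed _ σ hInv w (hws w hw)
  · apply (isoEquiv (minusQ m F a b)).injective
    show isoEquiv (minusQ m F a b) s
      = isoEquiv (minusQ m F a b) ((isoEquiv (minusQ m F a b)).symm κ
        * (isoEquiv (minusQ m F a b)).symm ((ws.map (refl (minusQ m F a b))).prod))
    rw [map_mul, MulEquiv.apply_symm_apply, MulEquiv.apply_symm_apply, hs, hprod]

theorem main (hSQ : Cfsg.Agent.Lib.Helper44.MCentStmt.SqClass.{u}) :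
    Cfsg.Agent.Lib.Helper44.MCentStmt.OrthRat.{u} := by
  intro F _ _ m hm a b hab h2 σ hσa hσb hodd s
  exact aux hSQ F m hm a b hab h2 σ hσa hσb hodd s

end Cfsg.Agent.Lib.Helper99.MCentOR
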