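import Cfsg.Agent.Lib.Helper99.MargF

set_option autoImplicit false
set_option linter.unusedSectionVars false

open MulAction
open scoped Pointwise

namespace Cfsg.Agent.Lib.Helper99.Mill

universe u v

variable {K : Type v} {Ω : Type u} [Group K] [MulAction K Ω]

theorem pow_smul_fixed {g : K} {x : Ω} (h : g • x = x) (n : ℕ) : g ^ n • x = x := by
  induction n with
  | zero => simp
  | succ n ih => rw [pow_succ, mul_smul, h, ih]

/-- an element commuting with `c` along the `c`-orbit of `x` and acting on `x` as a power of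
`c` has its `p`-th power fixing `x` when `c ^ p` fixes `x` -/
theorem pow_smul_of_comm {c w : K} {x : Ω} {p j : ℕ}
    (hcomm : ∀ i : ℕ, w • (c ^ i • x) = c ^ i • (w • x)) (hp : c ^ p • x = x)
    (hj : w • x = c ^ j • x) : w ^ p • x = x := by
  have key : ∀ m : ℕ, w ^ m • x = c ^ (j * m) • x := by
    intro m
    induction m with
    | zero => simp
    | succ m ih =>
      rw [pow_succ', mul_smul, ih, hcomm, hj, ← mul_smul, ← pow_add, Nat.mul_succ]
  rw [key, pow_mul']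
  exact pow_smul_fixed hp j

theorem comm_pow_aux {O : Set Ω} {c g : K} {a : ℕ} (hc : ∀ y ∈ O, c • y ∈ O)
    (hn : ∀ y ∈ O, g • c • y = c ^ a • g • y) (m : ℕ) :
    ∀ y ∈ O, g • c ^ m • y = (c ^ a) ^ m • g • y := by
  induction m with
  | zero => intro y _; simp
  | succ m ih =>
    intro y hy
    rw [pow_succ, mul_smul, ih _ (hc y hy), hn y hy, pow_succ, mul_smul]

/-- if `g₁` and `g₂` conjugate `c` to powers of `c` on `O`, their commutator commutes with `c`
on `O` -/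
theorem comm_of_conj {O : Set Ω} {c g₁ g₂ : K} {a b : ℕ} (hc : ∀ y ∈ O, c • y ∈ O)
    (h₁ : ∀ y ∈ O, g₁ • y ∈ O) (h₂ : ∀ y ∈ O, g₂ • y ∈ O)
    (h₁' : ∀ y ∈ O, g₁⁻¹ • y ∈ O) (h₂' : ∀ y ∈ O, g₂⁻¹ • y ∈ O)
    (hn₁ : ∀ y ∈ O, g₁ • c • y = c ^ a • g₁ • y)
    (hn₂ : ∀ y ∈ O, g₂ • c • y = c ^ b • g₂ • y) :
    ∀ y ∈ O, (g₁⁻¹ * g₂⁻¹ * g₁ * g₂) • c • y = c • (g₁⁻¹ * g₂⁻¹ * g₁ * g₂) • y := by
  have hA : ∀ y ∈ O, (g₁ * g₂) • c • y = c ^ (a * b) • (g₁ * g₂) • y := by
    intro y hy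
    rw [mul_smul, hn₂ y hy, comm_pow_aux hc hn₁ b _ (h₂ y hy), ← pow_mul, mul_smul]
  have hB : ∀ y ∈ O, (g₂ * g₁) • c • y = c ^ (a * b) • (g₂ * g₁) • y := by
    intro y hy
    rw [mul_smul, hn₁ y hy, comm_pow_aux hc hn₂ a _ (h₁ y hy), ← pow_mul, mul_smul,
      mul_comm b a]
  intro y hy
  have hw' : g₂ * g₁ * (g₁⁻¹ * g₂⁻¹ * g₁ * g₂) = g₁ * g₂ := by group
  have hwy : (g₁⁻¹ * g₂⁻¹ * g₁ * g₂) • y ∈ O := by
    rw [mul_smul, mul_smul, mul_smul]
    exact h₁' _ (h₂' _ (h₁ _ (h₂ _ hy)))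
  apply smul_left_cancel (g₂ * g₁)
  rw [← mul_smul (g₂ * g₁) _ (c • y), hw', hA y hy, hB _ hwy, ← mul_smul (g₂ * g₁) _ y, hw']

/-- the action of the commutator of a transposition-like and another transposition-like
element on three points -/
theorem comm_three {x y : K} {a b c : Ω} (hxa : x • a = b) (hxb : x • b = a) (hxc : x • c = c)
    (hya : y • a = a) (hyb : y • b = c) (hyc : y • c = b) :
    (x⁻¹ * y⁻¹ * x * y) • a = c ∧ (x⁻¹ * y⁻¹ * x * y) • c = b ∧
      (x⁻¹ * y⁻¹ * x * y) • b = a := by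
  have hxa' : x⁻¹ • b = a := by rw [inv_smul_eq_iff, hxa]
  have hxb' : x⁻¹ • a = b := by rw [inv_smul_eq_iff, hxb]
  have hxc' : x⁻¹ • c = c := by rw [inv_smul_eq_iff, hxc]
  have hya' : y⁻¹ • a = a := by rw [inv_smul_eq_iff, hya]
  have hyb' : y⁻¹ • c = b := by rw [inv_smul_eq_iff, hyb]
  have hyc' : y⁻¹ • b = c := by rw [inv_smul_eq_iff, hyc]
  refine ⟨?_, ?_, ?_⟩
  · rw [mul_smul, mul_smul, mul_smul, hya, hxa, hyc', hxc']
  · rw [mul_smul, mul_smul, mul_smul, hyc, hxb, hya', hxb']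
  · rw [mul_smul, mul_smul, mul_smul, hyb, hxc, hyb', hxa']

theorem comm_fix_of_fix {x y : K} {z : Ω} (hx : x • z = z) (hy : y • z = z) :
    (x⁻¹ * y⁻¹ * x * y) • z = z := by
  have hx' : x⁻¹ • z = z := by rw [inv_smul_eq_iff, hx]
  have hy' : y⁻¹ • z = z := by rw [inv_smul_eq_iff, hy]
  rw [mul_smul, mul_smul, mul_smul, hy, hx, hy', hx']

section pgroup

variable {p : ℕ} [hp : Fact p.Prime]

/-- a nontrivial orbit of a `p`-group inside a set with fewer than `p²` points has `p`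
points -/
theorem orbit_ncard_eq [Finite Ω] {P : Subgroup K} (hP : IsPGroup p P) {x : Ω} {u : K}
    (hu : u ∈ P) (hux : u • x ≠ x) {T : Set Ω} (hT : orbit P x ⊆ T) (hTc : T.ncard < p * p) :
    (orbit P x).ncard = p := by
  obtain ⟨n, hn⟩ := hP.card_orbit x
  rw [Nat.card_coe_set_eq] at hn
  have h1 : (orbit P x).ncard ≤ T.ncard := Set.ncard_le_ncard hT (Set.toFinite T)
  have hn0 : n ≠ 0 := by
    rintro rfl
    rw [pow_zero, Set.ncard_eq_one] at hn
    obtain ⟨a, ha⟩ := hn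
    have h1 : x ∈ orbit P x := mem_orbit_self x
    have h2 : u • x ∈ orbit P x := ⟨⟨u, hu⟩, rfl⟩
    rw [ha] at h1 h2
    exact hux (h2.trans h1.symm)
  have hn2 : n < 2 := by
    by_contra hcon
    push Not at hcon
    have : p ^ 2 ≤ p ^ n := Nat.pow_le_pow_right hp.out.pos hcon
    rw [sq] at this
    omega
  have : n = 1 := by omega
  rw [hn, this, pow_one]

theorem orbit_zpowers_eq [Finite Ω] {P : Subgroup K} (hP : IsPGroup p P) {x : Ω}
    (hx : (orbit P x).ncard = p) {c : K} (hc : c ∈ P) (hcx : c • x ≠ x) :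
    orbit (Subgroup.zpowers c) x = orbit P x := by
  have hZ : Subgroup.zpowers c ≤ P := (Subgroup.zpowers_le).mpr hc
  have hsub : orbit (Subgroup.zpowers c) x ⊆ orbit P x := by
    rintro _ ⟨⟨z, hz⟩, rfl⟩
    exact ⟨⟨z, hZ hz⟩, rfl⟩
  have hZp : IsPGroup p (Subgroup.zpowers c) := hP.to_le hZ
  have hcard : (orbit (Subgroup.zpowers c) x).ncard = p :=
    orbit_ncard_eq hZp (Subgroup.mem_zpowers c) hcx hsub
      (by rw [hx]; nlinarith [hp.out.two_le])
  exact Set.eq_of_subset_of_ncard_le hsub (by rw [hx, hcard]) (Set.toFinite _)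

/-- an element of a `p`-group moving `x` is transitive on the orbit of `x` if it has `p`
points -/
theorem exists_pow_of_mem_orbit [Finite K] [Finite Ω] {P : Subgroup K} (hP : IsPGroup p P)
    {x : Ω} (hx : (orbit P x).ncard = p) {c : K} (hc : c ∈ P) (hcx : c • x ≠ x) :
    ∀ y ∈ orbit P x, ∃ i : ℕ, c ^ i • x = y := by
  intro y hy
  rw [← orbit_zpowers_eq hP hx hc hcx] at hy
  obtain ⟨⟨z, hz⟩, rfl⟩ := hy
  obtain ⟨i, rfl⟩ := (mem_powers_iff_mem_zpowers).mpr hz
  exact ⟨i, rfl⟩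

theorem pow_prime_smul_eq [Finite Ω] {P : Subgroup K} (hP : IsPGroup p P) {x : Ω}
    (hx : (orbit P x).ncard = p) {c : K} (hc : c ∈ P) (hcx : c • x ≠ x) : c ^ p • x = x := by
  have heq := orbit_zpowers_eq hP hx hc hcx
  rw [MulAction.pow_smul_eq_iff_minimalPeriod_dvd]
  classical
  have := Fintype.ofFinite (orbit (Subgroup.zpowers c) x)
  rw [MulAction.minimalPeriod_eq_card, ← Nat.card_eq_fintype_card, Nat.card_coe_set_eq, heq, hx]

/-- the stabilizer of a point in a `p`-group fixes its orbit pointwise if it has `p` points -/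
theorem fix_orbit_of_fix [Finite Ω] {P : Subgroup K} (hP : IsPGroup p P) {x : Ω}
    (hx : (orbit P x).ncard = p) {v : K} (hv : v ∈ P) (hvx : v • x = x) :
    ∀ y ∈ orbit P x, v • y = y := by
  intro y hy
  by_cases hyx : y = x
  · rw [hyx, hvx]
  let S : Subgroup P := stabilizer P x
  have hS : IsPGroup p S := hP.to_subgroup S
  obtain ⟨n, hn⟩ := hS.card_orbit y
  rw [Nat.card_coe_set_eq] at hn
  have hsub : orbit S y ⊆ orbit P x \ {x} := by
    rintro _ ⟨⟨s, hs⟩, rfl⟩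
    refine ⟨?_, ?_⟩
    · have h1 : (s : P) • y ∈ orbit P y := ⟨s, rfl⟩
      rw [orbit_eq_iff.mpr hy] at h1
      exact h1
    · intro h
      rw [Set.mem_singleton_iff] at h
      apply hyx
      have hs' : s • x = x := hs
      have h2 : s • y = s • x := h.trans hs'.symm
      exact smul_left_cancel s h2
  have hlt : (orbit S y).ncard < p := by
    have h1 := Set.ncard_le_ncard hsub (Set.toFinite _)
    have h2 : (orbit P x \ {x}).ncard = p - 1 := by
      rw [Set.ncard_sdiff_singleton_of_mem (mem_orbit_self x), hx]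
    have := hp.out.pos
    omega
  have hn0 : n = 0 := by
    by_contra hcon
    have : p ^ 1 ≤ p ^ n := Nat.pow_le_pow_right hp.out.pos (by omega)
    rw [pow_one] at this
    omega
  rw [hn0, pow_zero] at hn
  obtain ⟨a, ha⟩ := Set.ncard_eq_one.mp hn
  have h1 : y ∈ orbit S y := mem_orbit_self y
  have h2 : v • y ∈ orbit S y := ⟨⟨⟨v, hv⟩, hvx⟩, rfl⟩
  rw [ha] at h1 h2
  exact h2.trans h1.symm

/-- a `p`-group acts on an orbit with `p` points as the powers of any element moving a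
point -/
theorem exists_pow_agree [Finite K] [Finite Ω] {P : Subgroup K} (hP : IsPGroup p P) {x : Ω}
    (hx : (orbit P x).ncard = p) {c : K} (hc : c ∈ P) (hcx : c • x ≠ x) {u : K} (hu : u ∈ P) :
    ∃ a : ℕ, ∀ y ∈ orbit P x, u • y = c ^ a • y := by
  obtain ⟨a, ha⟩ := exists_pow_of_mem_orbit hP hx hc hcx (u • x) ⟨⟨u, hu⟩, rfl⟩
  refine ⟨a, fun y hy => ?_⟩
  have hv : (c ^ a)⁻¹ * u ∈ P := P.mul_mem (P.inv_mem (P.pow_mem hc a)) hu
  have hvx : ((c ^ a)⁻¹ * u) • x = x := by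
    rw [mul_smul, ← ha, inv_smul_smul]
  have := fix_orbit_of_fix hP hx hv hvx y hy
  rw [mul_smul, inv_smul_eq_iff] at this
  exact this

end pgroup

/-- if `g ^ q` fixes pointwise a `g`-invariant set with fewer than `q` points, so does `g` -/
theorem fix_of_pow_fix [Finite Ω] {g : K} {Γ : Set Ω} (hinv : ∀ y ∈ Γ, g • y ∈ Γ) {q : ℕ}
    (hq : q.Prime) (hlt : Γ.ncard < q) (hpow : ∀ y ∈ Γ, g ^ q • y = y) :
    ∀ y ∈ Γ, g • y = y := by
  intro y hy
  have hdvd : Function.minimalPeriod (g • ·) y ∣ q :=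
    MulAction.pow_smul_eq_iff_minimalPeriod_dvd.mp (hpow y hy)
  rcases (Nat.dvd_prime hq).mp hdvd with h1 | h1
  · have := MulAction.pow_smul_eq_iff_minimalPeriod_dvd (a := g) (b := y) (n := 1)
    rw [pow_one] at this
    exact this.mpr (by rw [h1])
  · exfalso
    have hinj := Function.iterate_injOn_Iio_minimalPeriod (f := (g • ·)) (x := y)
    rw [h1] at hinj
    have hmem : ∀ i : ℕ, (g • ·)^[i] y ∈ Γ := by
      intro i
      induction i with
      | zero => simpa using hy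
      | succ i ih => rw [Function.iterate_succ_apply']; exact hinv _ ih
    classical
    have hfin : Γ.Finite := Set.toFinite Γ
    have h2 : ((Finset.range q).image (fun i => (g • ·)^[i] y)).card = q := by
      rw [Finset.card_image_of_injOn, Finset.card_range]
      intro i hi j hj hij
      exact hinj (by simpa using hi) (by simpa using hj) hij
    have h3 : ((Finset.range q).image (fun i => (g • ·)^[i] y)) ⊆ hfin.toFinset := by
      intro z hz
      obtain ⟨i, _, rfl⟩ := Finset.mem_image.mp hz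
      exact hfin.mem_toFinset.mpr (hmem i)
    have h4 := Finset.card_le_card h3
    rw [h2, ← Set.ncard_eq_toFinset_card Γ hfin] at h4
    omega

theorem swap_mem [DecidableEq Ω] {Γ : Set Ω} {u v x : Ω} (hu : u ∈ Γ) (hv : v ∈ Γ)
    (hx : x ∈ Γ) : Equiv.swap u v x ∈ Γ := by
  rw [Equiv.swap_apply_def]
  split_ifs <;> assumption

/-- `r`-fold transitivity realises any permutation on an `r`-set -/
theorem exists_agree [Finite Ω] {r : ℕ} (h : IsMultiplyPretransitive K Ω r) (Γ : Set Ω)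
    (hΓ : Γ.ncard = r) (σ : Equiv.Perm Ω) : ∃ g : K, ∀ x ∈ Γ, g • x = σ x := by
  obtain ⟨e, he⟩ := Marg.exists_emb_range Γ hΓ
  obtain ⟨g, hg⟩ := h.exists_smul_eq e (e.trans σ.toEmbedding)
  refine ⟨g, fun x hx => ?_⟩
  rw [← he] at hx
  obtain ⟨i, rfl⟩ := hx
  have := DFunLike.congr_fun hg i
  simpa using this

/-- an element fixing the complement of an `r`-set pointwise and moving one of its points
makes the complement a Jordan complement, if the group is `r`-fold transitive -/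
theorem jc_compl_of_moves [Finite Ω] {r : ℕ} (h : IsMultiplyPretransitive K Ω r) (Γ : Set Ω)
    (hΓ : Γ.ncard = r) {g : K} (hg : ∀ y, y ∉ Γ → g • y = y) {a : Ω} (ha : a ∈ Γ)
    (hga : g • a ≠ a) : Marg.JC K Γᶜ := by
  have hb : g • a ∈ Γ := by
    by_contra hn
    have := hg _ hn
    exact hga (smul_left_cancel g this)
  intro a₁ ha₁ b₁ hb₁
  rw [Set.mem_compl_iff, not_not] at ha₁ hb₁
  by_cases hab : a₁ = b₁
  · exact ⟨1, fun y _ => one_smul _ _, by rw [one_smul, hab]⟩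
  classical
  have hσa : (Equiv.swap (Equiv.swap a a₁ (g • a)) b₁ * Equiv.swap a a₁) a = a₁ := by
    rw [Equiv.Perm.mul_apply, Equiv.swap_apply_left, Equiv.swap_apply_of_ne_of_ne _ hab]
    intro h1
    have h2 : Equiv.swap a a₁ a₁ = Equiv.swap a a₁ (Equiv.swap a a₁ (g • a)) := by rw [← h1]
    rw [Equiv.swap_apply_right, Equiv.swap_apply_self] at h2
    exact hga h2.symm
  have hσb : (Equiv.swap (Equiv.swap a a₁ (g • a)) b₁ * Equiv.swap a a₁) (g • a) = b₁ := by
    rw [Equiv.Perm.mul_apply, Equiv.swap_apply_left]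
  have hσΓ : ∀ x, x ∈ Γ →
      (Equiv.swap (Equiv.swap a a₁ (g • a)) b₁ * Equiv.swap a a₁) x ∈ Γ := by
    intro x hx
    rw [Equiv.Perm.mul_apply]
    exact swap_mem (swap_mem ha ha₁ hb) hb₁ (swap_mem ha ha₁ hx)
  obtain ⟨h', hh'⟩ := exists_agree h Γ hΓ
    (Equiv.swap (Equiv.swap a a₁ (g • a)) b₁ * Equiv.swap a a₁)
  refine ⟨h' * g * h'⁻¹, ?_, ?_⟩
  · intro y hy
    have hy' : h'⁻¹ • y ∉ Γ := by
      intro hmem
      have h1 := hh' _ hmem
      rw [smul_inv_smul] at h1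
      apply hy
      rw [h1]
      exact hσΓ _ hmem
    rw [mul_smul, mul_smul, hg _ hy', smul_inv_smul]
  · have e1 : h'⁻¹ • a₁ = a := by rw [inv_smul_eq_iff, hh' a ha, hσa]
    rw [mul_smul, mul_smul, e1, hh' _ hb, hσb]

end Cfsg.Agent.Lib.Helper99.Mill
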