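import Cfsg.Agent.Lib.Helper99.MillA

set_option autoImplicit false
set_option linter.unusedSectionVars false

open MulAction
open scoped Pointwise

namespace Cfsg.Agent.Lib.Helper99.Mill

universe u v

variable {K : Type v} {Ω : Type u} [Group K] [MulAction K Ω]

/-- `y` is moved by some element of `P` -/
def Moved (P : Subgroup K) (y : Ω) : Prop := ∃ u ∈ P, u • y ≠ y

theorem smul_orbit_eq (P : Subgroup K) [hP : P.Normal] (n : K) (y : Ω) :
    n • orbit P y = orbit P (n • y) := by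
  ext z
  constructor
  · rintro ⟨_, ⟨⟨u, hu⟩, rfl⟩, rfl⟩
    refine ⟨⟨n * u * n⁻¹, hP.conj_mem u hu n⟩, ?_⟩
    show (n * u * n⁻¹) • n • y = n • u • y
    rw [mul_smul, mul_smul, inv_smul_smul]
  · rintro ⟨⟨u, hu⟩, rfl⟩
    refine ⟨(n⁻¹ * u * n) • y, ⟨⟨n⁻¹ * u * n, ?_⟩, rfl⟩, ?_⟩
    · have := hP.conj_mem u hu n⁻¹
      rwa [inv_inv] at this
    · show n • (n⁻¹ * u * n) • y = u • n • y
      rw [mul_smul, mul_smul, smul_inv_smul]

theorem moved_smul (P : Subgroup K) [hP : P.Normal] (n : K) {y : Ω} (h : Moved P y) :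
    Moved P (n • y) := by
  obtain ⟨u, hu, huy⟩ := h
  refine ⟨n * u * n⁻¹, hP.conj_mem u hu n, ?_⟩
  rw [mul_smul, mul_smul, inv_smul_smul]
  intro h
  exact huy (smul_left_cancel n h)

theorem moved_iff_smul (P : Subgroup K) [hP : P.Normal] (n : K) {y : Ω} :
    Moved P (n • y) ↔ Moved P y := by
  refine ⟨fun h => ?_, moved_smul P n⟩
  have := moved_smul P n⁻¹ h
  rwa [inv_smul_smul] at this

/-- the set of nontrivial orbits of `P` -/
def NOrb (Ω : Type u) [MulAction K Ω] (P : Subgroup K) : Type u :=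
  {S : Set Ω // ∃ y, Moved P y ∧ S = orbit P y}

instance (P : Subgroup K) [Finite Ω] : Finite (NOrb Ω P) := by
  unfold NOrb
  infer_instance

instance (P : Subgroup K) [P.Normal] : MulAction K (NOrb Ω P) where
  smul n S := ⟨n • S.1, by
    obtain ⟨y, hy, hS⟩ := S.2
    exact ⟨n • y, moved_smul P n hy, by rw [hS, smul_orbit_eq]⟩⟩
  one_smul S := Subtype.ext (one_smul K S.1)
  mul_smul a b S := Subtype.ext (mul_smul a b S.1)

/-- the orbit of a moved point as an element of `NOrb` -/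
def norbOf (P : Subgroup K) (y : Ω) (hy : Moved P y) : NOrb Ω P := ⟨orbit P y, y, hy, rfl⟩

/-- an element acting trivially on the set of nontrivial orbits fixes each of them -/
theorem smul_mem_orbit_of_toPerm_eq_one (P : Subgroup K) [P.Normal] {n : K}
    (hn : MulAction.toPermHom K (NOrb Ω P) n = 1) {y : Ω} (hy : Moved P y) :
    n • y ∈ orbit P y := by
  have h1 : n • norbOf P y hy = norbOf P y hy := by
    have := DFunLike.congr_fun hn (norbOf P y hy)
    simpa using this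
  have h2 : n • orbit P y = orbit P y := congrArg Subtype.val h1
  rw [← h2]
  exact Set.smul_mem_smul_set (mem_orbit_self y)

/-- the number of nontrivial orbits -/
theorem card_norb [Finite Ω] {p : ℕ} (P : Subgroup K) [P.Normal] (m : ℕ) (hp : 0 < p)
    (hcard : {y : Ω | Moved P y}.ncard = m * p)
    (horb : ∀ y : Ω, Moved P y → (orbit P y).ncard = p) : Nat.card (NOrb Ω P) = m := by
  let π : {y : Ω // Moved P y} → NOrb Ω P := fun y => norbOf P y.1 y.2
  have hfib : ∀ s : NOrb Ω P, (π ⁻¹' {s}).ncard = p := by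
    intro s
    obtain ⟨y₀, hy₀, hS⟩ := s.2
    have hs : s = norbOf P y₀ hy₀ := Subtype.ext hS
    rw [hs]
    have e1 : Subtype.val '' (π ⁻¹' {norbOf P y₀ hy₀}) = orbit P y₀ := by
      ext z
      constructor
      · rintro ⟨y, hy, rfl⟩
        have h1 : orbit P y.1 = orbit P y₀ := congrArg Subtype.val hy
        rw [← h1]
        exact mem_orbit_self _
      · intro hz
        have hzm : Moved P z := by
          obtain ⟨⟨u, hu⟩, rfl⟩ := hz
          exact moved_smul P u hy₀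
        refine ⟨⟨z, hzm⟩, ?_, rfl⟩
        show π ⟨z, hzm⟩ = _
        exact Subtype.ext (orbit_eq_iff.mpr hz)
    rw [← Set.ncard_image_of_injective _ Subtype.val_injective, e1, horb y₀ hy₀]
  have h1 := Marg.ncard_preimage_of_fibers π p hfib Set.univ
  rw [Set.preimage_univ, Set.ncard_univ, Set.ncard_univ] at h1
  have h2 : Nat.card {y : Ω // Moved P y} = m * p := by
    rw [← hcard]
    exact Nat.card_coe_set_eq {y : Ω | Moved P y}
  rw [h2] at h1
  exact (Nat.eq_of_mul_eq_mul_left hp (by rw [← h1, mul_comm])).symm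

/-- commutators vanish in the symmetric group on at most two points -/
theorem perm_comm_eq_one {X : Type*} [Finite X] (h : Nat.card X ≤ 2) (a b : Equiv.Perm X) :
    a⁻¹ * b⁻¹ * a * b = 1 := by
  have : IsMulCommutative (Equiv.Perm X) := Equiv.Perm.isMulCommutative_iff_card_le_two.mpr h
  have hab : a * b = b * a := mul_comm' a b
  calc a⁻¹ * b⁻¹ * a * b = a⁻¹ * b⁻¹ * (a * b) := by group
    _ = a⁻¹ * b⁻¹ * (b * a) := by rw [hab]
    _ = 1 := by group

/-- double commutators vanish in the symmetric group on at most three points -/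
theorem perm_dcomm_eq_one {X : Type*} [Finite X] (h : Nat.card X ≤ 3) (a b c d : Equiv.Perm X) :
    (a⁻¹ * b⁻¹ * a * b)⁻¹ * (c⁻¹ * d⁻¹ * c * d)⁻¹ * (a⁻¹ * b⁻¹ * a * b) * (c⁻¹ * d⁻¹ * c * d)
      = 1 := by
  classical
  have := Fintype.ofFinite X
  have hcomm : IsMulCommutative (alternatingGroup X) :=
    alternatingGroup.isMulCommutative_of_card_le_three h
  have hunit : ∀ s t : ℤˣ, s * t * s * t = 1 := by decide
  have hmem : ∀ a b : Equiv.Perm X, a⁻¹ * b⁻¹ * a * b ∈ alternatingGroup X := by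
    intro a b
    rw [Equiv.Perm.mem_alternatingGroup, map_mul, map_mul, map_mul, Equiv.Perm.sign_inv,
      Equiv.Perm.sign_inv]
    exact hunit _ _
  have huv : (a⁻¹ * b⁻¹ * a * b) * (c⁻¹ * d⁻¹ * c * d) =
      (c⁻¹ * d⁻¹ * c * d) * (a⁻¹ * b⁻¹ * a * b) :=
    congrArg Subtype.val (mul_comm' (⟨_, hmem a b⟩ : alternatingGroup X) ⟨_, hmem c d⟩)
  calc (a⁻¹ * b⁻¹ * a * b)⁻¹ * (c⁻¹ * d⁻¹ * c * d)⁻¹ * (a⁻¹ * b⁻¹ * a * b) * (c⁻¹ * d⁻¹ * c * d)
      = (a⁻¹ * b⁻¹ * a * b)⁻¹ * (c⁻¹ * d⁻¹ * c * d)⁻¹ *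
          ((a⁻¹ * b⁻¹ * a * b) * (c⁻¹ * d⁻¹ * c * d)) := by rw [mul_assoc]
    _ = 1 := by rw [huv]; group

end Cfsg.Agent.Lib.Helper99.Mill
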