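import Cfsg.Agent.Lib.Helper99.MillB

set_option autoImplicit false
set_option linter.unusedSectionVars false

open MulAction
open scoped Pointwise

namespace Cfsg.Agent.Lib.Helper99.Mill

universe u v

variable {G : Type v} {Ω : Type u} [Group G] [MulAction G Ω]

/-- Witt's lemma, first form: the normalizer of a Sylow subgroup of the fixer of a `j`-set in
a `j`-transitive group moves an enumeration of the set to any tuple of fixed points -/
theorem witt_aux [Finite G] [Finite Ω] {p : ℕ} [Fact p.Prime] {j : ℕ}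
    (h : IsMultiplyPretransitive G Ω j) (Δ : Set Ω) (P : Sylow p (fixingSubgroup G Δ))
    (e₀ e : Fin j ↪ Ω) (he₀ : Set.range e₀ = Δ)
    (he : ∀ i, ∀ u ∈ (P : Subgroup (fixingSubgroup G Δ)).map (fixingSubgroup G Δ).subtype,
      u • e i = e i) :
    ∃ n ∈ Subgroup.normalizer
      ((P : Subgroup (fixingSubgroup G Δ)).map (fixingSubgroup G Δ).subtype : Set G),
      ∀ i, n • e₀ i = e i := by
  obtain ⟨g, hg⟩ := h.exists_smul_eq e₀ e
  have hge : ∀ i, g • e₀ i = e i := fun i => by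
    have := DFunLike.congr_fun hg i
    simpa using this
  have hQ'H : ((P : Subgroup (fixingSubgroup G Δ)).map (fixingSubgroup G Δ).subtype).map
      (MulAut.conj g⁻¹).toMonoidHom ≤ fixingSubgroup G Δ := by
    rintro _ ⟨u, hu, rfl⟩
    rw [mem_fixingSubgroup_iff]
    intro y hy
    rw [← he₀] at hy
    obtain ⟨i, rfl⟩ := hy
    show (g⁻¹ * u * g⁻¹⁻¹) • e₀ i = e₀ i
    rw [inv_inv, mul_smul, mul_smul, hge, he i u hu, ← hge, inv_smul_smul]
  have hcard : Nat.card ((((P : Subgroup (fixingSubgroup G Δ)).map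
      (fixingSubgroup G Δ).subtype).map (MulAut.conj g⁻¹).toMonoidHom).subgroupOf
        (fixingSubgroup G Δ)) = Nat.card P := by
    rw [Nat.card_congr (Subgroup.subgroupOfEquivOfLe hQ'H).toEquiv]
    rw [← Nat.card_congr (Subgroup.equivMapOfInjective _ (MulAut.conj g⁻¹).toMonoidHom
      (MulAut.conj g⁻¹).injective).toEquiv]
    rw [← Nat.card_congr (Subgroup.equivMapOfInjective _ (fixingSubgroup G Δ).subtype
      (Subgroup.subtype_injective _)).toEquiv]
  have hQ₀card : Nat.card ((((P : Subgroup (fixingSubgroup G Δ)).map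
      (fixingSubgroup G Δ).subtype).map (MulAut.conj g⁻¹).toMonoidHom).subgroupOf
        (fixingSubgroup G Δ)) = p ^ (Nat.card (fixingSubgroup G Δ)).factorization p := by
    rw [hcard, P.card_eq_multiplicity]
  obtain ⟨h', hh'⟩ := MulAction.exists_smul_eq (fixingSubgroup G Δ) (Sylow.ofCard _ hQ₀card) P
  have hcoe : (P : Subgroup (fixingSubgroup G Δ)) = MulAut.conj h' •
      ((((P : Subgroup (fixingSubgroup G Δ)).map
      (fixingSubgroup G Δ).subtype).map (MulAut.conj g⁻¹).toMonoidHom).subgroupOf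
        (fixingSubgroup G Δ)) := by
    have h3 := congrArg
      (fun S : Sylow p (fixingSubgroup G Δ) => (S : Subgroup (fixingSubgroup G Δ))) hh'
    simp only [Sylow.coe_subgroup_smul, Sylow.coe_ofCard] at h3
    exact h3.symm
  refine ⟨g * (h' : G)⁻¹, ?_, ?_⟩
  · apply Subgroup.mem_normalizer_fintype
    rintro _ ⟨x₀, hx₀, rfl⟩
    rw [SetLike.mem_coe, hcoe, Subgroup.mem_pointwise_smul_iff_inv_smul_mem] at hx₀
    have hx₁ : ((h'⁻¹ * x₀ * h' : fixingSubgroup G Δ) : G) ∈
        ((P : Subgroup (fixingSubgroup G Δ)).map (fixingSubgroup G Δ).subtype).map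
          (MulAut.conj g⁻¹).toMonoidHom := hx₀
    obtain ⟨u, hu, hux⟩ := hx₁
    have hux' : g⁻¹ * u * g = (h' : G)⁻¹ * (x₀ : G) * (h' : G) := by
      have : g⁻¹ * u * g⁻¹⁻¹ = ((h'⁻¹ * x₀ * h' : fixingSubgroup G Δ) : G) := hux
      rw [inv_inv] at this
      rw [this]
      rfl
    have : g * (h' : G)⁻¹ * (fixingSubgroup G Δ).subtype x₀ * (g * (h' : G)⁻¹)⁻¹ = u := by
      have e1 : (fixingSubgroup G Δ).subtype x₀ = (x₀ : G) := rfl
      rw [e1]
      calc g * (h' : G)⁻¹ * (x₀ : G) * (g * (h' : G)⁻¹)⁻¹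
          = g * ((h' : G)⁻¹ * (x₀ : G) * (h' : G)) * g⁻¹ := by group
        _ = g * (g⁻¹ * u * g) * g⁻¹ := by rw [hux']
        _ = u := by group
    rw [this]
    exact hu
  · intro i
    have hi : (h' : G) • e₀ i = e₀ i :=
      (mem_fixingSubgroup_iff G).mp h'.2 (e₀ i) (by rw [← he₀]; exact Set.mem_range_self i)
    have hi' : (h' : G)⁻¹ • e₀ i = e₀ i := by rw [inv_smul_eq_iff, hi]
    rw [mul_smul, hi', hge]

/-- Witt's lemma: the normalizer of a Sylow subgroup of the fixer of a `j`-set in a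
`j`-transitive group is `j`-transitive on its fixed points -/
theorem witt [Finite G] [Finite Ω] {p : ℕ} [Fact p.Prime] {j : ℕ}
    (h : IsMultiplyPretransitive G Ω j) (Δ : Set Ω) (hΔ : Δ.ncard = j)
    (P : Sylow p (fixingSubgroup G Δ)) (e e' : Fin j ↪ Ω)
    (he : ∀ i, ∀ u ∈ (P : Subgroup (fixingSubgroup G Δ)).map (fixingSubgroup G Δ).subtype,
      u • e i = e i)
    (he' : ∀ i, ∀ u ∈ (P : Subgroup (fixingSubgroup G Δ)).map (fixingSubgroup G Δ).subtype,
      u • e' i = e' i) :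
    ∃ n ∈ Subgroup.normalizer
      ((P : Subgroup (fixingSubgroup G Δ)).map (fixingSubgroup G Δ).subtype : Set G),
      ∀ i, n • e i = e' i := by
  obtain ⟨e₀, he₀⟩ := Marg.exists_emb_range Δ hΔ
  obtain ⟨n₁, hn₁, h1⟩ := witt_aux h Δ P e₀ e he₀ he
  obtain ⟨n₂, hn₂, h2⟩ := witt_aux h Δ P e₀ e' he₀ he'
  refine ⟨n₂ * n₁⁻¹, mul_mem hn₂ (inv_mem hn₁), fun i => ?_⟩
  rw [mul_smul, ← h1 i, inv_smul_smul, h2 i]

/-- a Sylow `p`-subgroup of the fixer of an `r`-set `Γ` whose complement has `k * p` points,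
in an `r`-transitive group in which `Γ` is a Jordan complement: its fixed points are exactly
`Γ` and its normalizer induces every permutation of `Γ` -/
theorem sylow_setup [Finite G] [Finite Ω] {p : ℕ} [Fact p.Prime] {r k : ℕ}
    (h : IsMultiplyPretransitive G Ω r) (Γ : Set Ω) (hΓ : Γ.ncard = r) (hjc : Marg.JC G Γ)
    (hM : Γᶜ.ncard = k * p) :
    ∃ Pg : Subgroup G, IsPGroup p Pg ∧ (∀ x, x ∈ Γ ↔ ∀ u ∈ Pg, u • x = x) ∧
      (∀ σ : Equiv.Perm Ω, (∀ x ∈ Γ, σ x ∈ Γ) →
        ∃ n ∈ Subgroup.normalizer (Pg : Set G), ∀ x ∈ Γ, n • x = σ x) := by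
  obtain ⟨P⟩ := (inferInstance : Nonempty (Sylow p (fixingSubgroup G Γ)))
  refine ⟨(P : Subgroup (fixingSubgroup G Γ)).map (fixingSubgroup G Γ).subtype,
    P.2.map _, ?_, ?_⟩
  · intro x
    constructor
    · rintro hx _ ⟨u₀, _, rfl⟩
      exact (mem_fixingSubgroup_iff G).mp u₀.2 x hx
    · intro hfix
      by_contra hx
      have hle : (P : Subgroup (fixingSubgroup G Γ)) ≤ stabilizer (fixingSubgroup G Γ) x := by
        intro u hu
        rw [mem_stabilizer_iff]
        exact hfix _ ⟨u, hu, rfl⟩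
      have h1 := Subgroup.index_dvd_of_le hle
      rw [MulAction.index_stabilizer] at h1
      have horb : orbit (fixingSubgroup G Γ) x = Γᶜ := by
        ext y
        constructor
        · rintro ⟨g, rfl⟩ hy
          have hy' : (g : G) • x ∈ Γ := hy
          have h2 : (g : G)⁻¹ • (g : G) • x = (g : G) • x := by
            rw [inv_smul_eq_iff]
            exact ((mem_fixingSubgroup_iff G).mp g.2 _ hy').symm
          rw [inv_smul_smul] at h2
          rw [← h2] at hy'
          exact hx hy'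
        · intro hy
          obtain ⟨g, hg, hgx⟩ := hjc x hx y hy
          exact ⟨⟨g, (mem_fixingSubgroup_iff G).mpr hg⟩, hgx⟩
      rw [horb, hM] at h1
      exact P.not_dvd_index ((dvd_mul_left p k).trans h1)
  · intro σ hσ
    obtain ⟨e₀, he₀⟩ := Marg.exists_emb_range Γ hΓ
    obtain ⟨n, hn, h1⟩ := witt_aux h Γ P e₀ (e₀.trans σ.toEmbedding) he₀ (by
      rintro i _ ⟨u₀, _, rfl⟩
      apply (mem_fixingSubgroup_iff G).mp u₀.2
      apply hσ
      rw [← he₀]
      exact Set.mem_range_self i)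
    refine ⟨n, hn, fun x hx => ?_⟩
    rw [← he₀] at hx
    obtain ⟨i, rfl⟩ := hx
    exact h1 i

/-- the normalizer of a subgroup preserves its set of fixed points -/
theorem normalizer_smul_fix {Pg : Subgroup G} {n : G}
    (hn : n ∈ Subgroup.normalizer (Pg : Set G)) {x : Ω} (hx : ∀ u ∈ Pg, u • x = x) :
    ∀ u ∈ Pg, u • n • x = n • x := by
  intro u hu
  have h1 : n⁻¹ * u * n ∈ Pg := (Subgroup.mem_normalizer_iff''.mp hn u).mp hu
  have h2 := hx _ h1
  rw [mul_smul, mul_smul, inv_smul_eq_iff] at h2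
  exact h2

end Cfsg.Agent.Lib.Helper99.Mill
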