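import Cfsg.Agent.Lib.Helper99.MillC

set_option autoImplicit false
set_option linter.unusedSectionVars false

open MulAction
open scoped Pointwise

namespace Cfsg.Agent.Lib.Helper99.Mill

universe u v

variable {K : Type v} {Ω : Type u} [Group K] [MulAction K Ω]

theorem moved_of_mem_orbit (Pn : Subgroup K) [Pn.Normal] {y z : Ω} (hy : Moved Pn y)
    (hz : z ∈ orbit Pn y) : Moved Pn z := by
  obtain ⟨⟨u, hu⟩, rfl⟩ := hz
  exact moved_smul Pn u hy

/-- the elements fixing each nontrivial orbit of `Pn` -/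
def OF (Ω : Type u) [MulAction K Ω] (Pn : Subgroup K) [Pn.Normal] : Subgroup K where
  carrier := {g | ∀ y : Ω, Moved Pn y → g • y ∈ orbit Pn y}
  one_mem' := fun y _ => by rw [one_smul]; exact mem_orbit_self y
  mul_mem' := by
    intro g g' h1 h1' y hy
    have hy' := h1' y hy
    have hm : Moved Pn (g' • y) := (moved_iff_smul Pn g').mpr hy
    have h2 := h1 _ hm
    rw [orbit_eq_iff.mpr hy'] at h2
    rw [mul_smul]
    exact h2
  inv_mem' := by
    intro g h1 y hy
    have h2 := h1 _ ((moved_iff_smul Pn g⁻¹).mpr hy)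
    rw [smul_inv_smul] at h2
    exact MulAction.mem_orbit_symm.mp h2

theorem mem_OF (Pn : Subgroup K) [Pn.Normal] {g : K} :
    g ∈ OF Ω Pn ↔ ∀ y : Ω, Moved Pn y → g • y ∈ orbit Pn y := Iff.rfl

/-- the elements fixing each nontrivial orbit of `Pn` and commuting with `Pn` on the moved
points -/
def C0 (Ω : Type u) [MulAction K Ω] (Pn : Subgroup K) [Pn.Normal] : Subgroup K where
  carrier := {g | g ∈ OF Ω Pn ∧ ∀ y : Ω, Moved Pn y → ∀ c ∈ Pn, g • c • y = c • g • y}
  one_mem' := ⟨one_mem _, fun y _ c _ => by rw [one_smul, one_smul]⟩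
  mul_mem' := by
    rintro g g' ⟨h1, h2⟩ ⟨h1', h2'⟩
    refine ⟨mul_mem h1 h1', fun y hy c hc => ?_⟩
    have hm : Moved Pn (g' • y) := (moved_iff_smul Pn g').mpr hy
    rw [mul_smul, mul_smul, h2' y hy c hc, h2 _ hm c hc]
  inv_mem' := by
    rintro g ⟨h1, h2⟩
    refine ⟨inv_mem h1, fun y hy c hc => ?_⟩
    have h3 := h2 _ ((moved_iff_smul Pn g⁻¹).mpr hy) c hc
    rw [smul_inv_smul] at h3
    rw [← h3, inv_smul_smul]

theorem mem_C0 (Pn : Subgroup K) [Pn.Normal] {g : K} :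
    g ∈ C0 Ω Pn ↔ g ∈ OF Ω Pn ∧ ∀ y : Ω, Moved Pn y → ∀ c ∈ Pn, g • c • y = c • g • y :=
  Iff.rfl

section lift

variable {p : ℕ} [hp : Fact p.Prime] (Pn : Subgroup K) [hN : Pn.Normal]

/-- commutators of orbit-fixing elements commute with `Pn` on the moved points -/
theorem comm_mem_C0 [Finite K] [Finite Ω] (hP : IsPGroup p Pn)
    (horb : ∀ y : Ω, Moved Pn y → (orbit Pn y).ncard = p)
    {g₁ g₂ : K} (h₁ : g₁ ∈ OF Ω Pn) (h₂ : g₂ ∈ OF Ω Pn) :
    g₁⁻¹ * g₂⁻¹ * g₁ * g₂ ∈ C0 Ω Pn := by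
  have hw : g₁⁻¹ * g₂⁻¹ * g₁ * g₂ ∈ OF Ω Pn :=
    mul_mem (mul_mem (mul_mem (inv_mem h₁) (inv_mem h₂)) h₁) h₂
  refine ⟨hw, fun y hy c hc => ?_⟩
  by_cases hcy : c • y = y
  · have h1 := fix_orbit_of_fix hP (horb y hy) hc hcy _ (hw y hy)
    rw [hcy, h1]
  · have hO : ∀ g ∈ OF Ω Pn, ∀ z ∈ orbit Pn y, g • z ∈ orbit Pn y := by
      intro g hg z hz
      have h1 := hg z (moved_of_mem_orbit Pn hy hz)
      rw [orbit_eq_iff.mpr hz] at h1
      exact h1
    have hcO : ∀ z ∈ orbit Pn y, c • z ∈ orbit Pn y := by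
      intro z hz
      have h1 : c • z ∈ orbit Pn z := ⟨⟨c, hc⟩, rfl⟩
      rw [orbit_eq_iff.mpr hz] at h1
      exact h1
    have hconj : ∀ g ∈ OF Ω Pn, ∃ a : ℕ, ∀ z ∈ orbit Pn y, g • c • z = c ^ a • g • z := by
      intro g hg
      obtain ⟨a, ha⟩ := exists_pow_agree hP (horb y hy) hc hcy (hN.conj_mem c hc g)
      refine ⟨a, fun z hz => ?_⟩
      have h1 := ha _ (hO g hg z hz)
      rw [mul_smul, mul_smul, inv_smul_smul] at h1
      exact h1
    obtain ⟨a, ha⟩ := hconj g₁ h₁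
    obtain ⟨b, hb⟩ := hconj g₂ h₂
    exact comm_of_conj hcO (hO g₁ h₁) (hO g₂ h₂) (hO _ (inv_mem h₁)) (hO _ (inv_mem h₂)) ha hb
      y (mem_orbit_self y)

/-- commutators of elements of `C0` fix the moved points -/
theorem comm_fix_of_C0 [Finite K] [Finite Ω] (hP : IsPGroup p Pn)
    (horb : ∀ y : Ω, Moved Pn y → (orbit Pn y).ncard = p)
    {w w' : K} (hw : w ∈ C0 Ω Pn) (hw' : w' ∈ C0 Ω Pn) {y : Ω} (hy : Moved Pn y) :
    (w⁻¹ * w'⁻¹ * w * w') • y = y := by
  obtain ⟨c, hc, hcy⟩ := hy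
  have hy : Moved Pn y := ⟨c, hc, hcy⟩
  have hcO : ∀ z ∈ orbit Pn y, c • z ∈ orbit Pn y := by
    intro z hz
    have h1 : c • z ∈ orbit Pn z := ⟨⟨c, hc⟩, rfl⟩
    rw [orbit_eq_iff.mpr hz] at h1
    exact h1
  have key : ∀ v ∈ C0 Ω Pn, ∃ j : ℕ, ∀ i : ℕ, v • c ^ i • y = c ^ j • c ^ i • y := by
    intro v hv
    obtain ⟨j, hj⟩ := exists_pow_of_mem_orbit hP (horb y hy) hc hcy _ (hv.1 y hy)
    refine ⟨j, fun i => ?_⟩
    have h1 : ∀ z ∈ orbit Pn y, v • c • z = c ^ 1 • v • z := by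
      intro z hz
      rw [pow_one]
      exact hv.2 z (moved_of_mem_orbit Pn hy hz) c hc
    have h2 := comm_pow_aux hcO h1 i y (mem_orbit_self y)
    rw [pow_one] at h2
    rw [h2, ← hj, ← mul_smul, ← mul_smul, pow_mul_comm]
  obtain ⟨j, hj⟩ := key w hw
  obtain ⟨j', hj'⟩ := key w' hw'
  have h0 : w • y = c ^ j • y := by simpa using hj 0
  have h0' : w' • y = c ^ j' • y := by simpa using hj' 0
  have hcomm : w • w' • y = w' • w • y := by
    rw [h0', hj j', h0, hj' j, ← mul_smul, ← mul_smul, pow_mul_comm]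
  rw [mul_smul, mul_smul, mul_smul, hcomm, inv_smul_smul, inv_smul_smul]

/-- the lifting lemma: if `K` normalizes a `p`-group `Pn` whose nontrivial orbits have `p`
points and `K` induces the alternating group on the fixed points of `Pn`, which are many, then
`K` contains a 3-cycle -/
theorem lift [Finite K] [Finite Ω] (hP : IsPGroup p Pn) (S : SubMulAction K Ω)
    (hfix : ∀ x, x ∈ S ↔ ∀ u ∈ Pn, u • x = x) (m : ℕ)
    (hm : ((S : Set Ω)ᶜ).ncard = m * p) (hmp : m < p) (h5 : 5 ≤ Nat.card S)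
    (hbig : 2 * m.factorial < (Nat.card S).factorial) (hprim : IsPreprimitive K S)
    (h3 : Marg.Has3 K S) : Marg.Has3 K Ω := by
  classical
  have := Fintype.ofFinite S
  have := Fintype.ofFinite (NOrb Ω Pn)
  have hmoved : ∀ y : Ω, Moved Pn y ↔ y ∉ S := by
    intro y
    rw [hfix]
    unfold Moved
    push Not
    rfl
  have horb : ∀ y : Ω, Moved Pn y → (orbit Pn y).ncard = p := by
    intro y hy
    obtain ⟨u, hu, huy⟩ := hy
    apply orbit_ncard_eq hP hu huy (T := (S : Set Ω)ᶜ)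
    · rintro _ ⟨⟨v, hv⟩, rfl⟩
      exact (hmoved _).mp (moved_smul Pn v ⟨u, hu, huy⟩)
    · rw [hm]
      exact Nat.mul_lt_mul_of_pos_right hmp hp.out.pos
  have hcardQ : Nat.card (NOrb Ω Pn) = m := by
    apply card_norb Pn m hp.out.pos _ horb
    rw [← hm]
    congr 1
    ext y
    exact hmoved y
  have hAlt : alternatingGroup S ≤ (MulAction.toPermHom K S).range :=
    Marg.alt_le_of_has3 hprim h3
  have hnt : Nontrivial S := Finite.one_lt_card_iff_nontrivial.mp (by omega)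
  -- Step 1: pigeonhole
  have hstep1 : ∃ g : K, MulAction.toPermHom K (NOrb Ω Pn) g = 1 ∧
      MulAction.toPermHom K S g ∈ alternatingGroup S ∧ MulAction.toPermHom K S g ≠ 1 := by
    choose f hf using fun a : alternatingGroup S => hAlt a.2
    have hlt : Fintype.card (Equiv.Perm (NOrb Ω Pn)) < Fintype.card (alternatingGroup S) := by
      have h1 := two_mul_card_alternatingGroup (α := S)
      rw [Fintype.card_perm, ← Nat.card_eq_fintype_card (α := S)] at h1
      rw [Fintype.card_perm, ← Nat.card_eq_fintype_card, hcardQ]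
      omega
    obtain ⟨a, a', hne, heq⟩ := Fintype.exists_ne_map_eq_of_card_lt
      (fun a => MulAction.toPermHom K (NOrb Ω Pn) (f a)) hlt
    have heq' : MulAction.toPermHom K (NOrb Ω Pn) (f a) =
      MulAction.toPermHom K (NOrb Ω Pn) (f a') := heq
    refine ⟨(f a)⁻¹ * f a', ?_, ?_, ?_⟩
    · rw [map_mul, map_inv, heq', inv_mul_cancel]
    · rw [map_mul, map_inv, hf, hf]
      exact mul_mem (inv_mem a.2) a'.2
    · rw [map_mul, map_inv, hf, hf]
      intro h
      exact hne (Subtype.ext (inv_mul_eq_one.mp h))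
  obtain ⟨g₀, hg₀θ, hg₀A, hg₀1⟩ := hstep1
  -- Step 2: simplicity
  have hAltN0 : alternatingGroup S ≤
      (MulAction.toPermHom K (NOrb Ω Pn)).ker.map (MulAction.toPermHom K S) := by
    have hDn : (((MulAction.toPermHom K (NOrb Ω Pn)).ker.map
        (MulAction.toPermHom K S)).subgroupOf (alternatingGroup S)).Normal := by
      constructor
      intro d hd a
      rw [Subgroup.mem_subgroupOf] at hd ⊢
      obtain ⟨n₀, hn₀, hn₀d⟩ := hd
      obtain ⟨n, hn⟩ := hAlt a.2
      refine ⟨n * n₀ * n⁻¹, (MonoidHom.normal_ker _).conj_mem n₀ hn₀ n, ?_⟩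
      rw [map_mul, map_mul, map_inv, hn, hn₀d]
      rfl
    have hDne : (((MulAction.toPermHom K (NOrb Ω Pn)).ker.map
        (MulAction.toPermHom K S)).subgroupOf (alternatingGroup S)) ≠ ⊥ := by
      intro hbot
      have hmem : (⟨MulAction.toPermHom K S g₀, hg₀A⟩ : alternatingGroup S) ∈
          (((MulAction.toPermHom K (NOrb Ω Pn)).ker.map
            (MulAction.toPermHom K S)).subgroupOf (alternatingGroup S)) := by
        rw [Subgroup.mem_subgroupOf]
        exact ⟨g₀, MonoidHom.mem_ker.mpr hg₀θ, rfl⟩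
      rw [hbot, Subgroup.mem_bot] at hmem
      exact hg₀1 (congrArg Subtype.val hmem)
    exact Subgroup.subgroupOf_eq_top.mp
      ((alternatingGroup.normal_subgroup_eq_bot_or_eq_top h5).resolve_left hDne)
  -- Step 3: commutators
  have hperf : ⁅alternatingGroup S, alternatingGroup S⁆ = alternatingGroup S := by
    have h1 := commutator_alternatingGroup_eq_top (α := S) h5
    have h2 : (⊤ : Subgroup (alternatingGroup S)).map (alternatingGroup S).subtype =
        alternatingGroup S := by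
      rw [← MonoidHom.range_eq_map, Subgroup.range_subtype]
    rw [commutator_def] at h1
    have h4 := congrArg (Subgroup.map (alternatingGroup S).subtype) h1
    rw [Subgroup.map_commutator, h2] at h4
    exact h4
  have hker : (MulAction.toPermHom K (NOrb Ω Pn)).ker ≤ OF Ω Pn := fun g hg y hy =>
    smul_mem_orbit_of_toPerm_eq_one Pn (MonoidHom.mem_ker.mp hg) hy
  have h3a : ⁅(MulAction.toPermHom K (NOrb Ω Pn)).ker, (MulAction.toPermHom K (NOrb Ω Pn)).ker⁆
      ≤ C0 Ω Pn := by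
    rw [Subgroup.commutator_le]
    intro g₁ hg₁ g₂ hg₂
    have h1 := comm_mem_C0 Pn hP horb (hker (inv_mem hg₁)) (hker (inv_mem hg₂))
    rw [inv_inv, inv_inv] at h1
    exact h1
  have h3b : ⁅C0 Ω Pn, C0 Ω Pn⁆ ≤ fixingSubgroup K ((S : Set Ω)ᶜ) := by
    rw [Subgroup.commutator_le]
    intro w hw w' hw'
    rw [mem_fixingSubgroup_iff]
    intro y hy
    have h1 := comm_fix_of_C0 Pn hP horb (inv_mem hw) (inv_mem hw') ((hmoved y).mpr hy)
    rw [inv_inv, inv_inv] at h1
    exact h1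
  have hA2 : alternatingGroup S ≤ (C0 Ω Pn).map (MulAction.toPermHom K S) := by
    calc alternatingGroup S = ⁅alternatingGroup S, alternatingGroup S⁆ := hperf.symm
      _ ≤ ⁅(MulAction.toPermHom K (NOrb Ω Pn)).ker.map (MulAction.toPermHom K S),
            (MulAction.toPermHom K (NOrb Ω Pn)).ker.map (MulAction.toPermHom K S)⁆ :=
          Subgroup.commutator_mono hAltN0 hAltN0
      _ = (⁅(MulAction.toPermHom K (NOrb Ω Pn)).ker,
            (MulAction.toPermHom K (NOrb Ω Pn)).ker⁆).map (MulAction.toPermHom K S) :=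
          (Subgroup.map_commutator _ _ _).symm
      _ ≤ (C0 Ω Pn).map (MulAction.toPermHom K S) := Subgroup.map_mono h3a
  have hA3 : alternatingGroup S ≤
      (fixingSubgroup K ((S : Set Ω)ᶜ)).map (MulAction.toPermHom K S) := by
    calc alternatingGroup S = ⁅alternatingGroup S, alternatingGroup S⁆ := hperf.symm
      _ ≤ ⁅(C0 Ω Pn).map (MulAction.toPermHom K S),
            (C0 Ω Pn).map (MulAction.toPermHom K S)⁆ := Subgroup.commutator_mono hA2 hA2
      _ = (⁅C0 Ω Pn, C0 Ω Pn⁆).map (MulAction.toPermHom K S) :=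
          (Subgroup.map_commutator _ _ _).symm
      _ ≤ (fixingSubgroup K ((S : Set Ω)ᶜ)).map (MulAction.toPermHom K S) :=
          Subgroup.map_mono h3b
  -- Step 4: a 3-cycle
  obtain ⟨-, a, b, c, hab, hbc, hac, -⟩ := h3
  have hmemσ : Equiv.swap a b * Equiv.swap b c ∈ alternatingGroup S := by
    rw [Equiv.Perm.mem_alternatingGroup, Equiv.Perm.sign_mul, Equiv.Perm.sign_swap hab,
      Equiv.Perm.sign_swap hbc]
    rfl
  obtain ⟨g, hgF, hg⟩ := hA3 hmemσ
  have hg' : ∀ x : S, g • (x : Ω) = ((Equiv.swap a b * Equiv.swap b c) x : S) := by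
    intro x
    rw [← hg]
    rfl
  refine ⟨g, a, b, c, fun h => hab (Subtype.ext h), fun h => hbc (Subtype.ext h),
    fun h => hac (Subtype.ext h), ?_, ?_, ?_, ?_⟩
  · rw [hg', Equiv.Perm.mul_apply, Equiv.swap_apply_of_ne_of_ne hab hac, Equiv.swap_apply_left]
  · rw [hg', Equiv.Perm.mul_apply, Equiv.swap_apply_left,
      Equiv.swap_apply_of_ne_of_ne hac.symm hbc.symm]
  · rw [hg', Equiv.Perm.mul_apply, Equiv.swap_apply_right, Equiv.swap_apply_right]
  · intro x hx1 hx2 hx3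
    by_cases hxS : x ∈ S
    · have h1 := hg' ⟨x, hxS⟩
      have hxa : (⟨x, hxS⟩ : S) ≠ a := fun h => hx1 (congrArg Subtype.val h)
      have hxb : (⟨x, hxS⟩ : S) ≠ b := fun h => hx2 (congrArg Subtype.val h)
      have hxc : (⟨x, hxS⟩ : S) ≠ c := fun h => hx3 (congrArg Subtype.val h)
      rw [Equiv.Perm.mul_apply, Equiv.swap_apply_of_ne_of_ne hxb hxc,
        Equiv.swap_apply_of_ne_of_ne hxa hxb] at h1
      exact h1
    · exact (mem_fixingSubgroup_iff K).mp hgF x hxS

end lift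

end Cfsg.Agent.Lib.Helper99.Mill
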