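import Cfsg.Agent.Lib.Helper99.MillD
import Cfsg.Agent.Lib.Helper99.MargE

set_option autoImplicit false
set_option linter.unusedSectionVars false

open MulAction
open scoped Pointwise

namespace Cfsg.Agent.Lib.Helper99.Mill

universe u v

variable {G : Type v} {Ω : Type u} [Group G] [MulAction G Ω]

theorem two_mul_factorial_lt {k r : ℕ} (hkr : k < r) (hr : 3 ≤ r) :
    2 * k.factorial < r.factorial := by
  rcases Nat.lt_or_ge k 2 with hk | hk
  · have h1 : k.factorial = 1 := by interval_cases k <;> rfl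
    have h2 : (3 : ℕ).factorial ≤ r.factorial := Nat.factorial_le hr
    have h3 : (3 : ℕ).factorial = 6 := rfl
    omega
  · have h1 : (k + 1).factorial ≤ r.factorial := Nat.factorial_le hkr
    rw [Nat.factorial_succ] at h1
    have h2 : 0 < k.factorial := Nat.factorial_pos k
    nlinarith

/-- in an `(r+1)`-transitive group every `r`-set is a Jordan complement -/
theorem jc_of_succ [Finite Ω] {r : ℕ} (h : IsMultiplyPretransitive G Ω (r + 1)) (Γ : Set Ω)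
    (hΓ : Γ.ncard = r) : Marg.JC G Γ := by
  classical
  intro a ha b hb
  have hc : (insert a Γ).ncard = r + 1 := by
    rw [Set.ncard_insert_of_notMem ha (Set.toFinite Γ), hΓ]
  obtain ⟨g, hg⟩ := exists_agree h (insert a Γ) hc (Equiv.swap a b)
  refine ⟨g, fun y hy => ?_, ?_⟩
  · rw [hg y (Set.mem_insert_of_mem a hy), Equiv.swap_apply_of_ne_of_ne]
    · rintro rfl; exact ha hy
    · rintro rfl; exact hb hy
  · rw [hg a (Set.mem_insert a Γ), Equiv.swap_apply_left]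

theorem exists_perm_two [DecidableEq Ω] {Γ : Set Ω} {a b c d : Ω} (ha : a ∈ Γ) (hb : b ∈ Γ)
    (hc : c ∈ Γ) (hd : d ∈ Γ) (hab : a ≠ b) (hcd : c ≠ d) :
    ∃ σ : Equiv.Perm Ω, σ a = c ∧ σ b = d ∧ ∀ x ∈ Γ, σ x ∈ Γ := by
  refine ⟨Equiv.swap (Equiv.swap a c b) d * Equiv.swap a c, ?_, ?_, ?_⟩
  · rw [Equiv.Perm.mul_apply, Equiv.swap_apply_left, Equiv.swap_apply_of_ne_of_ne _ hcd]
    intro h1
    have h2 : Equiv.swap a c c = Equiv.swap a c (Equiv.swap a c b) := by rw [← h1]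
    rw [Equiv.swap_apply_right, Equiv.swap_apply_self] at h2
    exact hab h2
  · rw [Equiv.Perm.mul_apply, Equiv.swap_apply_left]
  · intro x hx
    rw [Equiv.Perm.mul_apply]
    exact swap_mem (swap_mem ha hc hb) hd (swap_mem ha hc hx)

/-- the subgroup `Pg` inside its normalizer -/
abbrev PnOf (Pg : Subgroup G) : Subgroup (Subgroup.normalizer (Pg : Set G)) :=
  Pg.subgroupOf (Subgroup.normalizer (Pg : Set G))

theorem fix_PnOf_iff (Pg : Subgroup G) (x : Ω) :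
    (∀ u ∈ PnOf Pg, u • x = x) ↔ ∀ u ∈ Pg, u • x = x := by
  constructor
  · intro h u hu
    exact h ⟨u, Subgroup.le_normalizer hu⟩ hu
  · intro h u hu
    exact h (u : G) hu

/-- the fixed points of `Pg` with the action of its normalizer -/
def fixSub (Ω : Type u) [MulAction G Ω] (Pg : Subgroup G) :
    SubMulAction (Subgroup.normalizer (Pg : Set G)) Ω where
  carrier := {x | ∀ u ∈ Pg, u • x = x}
  smul_mem' := fun n _ hx => normalizer_smul_fix n.2 hx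

theorem mem_fixSub (Pg : Subgroup G) (x : Ω) : x ∈ fixSub Ω Pg ↔ ∀ u ∈ Pg, u • x = x := Iff.rfl

theorem isPGroup_PnOf {p : ℕ} (Pg : Subgroup G) (hPg : IsPGroup p Pg) : IsPGroup p (PnOf Pg) :=
  hPg.comap_subtype

theorem has3_of_subgroup (H : Subgroup G) (h : Marg.Has3 H Ω) : Marg.Has3 G Ω := by
  obtain ⟨g, a, b, c, h1, h2, h3, h4, h5, h6, h7⟩ := h
  exact ⟨(g : G), a, b, c, h1, h2, h3, h4, h5, h6, h7⟩

theorem exists_swap_elt [DecidableEq Ω] {Γ : Set Ω} {Pg : Subgroup G}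
    (hW : ∀ σ : Equiv.Perm Ω, (∀ x ∈ Γ, σ x ∈ Γ) →
      ∃ n ∈ Subgroup.normalizer (Pg : Set G), ∀ x ∈ Γ, n • x = σ x) {a b : Ω} (ha : a ∈ Γ)
    (hb : b ∈ Γ) :
    ∃ n : Subgroup.normalizer (Pg : Set G), ∀ x ∈ Γ, n • x = Equiv.swap a b x := by
  obtain ⟨n, hn, h⟩ := hW (Equiv.swap a b) (fun x hx => swap_mem ha hb hx)
  exact ⟨⟨n, hn⟩, h⟩

/-- the case of a large set of fixed points: the lifting lemma applies directly -/
theorem has3_direct [Finite G] [Finite Ω] {p : ℕ} [Fact p.Prime] {r k : ℕ}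
    (h : IsMultiplyPretransitive G Ω r) (Γ : Set Ω) (hΓ : Γ.ncard = r) (hjc : Marg.JC G Γ)
    (hM : Γᶜ.ncard = k * p) (hkp : k < p) (hkr : k < r) (hr : 5 ≤ r) : Marg.Has3 G Ω := by
  classical
  obtain ⟨Pg, hPg, hfixΓ, hW⟩ := sylow_setup h Γ hΓ hjc hM
  apply has3_of_subgroup (Subgroup.normalizer (Pg : Set G))
  have hS : (fixSub Ω Pg : Set Ω) = Γ := by
    ext x
    exact (hfixΓ x).symm
  have hcardS : Nat.card (fixSub Ω Pg) = r := by
    rw [← hΓ, ← hS]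
    exact Nat.card_coe_set_eq _
  have hmemS : ∀ x : Ω, x ∈ fixSub Ω Pg ↔ x ∈ Γ := fun x => (hfixΓ x).symm
  apply lift (PnOf Pg) (isPGroup_PnOf Pg hPg) (fixSub Ω Pg) (fun x => (fix_PnOf_iff Pg x).symm) k
    (by rw [hS]; exact hM) hkp (by rw [hcardS]; exact hr)
    (by rw [hcardS]; exact two_mul_factorial_lt hkr (by omega))
  · apply isPreprimitive_of_is_two_pretransitive
    rw [is_two_pretransitive_iff]
    intro a b c d hab hcd
    obtain ⟨σ, hσa, hσb, hσΓ⟩ := exists_perm_two ((hmemS _).mp a.2) ((hmemS _).mp b.2)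
      ((hmemS _).mp c.2) ((hmemS _).mp d.2) (fun h => hab (Subtype.ext h))
      (fun h => hcd (Subtype.ext h))
    obtain ⟨n, hn, hnΓ⟩ := hW σ hσΓ
    refine ⟨⟨n, hn⟩, Subtype.ext ?_, Subtype.ext ?_⟩
    · show n • (a : Ω) = c
      rw [hnΓ _ ((hmemS _).mp a.2), hσa]
    · show n • (b : Ω) = d
      rw [hnΓ _ ((hmemS _).mp b.2), hσb]
  · obtain ⟨a, b, c, ha, hb, hc, hab, hac, hbc⟩ :=
      (Set.two_lt_ncard_iff (Set.toFinite Γ)).mp (by rw [hΓ]; omega : 2 < Γ.ncard)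
    obtain ⟨n, hn, hnΓ⟩ := hW (Equiv.swap a b * Equiv.swap b c) (fun x hx => by
      rw [Equiv.Perm.mul_apply]
      exact swap_mem ha hb (swap_mem hb hc hx))
    refine ⟨⟨n, hn⟩, ⟨a, (hmemS a).mpr ha⟩, ⟨b, (hmemS b).mpr hb⟩, ⟨c, (hmemS c).mpr hc⟩,
      fun h => hab (congrArg Subtype.val h), fun h => hbc (congrArg Subtype.val h),
      fun h => hac (congrArg Subtype.val h), Subtype.ext ?_, Subtype.ext ?_, Subtype.ext ?_,
      fun x hx1 hx2 hx3 => Subtype.ext ?_⟩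
    · show n • a = b
      rw [hnΓ a ha, Equiv.Perm.mul_apply, Equiv.swap_apply_of_ne_of_ne hab hac,
        Equiv.swap_apply_left]
    · show n • b = c
      rw [hnΓ b hb, Equiv.Perm.mul_apply, Equiv.swap_apply_left,
        Equiv.swap_apply_of_ne_of_ne hac.symm hbc.symm]
    · show n • c = a
      rw [hnΓ c hc, Equiv.Perm.mul_apply, Equiv.swap_apply_right, Equiv.swap_apply_right]
    · show n • (x : Ω) = x
      have hxa : (x : Ω) ≠ a := fun h => hx1 (Subtype.ext h)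
      have hxb : (x : Ω) ≠ b := fun h => hx2 (Subtype.ext h)
      have hxc : (x : Ω) ≠ c := fun h => hx3 (Subtype.ext h)
      rw [hnΓ _ ((hmemS _).mp x.2), Equiv.Perm.mul_apply, Equiv.swap_apply_of_ne_of_ne hxb hxc,
        Equiv.swap_apply_of_ne_of_ne hxa hxb]

/-- the case `k = 1`: an `r`-transitive group of degree `p + r` in which some `r`-set is a
Jordan complement contains a 3-cycle, if `r ≥ 3` -/
theorem has3_k1 [Finite G] [Finite Ω] {p : ℕ} [Fact p.Prime] {r : ℕ}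
    (h : IsMultiplyPretransitive G Ω r) (Γ : Set Ω) (hΓ : Γ.ncard = r) (hjc : Marg.JC G Γ)
    (hM : Γᶜ.ncard = p) (hr : 3 ≤ r) : Marg.Has3 G Ω := by
  classical
  have hp := (Fact.out : p.Prime)
  obtain ⟨Pg, hPg, hfixΓ, hW⟩ := sylow_setup (p := p) (k := 1) h Γ hΓ hjc (by rw [one_mul]; exact hM)
  obtain ⟨a, b, c, ha, hb, hc, hab, hac, hbc⟩ :=
    (Set.two_lt_ncard_iff (Set.toFinite Γ)).mp (by rw [hΓ]; omega : 2 < Γ.ncard)
  obtain ⟨x, hxN, hx⟩ := hW (Equiv.swap a b) (fun z hz => swap_mem ha hb hz)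
  obtain ⟨y, hyN, hy⟩ := hW (Equiv.swap b c) (fun z hz => swap_mem hb hc hz)
  obtain ⟨β₀, hβ₀⟩ : ∃ β₀, β₀ ∉ Γ := by
    have h1 : Γᶜ.Nonempty := by
      rw [← Set.ncard_pos (Set.toFinite _), hM]
      exact hp.pos
    exact h1
  have hmv : ∃ c₀ ∈ Pg, c₀ • β₀ ≠ β₀ := by
    by_contra hcon
    push Not at hcon
    exact hβ₀ ((hfixΓ β₀).mpr hcon)
  obtain ⟨c₀, hc₀, hc₀β⟩ := hmv
  have hsubO : orbit Pg β₀ ⊆ Γᶜ := by
    rintro _ ⟨⟨u, hu⟩, rfl⟩ hmem
    have hmem' : u • β₀ ∈ Γ := hmem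
    have h1 : u⁻¹ • u • β₀ = u • β₀ := (hfixΓ _).mp hmem' u⁻¹ (Pg.inv_mem hu)
    rw [inv_smul_smul] at h1
    rw [← h1] at hmem'
    exact hβ₀ hmem'
  have hO : (orbit Pg β₀).ncard = p :=
    orbit_ncard_eq hPg hc₀ hc₀β hsubO (by rw [hM]; nlinarith [hp.two_le])
  have hOeq : orbit Pg β₀ = Γᶜ :=
    Set.eq_of_subset_of_ncard_le hsubO (by rw [hM, hO]) (Set.toFinite _)
  have hNc : ∀ g ∈ Subgroup.normalizer (Pg : Set G), ∀ z ∈ orbit Pg β₀,
      g • z ∈ orbit Pg β₀ := by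
    intro g hg z hz
    rw [hOeq] at hz ⊢
    intro hmem
    apply hz
    rw [hfixΓ] at hmem ⊢
    have h1 := normalizer_smul_fix (inv_mem hg) hmem
    rwa [inv_smul_smul] at h1
  have hcO : ∀ z ∈ orbit Pg β₀, c₀ • z ∈ orbit Pg β₀ := hNc c₀ (Subgroup.le_normalizer hc₀)
  have hconj : ∀ g ∈ Subgroup.normalizer (Pg : Set G), ∃ a' : ℕ, ∀ z ∈ orbit Pg β₀,
      g • c₀ • z = c₀ ^ a' • g • z := by
    intro g hg
    have hmem : g * c₀ * g⁻¹ ∈ Pg := (Subgroup.mem_normalizer_iff.mp hg c₀).mp hc₀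
    obtain ⟨a', ha'⟩ := exists_pow_agree hPg hO hc₀ hc₀β hmem
    refine ⟨a', fun z hz => ?_⟩
    have h1 := ha' _ (hNc g hg z hz)
    rw [mul_smul, mul_smul, inv_smul_smul] at h1
    exact h1
  obtain ⟨a₁, ha₁⟩ := hconj x hxN
  obtain ⟨a₂, ha₂⟩ := hconj y hyN
  have hcomm := comm_of_conj hcO (hNc x hxN) (hNc y hyN) (hNc _ (inv_mem hxN))
    (hNc _ (inv_mem hyN)) ha₁ ha₂
  have hwN : x⁻¹ * y⁻¹ * x * y ∈ Subgroup.normalizer (Pg : Set G) :=
    mul_mem (mul_mem (mul_mem (inv_mem hxN) (inv_mem hyN)) hxN) hyN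
  obtain ⟨j, hj⟩ := exists_pow_of_mem_orbit hPg hO hc₀ hc₀β _
    (hNc _ hwN β₀ (mem_orbit_self β₀))
  have hwO : ∀ z ∈ orbit Pg β₀, (x⁻¹ * y⁻¹ * x * y) • z = c₀ ^ j • z := by
    intro z hz
    obtain ⟨i, rfl⟩ := exists_pow_of_mem_orbit hPg hO hc₀ hc₀β z hz
    have h1 : ∀ z ∈ orbit Pg β₀,
        (x⁻¹ * y⁻¹ * x * y) • c₀ • z = c₀ ^ 1 • (x⁻¹ * y⁻¹ * x * y) • z := by
      intro z hz
      rw [pow_one]
      exact hcomm z hz
    have h2 := comm_pow_aux hcO h1 i β₀ (mem_orbit_self β₀)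
    rw [pow_one] at h2
    rw [h2, ← hj, ← mul_smul, ← mul_smul, pow_mul_comm]
  have hxa : x • a = b := by rw [hx a ha, Equiv.swap_apply_left]
  have hxb : x • b = a := by rw [hx b hb, Equiv.swap_apply_right]
  have hxc : x • c = c := by rw [hx c hc, Equiv.swap_apply_of_ne_of_ne hac.symm hbc.symm]
  have hya : y • a = a := by rw [hy a ha, Equiv.swap_apply_of_ne_of_ne hab hac]
  have hyb : y • b = c := by rw [hy b hb, Equiv.swap_apply_left]
  have hyc : y • c = b := by rw [hy c hc, Equiv.swap_apply_right]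
  obtain ⟨hwa, hwc, hwb⟩ := comm_three hxa hxb hxc hya hyb hyc
  have hcfix : ∀ z ∈ Γ, (c₀ ^ j)⁻¹ • z = z := by
    intro z hz
    exact (hfixΓ z).mp hz _ (Pg.inv_mem (Pg.pow_mem hc₀ j))
  refine ⟨(c₀ ^ j)⁻¹ * (x⁻¹ * y⁻¹ * x * y), a, c, b, hac, hbc.symm, hab, ?_, ?_, ?_, ?_⟩
  · rw [mul_smul, hwa, hcfix c hc]
  · rw [mul_smul, hwc, hcfix b hb]
  · rw [mul_smul, hwb, hcfix a ha]
  · intro z hza hzc hzb
    by_cases hz : z ∈ Γ
    · have h1 : x • z = z := by rw [hx z hz, Equiv.swap_apply_of_ne_of_ne hza hzb]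
      have h2 : y • z = z := by rw [hy z hz, Equiv.swap_apply_of_ne_of_ne hzb hzc]
      rw [mul_smul, comm_fix_of_fix h1 h2, hcfix z hz]
    · have hz' : z ∈ orbit Pg β₀ := by rw [hOeq]; exact hz
      rw [mul_smul, hwO z hz', inv_smul_smul]

/-- the semiregular case for `(k, r) = (2, 3)` or `(3, 4)` -/
theorem has3_alpha [Finite G] [Finite Ω] {p : ℕ} [Fact p.Prime] {r k : ℕ}
    (h : IsMultiplyPretransitive G Ω r) (Γ : Set Ω) (hΓ : Γ.ncard = r)
    (hM : Γᶜ.ncard = k * p) (hkp : k < p) (hrp : r < p)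
    (hkr : (k = 2 ∧ r = 3) ∨ (k = 3 ∧ r = 4))
    (Pg : Subgroup G) (hPg : IsPGroup p Pg) (hfixΓ : ∀ x, x ∈ Γ ↔ ∀ u ∈ Pg, u • x = x)
    (hW : ∀ σ : Equiv.Perm Ω, (∀ x ∈ Γ, σ x ∈ Γ) →
        ∃ n ∈ Subgroup.normalizer (Pg : Set G), ∀ x ∈ Γ, n • x = σ x)
    (hsemi : ∀ u ∈ Pg, ∀ β, β ∉ Γ → u • β = β → ∀ y : Ω, u • y = y) : Marg.Has3 G Ω := by
  classical
  have hp := (Fact.out : p.Prime)
  have hk2 : 2 ≤ k := by rcases hkr with ⟨h1, _⟩ | ⟨h1, _⟩ <;> omega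
  have hPn : IsPGroup p (PnOf Pg) := isPGroup_PnOf Pg hPg
  have hmoved : ∀ y : Ω, Moved (PnOf Pg) y ↔ y ∉ Γ := by
    intro y
    rw [hfixΓ, ← fix_PnOf_iff]
    unfold Moved
    push Not
    rfl
  have horb : ∀ y : Ω, Moved (PnOf Pg) y → (orbit (PnOf Pg) y).ncard = p := by
    intro y hy
    obtain ⟨u, hu, huy⟩ := hy
    apply orbit_ncard_eq hPn hu huy (T := Γᶜ)
    · rintro _ ⟨⟨v, hv⟩, rfl⟩
      exact (hmoved _).mp (moved_smul (PnOf Pg) v ⟨u, hu, huy⟩)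
    · rw [hM]
      exact Nat.mul_lt_mul_of_pos_right hkp hp.pos
  have hcardQ : Nat.card (NOrb Ω (PnOf Pg)) = k := by
    apply card_norb (PnOf Pg) k hp.pos _ horb
    rw [← hM]
    congr 1
    ext y
    exact hmoved y
  have hsemi' : ∀ u ∈ PnOf Pg, ∀ β : Ω, β ∉ Γ → u • β = β → ∀ y : Ω, u • y = y :=
    fun u hu => hsemi (u : G) hu
  -- commutators commute with `Pn`
  have hCP : ∀ g₁ g₂ : Subgroup.normalizer (Pg : Set G), ∀ c ∈ PnOf Pg, ∀ y : Ω,
      (g₁⁻¹ * g₂⁻¹ * g₁ * g₂) • c • y = c • (g₁⁻¹ * g₂⁻¹ * g₁ * g₂) • y := by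
    intro g₁ g₂ c hc y
    by_cases htriv : ∀ z : Ω, c • z = z
    · rw [htriv, htriv]
    push Not at htriv
    obtain ⟨β, hcβ⟩ := htriv
    have hβm : Moved (PnOf Pg) β := ⟨c, hc, hcβ⟩
    have hβ : β ∉ Γ := (hmoved β).mp hβm
    have hglob : ∀ u ∈ PnOf Pg, ∃ a : ℕ, ∀ z : Ω, u • z = c ^ a • z := by
      intro u hu
      obtain ⟨a, ha⟩ := exists_pow_of_mem_orbit hPn (horb β hβm) hc hcβ (u • β) ⟨⟨u, hu⟩, rfl⟩
      refine ⟨a, fun z => ?_⟩
      have h1 : ((c ^ a)⁻¹ * u) • β = β := by rw [mul_smul, ← ha, inv_smul_smul]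
      have h2 := hsemi' _ (mul_mem (inv_mem (pow_mem hc a)) hu) β hβ h1 z
      rw [mul_smul, inv_smul_eq_iff] at h2
      exact h2
    have hconj : ∀ g : Subgroup.normalizer (Pg : Set G), ∃ a : ℕ,
        ∀ z ∈ (Set.univ : Set Ω), g • c • z = c ^ a • g • z := by
      intro g
      obtain ⟨a, ha⟩ := hglob _ (Subgroup.Normal.conj_mem inferInstance c hc g)
      refine ⟨a, fun z _ => ?_⟩
      have h1 := ha (g • z)
      rw [mul_smul, mul_smul, inv_smul_smul] at h1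
      exact h1
    obtain ⟨a, ha⟩ := hconj g₁
    obtain ⟨b, hb⟩ := hconj g₂
    exact comm_of_conj (O := Set.univ) (fun _ _ => Set.mem_univ _) (fun _ _ => Set.mem_univ _)
      (fun _ _ => Set.mem_univ _) (fun _ _ => Set.mem_univ _) (fun _ _ => Set.mem_univ _) ha hb
      y (Set.mem_univ y)
  -- `p`-th powers of orbit-fixing elements commuting with `Pn` fix the moved points
  have hpow : ∀ w : Subgroup.normalizer (Pg : Set G),
      (∀ c ∈ PnOf Pg, ∀ y : Ω, w • c • y = c • w • y) →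
      MulAction.toPermHom (Subgroup.normalizer (Pg : Set G)) (NOrb Ω (PnOf Pg)) w = 1 →
      ∀ y : Ω, y ∉ Γ → w ^ p • y = y := by
    intro w hw hθ y hy
    obtain ⟨c, hc, hcy⟩ := (hmoved y).mpr hy
    have hym : Moved (PnOf Pg) y := ⟨c, hc, hcy⟩
    obtain ⟨j, hj⟩ := exists_pow_of_mem_orbit hPn (horb y hym) hc hcy _
      (smul_mem_orbit_of_toPerm_eq_one (PnOf Pg) hθ hym)
    apply pow_smul_of_comm (c := c) (j := j) _ (pow_prime_smul_eq hPn (horb y hym) hc hcy) hj.symm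
    intro i
    have h1 : ∀ z ∈ (Set.univ : Set Ω), w • c • z = c ^ 1 • w • z := by
      intro z _
      rw [pow_one]
      exact hw c hc z
    have h2 := comm_pow_aux (O := Set.univ) (fun _ _ => Set.mem_univ _) h1 i y (Set.mem_univ y)
    rw [pow_one] at h2
    exact h2
  have hNΓ : ∀ g : Subgroup.normalizer (Pg : Set G), ∀ z ∈ Γ, g • z ∈ Γ := by
    intro g z hz
    rw [hfixΓ] at hz ⊢
    exact normalizer_smul_fix g.2 hz
  have hkey : ∃ w : Subgroup.normalizer (Pg : Set G),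
      (∀ c ∈ PnOf Pg, ∀ y : Ω, w • c • y = c • w • y) ∧
      MulAction.toPermHom (Subgroup.normalizer (Pg : Set G)) (NOrb Ω (PnOf Pg)) w = 1 ∧
      ∃ a ∈ Γ, w • a ≠ a := by
    obtain ⟨a, b, c, ha, hb, hc, hab, hac, hbc⟩ :=
      (Set.two_lt_ncard_iff (Set.toFinite Γ)).mp (by rw [hΓ]; omega : 2 < Γ.ncard)
    obtain ⟨x, hx⟩ := exists_swap_elt hW ha hb
    obtain ⟨y, hy⟩ := exists_swap_elt hW hb hc
    have hxa : x • a = b := by rw [hx a ha, Equiv.swap_apply_left]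
    have hxb : x • b = a := by rw [hx b hb, Equiv.swap_apply_right]
    have hxc : x • c = c := by rw [hx c hc, Equiv.swap_apply_of_ne_of_ne hac.symm hbc.symm]
    have hya : y • a = a := by rw [hy a ha, Equiv.swap_apply_of_ne_of_ne hab hac]
    have hyb : y • b = c := by rw [hy b hb, Equiv.swap_apply_left]
    have hyc : y • c = b := by rw [hy c hc, Equiv.swap_apply_right]
    obtain ⟨hua, -, -⟩ := comm_three hxa hxb hxc hya hyb hyc
    rcases hkr with ⟨hk, hr⟩ | ⟨hk, hr⟩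
    · refine ⟨x⁻¹ * y⁻¹ * x * y, hCP x y, ?_, a, ha, ?_⟩
      · rw [map_mul, map_mul, map_mul, map_inv, map_inv]
        exact perm_comm_eq_one (by rw [hcardQ, hk]) _ _
      · rw [hua]
        exact hac.symm
    · obtain ⟨d, hd, hdn⟩ := Set.exists_mem_notMem_of_ncard_lt_ncard
        (s := ({a, b, c} : Set Ω)) (t := Γ)
        (by rw [Set.ncard_eq_three.mpr ⟨a, b, c, hab, hac, hbc, rfl⟩, hΓ, hr]; omega)
        (Set.toFinite _)
      simp only [Set.mem_insert_iff, Set.mem_singleton_iff, not_or] at hdn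
      obtain ⟨hda, hdb, hdc⟩ := hdn
      obtain ⟨y', hy'⟩ := exists_swap_elt hW hb hd
      have hxd : x • d = d := by rw [hx d hd, Equiv.swap_apply_of_ne_of_ne hda hdb]
      have hyd : y • d = d := by rw [hy d hd, Equiv.swap_apply_of_ne_of_ne hdb hdc]
      have hy'a : y' • a = a := by rw [hy' a ha, Equiv.swap_apply_of_ne_of_ne hab (Ne.symm hda)]
      have hy'b : y' • b = d := by rw [hy' b hb, Equiv.swap_apply_left]
      have hy'd : y' • d = b := by rw [hy' d hd, Equiv.swap_apply_right]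
      have hy'c : y' • c = c := by
        rw [hy' c hc, Equiv.swap_apply_of_ne_of_ne hbc.symm (Ne.symm hdc)]
      obtain ⟨hva, -, -⟩ := comm_three hxa hxb hxd hy'a hy'b hy'd
      have hud : (x⁻¹ * y⁻¹ * x * y) • d = d := comm_fix_of_fix hxd hyd
      have hvc : (x⁻¹ * y'⁻¹ * x * y') • c = c := comm_fix_of_fix hxc hy'c
      refine ⟨(x⁻¹ * y⁻¹ * x * y)⁻¹ * (x⁻¹ * y'⁻¹ * x * y')⁻¹ * (x⁻¹ * y⁻¹ * x * y) *
        (x⁻¹ * y'⁻¹ * x * y'), hCP _ _, ?_, a, ha, ?_⟩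
      · simp only [map_mul, map_inv]
        exact perm_dcomm_eq_one (by rw [hcardQ, hk]) _ _ _ _
      · intro hw
        rw [mul_smul, mul_smul, mul_smul, hva, hud, inv_smul_eq_iff, inv_smul_eq_iff, hua,
          hvc] at hw
        exact hdc hw
  obtain ⟨w, hwCP, hwθ, a, ha, hwa⟩ := hkey
  have hfixM : ∀ y : Ω, y ∉ Γ → w ^ p • y = y := hpow w hwCP hwθ
  have hmove : ∃ a' ∈ Γ, w ^ p • a' ≠ a' := by
    by_contra hcon
    push Not at hcon
    exact hwa (fix_of_pow_fix (hNΓ w) hp (by rw [hΓ]; exact hrp) hcon a ha)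
  obtain ⟨a', ha', hwa'⟩ := hmove
  have hjc' : Marg.JC G Γᶜ := jc_compl_of_moves h Γ hΓ
    (g := ((w ^ p : Subgroup.normalizer (Pg : Set G)) : G)) hfixM ha' hwa'
  have hcard := Set.ncard_add_ncard_compl Γ
  have hle : p ≤ k * p := Nat.le_mul_of_pos_left p (by omega)
  have hprim : IsPreprimitive G Ω := by
    have h2 : IsMultiplyPretransitive G Ω 2 :=
      isMultiplyPretransitive_of_le (n := r) (by omega) (by omega)
    exact isPreprimitive_of_is_two_pretransitive h2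
  exact Marg.has3_of_jc (Nat.card Ω) G Ω rfl hprim Γᶜ hjc' (by rw [compl_compl, hΓ]; omega)
    (by rw [compl_compl, hΓ]; omega)

end Cfsg.Agent.Lib.Helper99.Mill
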