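import Cfsg.Agent.Lib.Helper99.MillE
import Cfsg.Agent.Lib.Helper99.SylAct2

set_option autoImplicit false
set_option linter.unusedSectionVars false

open MulAction
open scoped Pointwise

namespace Cfsg.Agent.Lib.Helper99.Mill

universe u v

theorem four_le_fixed {Ω : Type u} [Finite Ω] (t : Equiv.Perm Ω) (e : Fin 4 ↪ Ω)
    (h : ∀ i, t (e i) = e i) : 4 ≤ {x | t x = x}.ncard := by
  have hsub : Set.range e ⊆ {x | t x = x} := by
    rintro _ ⟨i, rfl⟩
    exact h i
  have hc : (Set.range e).ncard = 4 := by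
    rw [← Set.image_univ, Set.ncard_image_of_injective _ e.injective, Set.ncard_univ,
      Nat.card_fin]
  calc 4 = (Set.range e).ncard := hc.symm
    _ ≤ _ := Set.ncard_le_ncard hsub (Set.toFinite _)

/-- there is no sharply 4-transitive group of degree 9 -/
theorem nine_sharp_false {Ω : Type u} [Finite Ω] (G : Subgroup (Equiv.Perm Ω))
    (hcard : Nat.card Ω = 9) (h4 : IsMultiplyPretransitive G Ω 4)
    (hsharp : ∀ t ∈ G, t ≠ 1 → {x | t x = x}.ncard < 4) : False := by
  classical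
  have := Fintype.ofFinite Ω
  have := Fintype.ofFinite G
  have hcardF : Fintype.card Ω = 9 := by rw [← Nat.card_eq_fintype_card, hcard]
  have hG : Nat.card G = 3024 := by
    obtain ⟨e₀⟩ : Nonempty (Fin 4 ↪ Ω) :=
      Function.Embedding.nonempty_of_card_le (by rw [Fintype.card_fin, hcardF]; omega)
    have hbij : Function.Bijective (fun g : G => g • e₀) := by
      constructor
      · intro g g' hgg
        have hgg' : g • e₀ = g' • e₀ := hgg
        by_contra hne
        have hne' : ((g⁻¹ * g' : G) : Equiv.Perm Ω) ≠ 1 := by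
          intro h
          apply hne
          have h0 : g⁻¹ * g' = 1 := Subtype.ext h
          exact inv_mul_eq_one.mp h0
        have h1 := hsharp _ (g⁻¹ * g').2 hne'
        have h2 := four_le_fixed ((g⁻¹ * g' : G) : Equiv.Perm Ω) e₀ (fun i => by
          have h3 : g • e₀ i = g' • e₀ i := by
            have := DFunLike.congr_fun hgg' i
            simpa using this
          show (g⁻¹ * g') • e₀ i = e₀ i
          rw [mul_smul, ← h3, inv_smul_smul])
        omega
      · intro e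
        exact h4.exists_smul_eq e₀ e
    rw [Nat.card_eq_of_bijective _ hbij, Nat.card_eq_fintype_card, Fintype.card_embedding_eq,
      Fintype.card_fin, hcardF]
    decide
  have hp7 : Fact (Nat.Prime 7) := ⟨by norm_num⟩
  obtain ⟨Q⟩ := (inferInstance : Nonempty (Sylow 7 G))
  have hQcard : Nat.card Q = 7 := by
    have h0 := SylAct.card_sylow_eq_pow Q 1 (by rw [hG]; norm_num) (by rw [hG]; norm_num)
    simpa using h0
  have h1 := card_sylow_modEq_one 7 G
  have h2 : Nat.card (Sylow 7 G) = (Subgroup.normalizer ((Q : Subgroup G) : Set G)).index :=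
    Sylow.card_eq_index_normalizer Q
  have h3 := Subgroup.index_mul_card (Subgroup.normalizer ((Q : Subgroup G) : Set G))
  have h4' : Nat.card (Q : Subgroup G) ∣
      Nat.card (Subgroup.normalizer ((Q : Subgroup G) : Set G)) :=
    Subgroup.card_dvd_of_le Subgroup.le_normalizer
  have hN50 : 50 ≤ Nat.card (Subgroup.normalizer ((Q : Subgroup G) : Set G)) := by
    by_contra hcon
    push Not at hcon
    rw [h2] at h1
    rw [hG] at h3
    rw [hQcard] at h4'
    obtain ⟨d, hd⟩ := h4'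
    unfold Nat.ModEq at h1
    rw [hd] at h3 hcon
    have hd7 : d ≤ 7 := by omega
    have h3' : 7 * ((Subgroup.normalizer ((Q : Subgroup G) : Set G)).index * d) = 3024 := by
      rw [← h3]
      ring
    have h3'' : (Subgroup.normalizer ((Q : Subgroup G) : Set G)).index * d = 432 := by omega
    interval_cases d <;> omega
  obtain ⟨f, hfQ, hf1⟩ : ∃ f ∈ (Q : Subgroup G), f ≠ 1 := by
    by_contra hcon
    push Not at hcon
    have hbot : (Q : Subgroup G) = ⊥ := (Subgroup.eq_bot_iff_forall _).mpr hcon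
    rw [hbot, Subgroup.card_bot] at hQcard
    omega
  obtain ⟨q₀, hq₀⟩ := Fintype.exists_lt_card_fiber_of_mul_lt_card
    (fun n : Subgroup.normalizer ((Q : Subgroup G) : Set G) =>
      (⟨(n : G) * f * (n : G)⁻¹, (Subgroup.mem_normalizer_iff.mp n.2 f).mp hfQ⟩ :
        (Q : Subgroup G))) (n := 7)
    (by rw [← Nat.card_eq_fintype_card, ← Nat.card_eq_fintype_card, hQcard]; omega)
  obtain ⟨n₁, hn₁⟩ : ∃ n₁ : Subgroup.normalizer ((Q : Subgroup G) : Set G),
      (⟨(n₁ : G) * f * (n₁ : G)⁻¹, (Subgroup.mem_normalizer_iff.mp n₁.2 f).mp hfQ⟩ :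
        (Q : Subgroup G)) = q₀ := by
    have hne := Finset.card_pos.mp (lt_of_le_of_lt (Nat.zero_le 7) hq₀)
    obtain ⟨n₁, hn₁⟩ := hne
    exact ⟨n₁, (Finset.mem_filter.mp hn₁).2⟩
  have hex : ∃ n₂ : Subgroup.normalizer ((Q : Subgroup G) : Set G),
      (⟨(n₂ : G) * f * (n₂ : G)⁻¹, (Subgroup.mem_normalizer_iff.mp n₂.2 f).mp hfQ⟩ :
        (Q : Subgroup G)) = q₀ ∧ (n₁ : G)⁻¹ * (n₂ : G) ∉ (Q : Subgroup G) := by
    by_contra hcon
    push Not at hcon
    have hinj : Set.InjOn (fun n : Subgroup.normalizer ((Q : Subgroup G) : Set G) =>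
        (n₁ : G)⁻¹ * (n : G)) ↑(Finset.univ.filter
          (fun n : Subgroup.normalizer ((Q : Subgroup G) : Set G) =>
      (⟨(n : G) * f * (n : G)⁻¹, (Subgroup.mem_normalizer_iff.mp n.2 f).mp hfQ⟩ :
        (Q : Subgroup G)) = q₀)) := by
      intro a _ b _ hab
      exact Subtype.ext (mul_left_cancel hab)
    have himg : (Finset.univ.filter
          (fun n : Subgroup.normalizer ((Q : Subgroup G) : Set G) =>
      (⟨(n : G) * f * (n : G)⁻¹, (Subgroup.mem_normalizer_iff.mp n.2 f).mp hfQ⟩ :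
        (Q : Subgroup G)) = q₀)).image
        (fun n : Subgroup.normalizer ((Q : Subgroup G) : Set G) => (n₁ : G)⁻¹ * (n : G)) ⊆
        Finset.univ.filter (fun g : G => g ∈ (Q : Subgroup G)) := by
      intro g hg
      obtain ⟨n, hn, rfl⟩ := Finset.mem_image.mp hg
      exact Finset.mem_filter.mpr ⟨Finset.mem_univ _, hcon n (Finset.mem_filter.mp hn).2⟩
    have hc1 := Finset.card_le_card himg
    rw [Finset.card_image_of_injOn hinj] at hc1
    have hc2 : (Finset.univ.filter (fun g : G => g ∈ (Q : Subgroup G))).card = 7 := by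
      have h0 : Fintype.card (Q : Subgroup G) = 7 := by
        rw [← Nat.card_eq_fintype_card]
        exact hQcard
      exact (Fintype.card_of_subtype _ (fun x => by simp)).symm.trans h0
    omega
  obtain ⟨n₂, hn₂, hz⟩ := hex
  have hcomm : ((n₁ : G)⁻¹ * (n₂ : G)) * f = f * ((n₁ : G)⁻¹ * (n₂ : G)) := by
    have h5 : (n₁ : G) * f * (n₁ : G)⁻¹ = (n₂ : G) * f * (n₂ : G)⁻¹ :=
      congrArg Subtype.val (hn₁.trans hn₂.symm)
    calc ((n₁ : G)⁻¹ * (n₂ : G)) * f
        = (n₁ : G)⁻¹ * ((n₂ : G) * f * (n₂ : G)⁻¹) * (n₂ : G) := by group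
      _ = (n₁ : G)⁻¹ * ((n₁ : G) * f * (n₁ : G)⁻¹) * (n₂ : G) := by rw [h5]
      _ = f * ((n₁ : G)⁻¹ * (n₂ : G)) := by group
  generalize (n₁ : G)⁻¹ * (n₂ : G) = z at hz hcomm
  obtain ⟨y₀, hy₀⟩ : ∃ y₀ : Ω, f • y₀ ≠ y₀ := by
    by_contra hcon
    push Not at hcon
    apply hf1
    apply Subtype.ext
    ext x
    exact hcon x
  have hZQ : Subgroup.zpowers f ≤ (Q : Subgroup G) := Subgroup.zpowers_le.mpr hfQ
  have hZp : IsPGroup 7 (Subgroup.zpowers f) := Q.2.to_le hZQ
  have hY : (orbit (Subgroup.zpowers f) y₀).ncard = 7 :=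
    orbit_ncard_eq hZp (Subgroup.mem_zpowers f) hy₀ (Set.subset_univ _)
      (by rw [Set.ncard_univ, hcard]; norm_num)
  have hcommu : ∀ u ∈ Subgroup.zpowers f, z * u = u * z := by
    intro u hu
    obtain ⟨i, rfl⟩ := Subgroup.mem_zpowers_iff.mp hu
    exact Commute.zpow_right hcomm i
  have hzY : z • y₀ ∈ orbit (Subgroup.zpowers f) y₀ := by
    by_contra hnot
    have hdisj : Disjoint (orbit (Subgroup.zpowers f) y₀)
        ((fun y => z • y) '' orbit (Subgroup.zpowers f) y₀) := by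
      rw [Set.disjoint_left]
      rintro _ ⟨⟨u', hu'⟩, rfl⟩ ⟨_, ⟨⟨u, hu⟩, rfl⟩, h6⟩
      have h6' : z • u • y₀ = u' • y₀ := h6
      apply hnot
      have h7 : z • y₀ = (u⁻¹ * u') • y₀ := by
        have h8 : (z * u) • y₀ = u' • y₀ := by rw [mul_smul]; exact h6'
        rw [hcommu u hu, mul_smul] at h8
        rw [mul_smul, ← h8, inv_smul_smul]
      rw [h7]
      exact ⟨⟨u⁻¹ * u', mul_mem (inv_mem hu) hu'⟩, rfl⟩
    have h9 := Set.ncard_union_eq hdisj (Set.toFinite _) (Set.toFinite _)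
    rw [Set.ncard_image_of_injective _ (MulAction.injective z), hY] at h9
    have h10 : (orbit (Subgroup.zpowers f) y₀ ∪
        (fun y => z • y) '' orbit (Subgroup.zpowers f) y₀).ncard ≤ Nat.card Ω := by
      rw [← Set.ncard_univ]
      exact Set.ncard_le_ncard (Set.subset_univ _) (Set.toFinite _)
    omega
  obtain ⟨⟨u, hu⟩, hu'⟩ := hzY
  have hu'' : u • y₀ = z • y₀ := hu'
  have hv : ((u⁻¹ * z : G) : Equiv.Perm Ω) = 1 := by
    by_contra hne
    have h11 := hsharp _ (u⁻¹ * z).2 hne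
    have h12 : orbit (Subgroup.zpowers f) y₀ ⊆ {x | ((u⁻¹ * z : G) : Equiv.Perm Ω) x = x} := by
      rintro _ ⟨⟨u₁, hu₁⟩, rfl⟩
      show (u⁻¹ * z) • u₁ • y₀ = u₁ • y₀
      have hcu : u₁ * u = u * u₁ := by
        obtain ⟨i, rfl⟩ := Subgroup.mem_zpowers_iff.mp hu
        obtain ⟨j, rfl⟩ := Subgroup.mem_zpowers_iff.mp hu₁
        exact (Commute.refl f).zpow_zpow j i
      rw [mul_smul, ← mul_smul z u₁, hcommu u₁ hu₁, mul_smul, ← hu'', ← mul_smul u₁ u, hcu,
        mul_smul, inv_smul_smul]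
    have h13 := Set.ncard_le_ncard h12 (Set.toFinite _)
    omega
  apply hz
  have hzu : z = u := by
    have h14 : u⁻¹ * z = 1 := Subtype.ext hv
    exact (inv_mul_eq_one.mp h14).symm
  rw [hzu]
  exact hZQ hu

theorem orbit_disjoint {K : Type v} {Ω : Type u} [Group K] [MulAction K Ω] {x z : Ω}
    (h : z ∉ orbit K x) : Disjoint (orbit K x) (orbit K z) := by
  rw [Set.disjoint_left]
  intro y hy hy'
  apply h
  rw [← orbit_eq_iff.mpr hy, orbit_eq_iff.mpr hy']
  exact mem_orbit_self z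

/-- a 4-transitive group of degree 9 with a nonidentity element fixing at least four points
contains a 3-cycle -/
theorem nine_of_fixed {Ω : Type u} [Finite Ω] (G : Subgroup (Equiv.Perm Ω))
    (hcard : Nat.card Ω = 9) (h4 : IsMultiplyPretransitive G Ω 4)
    (hex : ∃ t ∈ G, t ≠ 1 ∧ 4 ≤ {x | t x = x}.ncard) : Marg.Has3 G Ω := by
  classical
  obtain ⟨t, ⟨htG, ht1⟩, hmax⟩ := Set.exists_max_image {t : Equiv.Perm Ω | t ∈ G ∧ t ≠ 1}
    (fun t => {x | t x = x}.ncard) (Set.toFinite _)
    (by obtain ⟨t, h1, h2, _⟩ := hex; exact ⟨t, h1, h2⟩)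
  have hB4 : 4 ≤ {x | t x = x}.ncard := by
    obtain ⟨t', h1, h2, h3⟩ := hex
    exact h3.trans (hmax t' ⟨h1, h2⟩)
  have hsemi : ∀ j : ℕ, ∀ x, t x ≠ x → (t ^ j) x = x → t ^ j = 1 := by
    intro j x hx hjx
    by_contra hne
    have h1 := hmax (t ^ j) ⟨G.pow_mem htG j, hne⟩
    have hsub : insert x {x | t x = x} ⊆ {y | (t ^ j) y = y} := by
      intro y hy
      rcases hy with rfl | hy
      · exact hjx
      · have hy' : t • y = y := hy
        show (t ^ j) • y = y
        exact pow_smul_fixed (K := Equiv.Perm Ω) (x := y) hy' j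
    have h2 := Set.ncard_le_ncard hsub (Set.toFinite _)
    rw [Set.ncard_insert_of_notMem (show x ∉ {x | t x = x} from hx) (Set.toFinite _)] at h2
    have h1' : {x | (t ^ j) x = x}.ncard ≤ {x | t x = x}.ncard := h1
    omega
  have hcardB := Set.ncard_add_ncard_compl {x | t x = x}
  rw [hcard] at hcardB
  have hprim : IsPreprimitive G Ω := by
    have h2 : IsMultiplyPretransitive G Ω 2 :=
      isMultiplyPretransitive_of_le (n := 4) (by omega) (by omega)
    exact isPreprimitive_of_is_two_pretransitive h2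
  have hZG : Subgroup.zpowers t ≤ G := Subgroup.zpowers_le.mpr htG
  have hZfix : ∀ u ∈ Subgroup.zpowers t, ∀ y, t y = y → u • y = y := by
    intro u hu y hy
    have h1 : Subgroup.zpowers t ≤ stabilizer (Equiv.Perm Ω) y :=
      Subgroup.zpowers_le.mpr (mem_stabilizer_iff.mpr hy)
    exact mem_stabilizer_iff.mp (h1 hu)
  have hZmove : ∀ u ∈ Subgroup.zpowers t, ∀ x, t x ≠ x → t (u • x) ≠ u • x := by
    intro u hu x hx h1
    apply hx
    have h2 := hZfix u⁻¹ (inv_mem hu) _ h1
    rw [inv_smul_smul] at h2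
    have h3 : u⁻¹ • t • u • x = x := by
      have h4 : t • u • x = u • x := h1
      rw [h4, inv_smul_smul]
    have hcu : u⁻¹ * t * u = t := by
      obtain ⟨i, rfl⟩ := Subgroup.mem_zpowers_iff.mp hu
      have h5 : t * t ^ i = t ^ i * t := ((Commute.refl t).zpow_right i)
      calc (t ^ i)⁻¹ * t * t ^ i = (t ^ i)⁻¹ * (t * t ^ i) := by group
        _ = (t ^ i)⁻¹ * (t ^ i * t) := by rw [h5]
        _ = t := by group
    rw [← mul_smul, ← mul_smul, hcu] at h3
    exact h3
  have hper : ∀ x, t x ≠ x → Function.minimalPeriod (t • ·) x = orderOf t := by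
    intro x hx
    apply Nat.dvd_antisymm
    · rw [← MulAction.pow_smul_eq_iff_minimalPeriod_dvd, pow_orderOf_eq_one, one_smul]
    · apply orderOf_dvd_of_pow_eq_one
      apply hsemi _ x hx
      exact (MulAction.pow_smul_eq_iff_minimalPeriod_dvd (a := t) (b := x)
        (n := Function.minimalPeriod (t • ·) x)).mpr dvd_rfl
  have hocard : ∀ x, t x ≠ x → (orbit (Subgroup.zpowers t) x).ncard = orderOf t := by
    intro x hx
    have := Fintype.ofFinite (orbit (Subgroup.zpowers t) x)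
    rw [← hper x hx, MulAction.minimalPeriod_eq_card, ← Nat.card_eq_fintype_card,
      Nat.card_coe_set_eq]
  have hosub : ∀ x, t x ≠ x → orbit (Subgroup.zpowers t) x ⊆ {x | t x = x}ᶜ := by
    rintro x hx _ ⟨⟨u, hu⟩, rfl⟩
    exact hZmove u hu x hx
  have hord2 : 2 ≤ orderOf t := by
    have h1 : orderOf t ≠ 1 := fun h => ht1 (orderOf_eq_one_iff.mp h)
    have h2 : 0 < orderOf t := orderOf_pos t
    omega
  obtain ⟨x₀, hx₀⟩ : ∃ x₀, t x₀ ≠ x₀ := by
    by_contra hcon
    push Not at hcon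
    exact ht1 (Equiv.ext hcon)
  by_cases htr : ∀ z, t z ≠ z → z ∈ orbit (Subgroup.zpowers t) x₀
  · -- the cyclic group generated by `t` is transitive on its support
    have hjc : Marg.JC G {x | t x = x} := by
      intro a ha b hb
      obtain ⟨⟨u, hu⟩, hua⟩ := htr a ha
      obtain ⟨⟨u', hu'⟩, hub⟩ := htr b hb
      have hua' : u • x₀ = a := hua
      have hub' : u' • x₀ = b := hub
      refine ⟨⟨u' * u⁻¹, hZG (mul_mem hu' (inv_mem hu))⟩, fun y hy => ?_, ?_⟩
      · exact hZfix _ (mul_mem hu' (inv_mem hu)) y hy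
      · show (u' * u⁻¹) • a = b
        rw [← hua', mul_smul, inv_smul_smul, hub']
    have hs2 : 2 ≤ {x | t x = x}ᶜ.ncard := by
      have h1 := Set.ncard_le_ncard (hosub x₀ hx₀) (Set.toFinite _)
      rw [hocard x₀ hx₀] at h1
      omega
    by_cases hs : {x | t x = x}ᶜ.ncard ≤ 4
    · exact Marg.has3_of_jc 9 G Ω hcard hprim _ hjc hs2 (by omega)
    · have hp5 : Fact (Nat.Prime 5) := ⟨by norm_num⟩
      exact has3_k1 (p := 5) h4 {x | t x = x} (by omega) hjc (by omega) (by norm_num)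
  · -- `t` is a double transposition
    push Not at htr
    obtain ⟨z, hz, hzO⟩ := htr
    have hdisj := orbit_disjoint hzO
    have h9 := Set.ncard_union_eq hdisj (Set.toFinite _) (Set.toFinite _)
    rw [hocard x₀ hx₀, hocard z hz] at h9
    have h10 := Set.ncard_le_ncard (Set.union_subset (hosub x₀ hx₀) (hosub z hz)) (Set.toFinite _)
    have hord : orderOf t = 2 := by omega
    have ht2 : t ^ 2 = 1 := by rw [← hord]; exact pow_orderOf_eq_one t
    have htt : ∀ a, t (t a) = a := by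
      intro a
      have h1 := DFunLike.congr_fun ht2 a
      simpa [sq] using h1
    have hZ2 : ∀ u ∈ Subgroup.zpowers t, u = 1 ∨ u = t := by
      intro u hu
      obtain ⟨i, rfl⟩ := Subgroup.mem_zpowers_iff.mp hu
      have h0 : t ^ i = t ^ (i % 2) := by
        have h00 := zpow_mod_orderOf t i
        rw [hord] at h00
        exact_mod_cast h00.symm
      rw [h0]
      rcases Int.emod_two_eq_zero_or_one i with h1 | h1
      · left; rw [h1, zpow_zero]
      · right; rw [h1, zpow_one]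
    have hmemO : ∀ a b, a ∈ orbit (Subgroup.zpowers t) b → a = b ∨ a = t b := by
      rintro a b ⟨⟨u, hu⟩, rfl⟩
      rcases hZ2 u hu with rfl | rfl
      · left; exact one_smul _ _
      · right; rfl
    have htO : ∀ b, t b ∈ orbit (Subgroup.zpowers t) b :=
      fun b => ⟨⟨t, Subgroup.mem_zpowers t⟩, rfl⟩
    -- the points
    have hxy : x₀ ≠ t x₀ := fun h => hx₀ h.symm
    have hzw : z ≠ t z := fun h => hz h.symm
    have hxz : x₀ ≠ z := fun h => hzO (h ▸ mem_orbit_self x₀)
    have hyz : t x₀ ≠ z := fun h => hzO (h ▸ htO x₀)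
    have hxw : x₀ ≠ t z := fun h =>
      Set.disjoint_left.mp hdisj (mem_orbit_self x₀) (h ▸ htO z)
    have hyw : t x₀ ≠ t z := fun h => hxz (t.injective h)
    have hother : ∀ v, v ≠ x₀ → v ≠ t x₀ → v ≠ z → v ≠ t z → t v = v := by
      intro v hv1 hv2 hv3 hv4
      by_contra hv
      have hvOx : v ∉ orbit (Subgroup.zpowers t) x₀ := by
        intro h
        rcases hmemO _ _ h with h | h
        · exact hv1 h
        · exact hv2 h
      have hvOz : v ∉ orbit (Subgroup.zpowers t) z := by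
        intro h
        rcases hmemO _ _ h with h | h
        · exact hv3 h
        · exact hv4 h
      have hd2 : Disjoint (orbit (Subgroup.zpowers t) x₀ ∪ orbit (Subgroup.zpowers t) z)
          (orbit (Subgroup.zpowers t) v) :=
        Set.disjoint_union_left.mpr ⟨orbit_disjoint hvOx, orbit_disjoint hvOz⟩
      have h11 := Set.ncard_union_eq hd2 (Set.toFinite _) (Set.toFinite _)
      rw [h9, hocard v hv] at h11
      have h12 := Set.ncard_le_ncard (Set.union_subset (Set.union_subset (hosub x₀ hx₀)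
        (hosub z hz)) (hosub v hv)) (Set.toFinite _)
      omega
    obtain ⟨v₀, hv₀⟩ : ∃ v₀, t v₀ = v₀ := by
      have h1 : ({x | t x = x} : Set Ω).Nonempty := by
        rw [← Set.ncard_pos (Set.toFinite _)]
        omega
      exact h1
    have hv₀x : v₀ ≠ x₀ := fun h => hx₀ (h ▸ hv₀)
    have hv₀y : v₀ ≠ t x₀ := fun h => hx₀ (by
      have h1 : t (t x₀) = t x₀ := by rw [← h]; exact hv₀
      rw [htt] at h1
      exact h1.symm)
    have hv₀z : v₀ ≠ z := fun h => hz (h ▸ hv₀)
    have hv₀w : v₀ ≠ t z := fun h => hz (by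
      have h1 : t (t z) = t z := by rw [← h]; exact hv₀
      rw [htt] at h1
      exact h1.symm)
    have hΔ : ({x₀, t x₀, z, t z} : Set Ω).ncard = 4 := by
      rw [Set.ncard_insert_of_notMem (by simp [hxy, hxz, hxw]) (Set.toFinite _),
        Set.ncard_insert_of_notMem (by simp [hyz, hyw]) (Set.toFinite _),
        Set.ncard_insert_of_notMem (by simp [hzw]) (Set.toFinite _), Set.ncard_singleton]
    obtain ⟨g, hg⟩ := exists_agree h4 _ hΔ (Equiv.swap (t z) v₀)
    have hgx : g • x₀ = x₀ := by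
      rw [hg x₀ (by simp), Equiv.swap_apply_of_ne_of_ne hxw (Ne.symm hv₀x)]
    have hgy : g • t x₀ = t x₀ := by
      rw [hg (t x₀) (by simp), Equiv.swap_apply_of_ne_of_ne hyw (Ne.symm hv₀y)]
    have hgz : g • z = z := by
      rw [hg z (by simp), Equiv.swap_apply_of_ne_of_ne hzw (Ne.symm hv₀z)]
    have hgw : g • t z = v₀ := by
      rw [hg (t z) (by simp), Equiv.swap_apply_left]
    have hgx' : g⁻¹ • x₀ = x₀ := by rw [inv_smul_eq_iff, hgx]
    have hgy' : g⁻¹ • t x₀ = t x₀ := by rw [inv_smul_eq_iff, hgy]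
    have hgz' : g⁻¹ • z = z := by rw [inv_smul_eq_iff, hgz]
    have hgv' : g⁻¹ • v₀ = t z := by rw [inv_smul_eq_iff, hgw]
    have hts : ∀ a : Ω, (⟨t, htG⟩ : G) • a = t a := fun a => rfl
    -- conjugate fixes points whose preimage is outside the support
    have hconj : ∀ q, q ≠ x₀ → q ≠ t x₀ → q ≠ z → q ≠ v₀ →
        (g * ⟨t, htG⟩ * g⁻¹) • q = q := by
      intro q h1 h2 h3 h4
      have hu : t (g⁻¹ • q) = g⁻¹ • q := by
        apply hother
        · intro h; apply h1; rw [← smul_inv_smul g q, h, hgx]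
        · intro h; apply h2; rw [← smul_inv_smul g q, h, hgy]
        · intro h; apply h3; rw [← smul_inv_smul g q, h, hgz]
        · intro h; apply h4; rw [← smul_inv_smul g q, h, hgw]
      rw [mul_smul, mul_smul, hts, hu, smul_inv_smul]
    refine ⟨⟨t, htG⟩ * (g * ⟨t, htG⟩ * g⁻¹), z, v₀, t z, Ne.symm hv₀z, hv₀w, hzw, ?_, ?_, ?_, ?_⟩
    · simp only [mul_smul, hts]
      rw [hgz', hgw, hv₀]
    · simp only [mul_smul, hts]
      rw [hgv', htt, hgz]
    · rw [mul_smul, hconj (t z) (Ne.symm hxw) (Ne.symm hyw) (Ne.symm hzw) (Ne.symm hv₀w), hts,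
        htt]
    · intro q hq1 hq2 hq3
      by_cases hqx : q = x₀
      · rw [hqx]
        simp only [mul_smul, hts]
        rw [hgx', hgy, htt]
      by_cases hqy : q = t x₀
      · rw [hqy]
        simp only [mul_smul, hts]
        rw [hgy', htt, hgx]
      rw [mul_smul, hconj q hqx hqy hq1 hq2, hts]
      exact hother q hqx hqy hq1 hq3

/-- a faithful 4-transitive group of degree 9 contains a 3-cycle -/
theorem has3_nine_faithful {Ω : Type u} [Finite Ω] (G : Subgroup (Equiv.Perm Ω))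
    (hcard : Nat.card Ω = 9) (h4 : IsMultiplyPretransitive G Ω 4) : Marg.Has3 G Ω := by
  by_cases hex : ∃ t ∈ G, t ≠ 1 ∧ 4 ≤ {x | t x = x}.ncard
  · exact nine_of_fixed G hcard h4 hex
  · exfalso
    push Not at hex
    exact nine_sharp_false G hcard h4 hex

/-- a 4-transitive group of degree 9 contains a 3-cycle -/
theorem has3_nine (G : Type v) (Ω : Type u) [Group G] [Finite G] [MulAction G Ω] [Finite Ω]
    (hcard : Nat.card Ω = 9) (h4 : IsMultiplyPretransitive G Ω 4) : Marg.Has3 G Ω := by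
  have h4' : IsMultiplyPretransitive (MulAction.toPermHom G Ω).range Ω 4 := by
    refine ⟨fun e e' => ?_⟩
    obtain ⟨g, hg⟩ := h4.exists_smul_eq e e'
    refine ⟨⟨MulAction.toPermHom G Ω g, ⟨g, rfl⟩⟩, ?_⟩
    rw [← hg]
    rfl
  obtain ⟨g, a, b, c, h1, h2, h3, h5, h6, h7, h8⟩ := has3_nine_faithful _ hcard h4'
  obtain ⟨g', hg'⟩ := g.2
  have hgg : ∀ x : Ω, g' • x = g • x := by
    intro x
    show g' • x = (g : Equiv.Perm Ω) x
    rw [← hg']
    rfl
  refine ⟨g', a, b, c, h1, h2, h3, ?_, ?_, ?_, ?_⟩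
  · rw [hgg, h5]
  · rw [hgg, h6]
  · rw [hgg, h7]
  · intro x hx1 hx2 hx3
    rw [hgg, h8 x hx1 hx2 hx3]

end Cfsg.Agent.Lib.Helper99.Mill
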