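import Cfsg.Agent.Lib.Helper99.MillF

set_option autoImplicit false
set_option linter.unusedSectionVars false

open MulAction
open scoped Pointwise

namespace Cfsg.Agent.Lib.Helper99.Mill

universe u v

/-- the inductive step through the fixed points of a Sylow subgroup of the fixer of `r + 1`
points -/
theorem has3_beta {n : ℕ}
    (ih : ∀ m < n, ∀ (G : Type v) (Ω : Type u) [Group G] [Finite G] [MulAction G Ω] [Finite Ω]
      (k p r : ℕ), p.Prime → Nat.card Ω = m → m = k * p + r → 1 ≤ k → k < p → k < r →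
      ¬(k = 1 ∧ r = 2) → IsMultiplyPretransitive G Ω (r + 1) → Marg.Has3 G Ω)
    {G : Type v} {Ω : Type u} [Group G] [Finite G] [MulAction G Ω] [Finite Ω] {k p r : ℕ}
    [hpF : Fact p.Prime] (hn : Nat.card Ω = n) (hnk : n = k * p + r) (hkp : k < p) (hkr : k < r)
    (hr3 : 3 ≤ r) (hT : IsMultiplyPretransitive G Ω (r + 1)) (Γ' : Set Ω)
    (hΓ' : Γ'.ncard = r + 1) (u : G) (hu : IsPGroup p (Subgroup.zpowers u))
    (hfix : ∀ x ∈ Γ', u • x = x) (y : Ω) (huy : u • y ≠ y) : Marg.Has3 G Ω := by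
  classical
  have hp := hpF.out
  have huH : u ∈ fixingSubgroup G Γ' := (mem_fixingSubgroup_iff G).mpr hfix
  have hZ : IsPGroup p ((Subgroup.zpowers u).subgroupOf (fixingSubgroup G Γ')) :=
    hu.comap_subtype
  obtain ⟨P, hP⟩ := hZ.exists_le_sylow
  have hPg : IsPGroup p ((P : Subgroup (fixingSubgroup G Γ')).map
      (fixingSubgroup G Γ').subtype) := P.2.map _
  have huPg : u ∈ (P : Subgroup (fixingSubgroup G Γ')).map (fixingSubgroup G Γ').subtype :=
    ⟨⟨u, huH⟩, hP (Subgroup.mem_subgroupOf.mpr (Subgroup.mem_zpowers u)), rfl⟩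
  have hPgfix : ∀ v ∈ (P : Subgroup (fixingSubgroup G Γ')).map (fixingSubgroup G Γ').subtype,
      ∀ x ∈ Γ', v • x = x := by
    rintro _ ⟨v₀, _, rfl⟩ x hx
    exact (mem_fixingSubgroup_iff G).mp v₀.2 x hx
  generalize hPgdef : (P : Subgroup (fixingSubgroup G Γ')).map (fixingSubgroup G Γ').subtype
    = Pg at hPg huPg hPgfix
  have hΓ'S : Γ' ⊆ (fixSub Ω Pg : Set Ω) := fun x hx v hv => hPgfix v hv x hx
  have hyS : y ∉ fixSub Ω Pg := fun h => huy (h u huPg)
  have hTS : IsMultiplyPretransitive (Subgroup.normalizer (Pg : Set G)) (fixSub Ω Pg)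
      (r + 1) := by
    refine ⟨fun e e' => ?_⟩
    obtain ⟨n, hn, h1⟩ := witt hT Γ' hΓ' P (e.trans (Function.Embedding.subtype _))
      (e'.trans (Function.Embedding.subtype _))
      (fun i v hv => (e i).2 v (hPgdef ▸ hv)) (fun i v hv => (e' i).2 v (hPgdef ▸ hv))
    rw [hPgdef] at hn
    refine ⟨⟨n, hn⟩, ?_⟩
    apply DFunLike.ext
    intro i
    apply Subtype.ext
    exact h1 i
  have hcardS : Nat.card (fixSub Ω Pg) = (fixSub Ω Pg : Set Ω).ncard := Nat.card_coe_set_eq _
  have hs1 : r + 1 ≤ (fixSub Ω Pg : Set Ω).ncard := by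
    rw [← hΓ']
    exact Set.ncard_le_ncard hΓ'S (Set.toFinite _)
  have hs2 : (fixSub Ω Pg : Set Ω).ncard < n := by
    have h1 : (fixSub Ω Pg : Set Ω) ⊂ Set.univ := by
      rw [Set.ssubset_univ_iff]
      intro h
      apply hyS
      have h2 : y ∈ (fixSub Ω Pg : Set Ω) := by rw [h]; exact Set.mem_univ y
      exact h2
    have h2 := Set.ncard_lt_ncard h1 (Set.toFinite _)
    rwa [Set.ncard_univ, hn] at h2
  have hsmod : n ≡ (fixSub Ω Pg : Set Ω).ncard [MOD p] := by
    have h1 := hPg.card_modEq_card_fixedPoints Ω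
    have h2 : fixedPoints Pg Ω = (fixSub Ω Pg : Set Ω) := by
      ext x
      constructor
      · intro hx v hv
        exact hx ⟨v, hv⟩
      · intro hx v
        exact hx v.1 v.2
    rw [Nat.card_coe_set_eq, h2, hn] at h1
    exact h1
  obtain ⟨k', hk'⟩ : ∃ k', (fixSub Ω Pg : Set Ω).ncard = k' * p + r := by
    have h1 : r ≡ (fixSub Ω Pg : Set Ω).ncard [MOD p] := by
      have h0 : n ≡ r [MOD p] := by
        unfold Nat.ModEq
        rw [hnk, Nat.add_comm, Nat.add_mul_mod_self_right]
      exact h0.symm.trans hsmod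
    have h2 : p ∣ (fixSub Ω Pg : Set Ω).ncard - r := (Nat.modEq_iff_dvd' (by omega)).mp h1
    obtain ⟨k', hk'⟩ := h2
    exact ⟨k', by rw [mul_comm]; omega⟩
  have hk'1 : 1 ≤ k' := by
    by_contra hcon
    have h0 : k' = 0 := by omega
    subst h0
    omega
  have hk'k : k' < k := by
    by_contra hcon
    push Not at hcon
    have h0 : k * p ≤ k' * p := Nat.mul_le_mul_right p hcon
    omega
  have h3S : Marg.Has3 (Subgroup.normalizer (Pg : Set G)) (fixSub Ω Pg) :=
    ih _ hs2 _ (fixSub Ω Pg) k' p r hp hcardS hk' hk'1 (by omega) (by omega) (by omega) hTS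
  have hprimS : IsPreprimitive (Subgroup.normalizer (Pg : Set G)) (fixSub Ω Pg) := by
    have h2 : IsMultiplyPretransitive (Subgroup.normalizer (Pg : Set G)) (fixSub Ω Pg) 2 :=
      isMultiplyPretransitive_of_le (n := r + 1) (by omega) (by rw [hcardS]; omega)
    exact isPreprimitive_of_is_two_pretransitive h2
  apply has3_of_subgroup (Subgroup.normalizer (Pg : Set G))
  have hple : p ≤ k' * p := Nat.le_mul_of_pos_left p (by omega)
  have hp2 := hp.two_le
  have hcompl : ((fixSub Ω Pg : Set Ω)ᶜ).ncard = (k - k') * p := by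
    have h1 := Set.ncard_add_ncard_compl (fixSub Ω Pg : Set Ω)
    rw [hn] at h1
    have h2 : (k - k') * p = k * p - k' * p := Nat.sub_mul k k' p
    have h3 := Nat.mul_le_mul_right p hk'k.le
    omega
  exact lift (PnOf Pg) (isPGroup_PnOf Pg hPg) (fixSub Ω Pg) (fun x => (fix_PnOf_iff Pg x).symm)
    (k - k') hcompl (by omega) (by rw [hcardS]; omega)
    (by rw [hcardS]; exact two_mul_factorial_lt (by omega) (by omega)) hprimS h3S

/-- Miller's theorem: an `(r + 1)`-transitive group of degree `k * p + r`, with `p` a prime,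
`1 ≤ k < p`, `k < r` and `(k, r) ≠ (1, 2)`, contains a 3-cycle -/
theorem miller : ∀ (n : ℕ) (G : Type v) (Ω : Type u) [Group G] [Finite G] [MulAction G Ω]
    [Finite Ω] (k p r : ℕ), p.Prime → Nat.card Ω = n → n = k * p + r → 1 ≤ k → k < p → k < r →
    ¬(k = 1 ∧ r = 2) → IsMultiplyPretransitive G Ω (r + 1) → Marg.Has3 G Ω := by
  intro n
  induction n using Nat.strong_induction_on with
  | _ n ih =>
    intro G Ω _ _ _ _ k p r hp hn hnk hk hkp hkr hex hT
    have hpF : Fact p.Prime := ⟨hp⟩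
    have hr3 : 3 ≤ r := by omega
    have hkp0 : 0 < k * p := Nat.mul_pos (by omega) hp.pos
    have hr1n : r + 1 ≤ Nat.card Ω := by omega
    obtain ⟨Γ, -, hΓ⟩ : ∃ Γ ⊆ (Set.univ : Set Ω), Γ.ncard = r :=
      Set.exists_subset_card_eq (by rw [Set.ncard_univ, hn]; omega)
    have hTr : IsMultiplyPretransitive G Ω r :=
      isMultiplyPretransitive_of_le (n := r + 1) (by omega) hr1n
    have hT2 : IsMultiplyPretransitive G Ω 2 :=
      isMultiplyPretransitive_of_le (n := r + 1) (by omega) hr1n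
    have hprim : IsPreprimitive G Ω := isPreprimitive_of_is_two_pretransitive hT2
    have hjc : Marg.JC G Γ := jc_of_succ hT Γ hΓ
    have hcard := Set.ncard_add_ncard_compl Γ
    have hM : Γᶜ.ncard = k * p := by omega
    by_cases hk1 : k = 1
    · subst hk1
      exact has3_k1 hTr Γ hΓ hjc (by rw [hM, one_mul]) hr3
    by_cases hr5 : 5 ≤ r
    · exact has3_direct hTr Γ hΓ hjc hM hkp hkr hr5
    by_cases h24 : k = 2 ∧ r = 4
    · obtain ⟨rfl, rfl⟩ := h24
      have hne : Nonempty Ω := by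
        rw [← Nat.card_pos_iff.trans ⟨fun h => h.1, fun h => ⟨h, inferInstance⟩⟩]
        omega
      obtain ⟨a⟩ := hne
      have hpt : IsPretransitive G Ω := hprim.toIsPretransitive
      have hT' : IsMultiplyPretransitive (stabilizer G a) (SubMulAction.ofStabilizer G a) 4 :=
        (SubMulAction.ofStabilizer.isMultiplyPretransitive (a := a)).mp hT
      have hc' : Nat.card (SubMulAction.ofStabilizer G a) = n - 1 := by
        have h0 := SubMulAction.nat_card_ofStabilizer_add_one_eq G a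
        omega
      have h3 := ih (n - 1) (by omega) (stabilizer G a) (SubMulAction.ofStabilizer G a) 2 p 3 hp
        hc' (by omega) (by norm_num) hkp (by norm_num) (by norm_num) hT'
      obtain ⟨g, x, y, z, h1, h2, h3', h4, h5, h6, h7⟩ := h3
      refine ⟨(g : G), x, y, z, fun h => h1 (Subtype.ext h), fun h => h2 (Subtype.ext h),
        fun h => h3' (Subtype.ext h), congrArg Subtype.val h4, congrArg Subtype.val h5,
        congrArg Subtype.val h6, fun q hq1 hq2 hq3 => ?_⟩
      by_cases hqa : q = a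
      · rw [hqa]
        exact mem_stabilizer_iff.mp g.2
      · have hq : q ∈ SubMulAction.ofStabilizer G a :=
          (SubMulAction.mem_ofStabilizer_iff G a).mpr hqa
        exact congrArg Subtype.val (h7 ⟨q, hq⟩ (fun h => hq1 (congrArg Subtype.val h))
          (fun h => hq2 (congrArg Subtype.val h)) (fun h => hq3 (congrArg Subtype.val h)))
    have hkr' : (k = 2 ∧ r = 3) ∨ (k = 3 ∧ r = 4) := by omega
    by_cases hp3 : p = 3
    · have h23 : k = 2 ∧ r = 3 := by omega
      obtain ⟨rfl, rfl⟩ := h23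
      subst hp3
      exact has3_nine G Ω (by omega) hT
    have hrp : r < p := by
      have h4 : p ≠ 4 := by
        rintro rfl
        exact absurd hp (by norm_num)
      omega
    obtain ⟨Pg, hPg, hfixΓ, hW⟩ := sylow_setup hTr Γ hΓ hjc hM
    by_cases hsemi : ∀ u ∈ Pg, ∀ β, β ∉ Γ → u • β = β → ∀ y : Ω, u • y = y
    · exact has3_alpha hTr Γ hΓ hM hkp hrp hkr' Pg hPg hfixΓ hW hsemi
    · push Not at hsemi
      obtain ⟨u, hu, β, hβ, huβ, y, huy⟩ := hsemi
      refine has3_beta ih hn hnk hkp hkr hr3 hT (insert β Γ)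
        (by rw [Set.ncard_insert_of_notMem hβ (Set.toFinite Γ), hΓ]) u
        (hPg.to_le (Subgroup.zpowers_le.mpr hu)) ?_ y huy
      intro x hx
      rcases hx with rfl | hx
      · exact huβ
      · exact (hfixΓ x).mp hx u hu

end Cfsg.Agent.Lib.Helper99.Mill
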