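import Mathlib

/-!
# Arithmetic of "same-order counts" (helper99)

`Model N s V`: `s m` behaves like the number of elements of order `m` in a group of order `N`
whose set of nonzero same-order counts is `V` (Frobenius divisibility, totient divisibility, ...).
A verified exhaustive search (`searchLoc`, `searchGlob`) over the divisors of a candidate order,
to be evaluated by kernel reduction, and the final criterion `card_eq_of_checks`.
-/

set_option autoImplicit false
set_option linter.unusedSectionVars false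

namespace Cfsg.Agent.Lib.Helper99.Nse

/-- kernel-friendly totient -/
def phiAux (d : ℕ) : ℕ → ℕ
  | 0 => 0
  | k + 1 => (if Nat.gcd d k = 1 then 1 else 0) + phiAux d k

def phi (d : ℕ) : ℕ := phiAux d d

theorem phiAux_eq (d k : ℕ) :
    phiAux d k = ((Finset.range k).filter (fun m => d.Coprime m)).card := by
  induction k with
  | zero => simp [phiAux]
  | succ k ih =>
    rw [phiAux, ih, Finset.range_add_one, Finset.filter_insert]
    by_cases h : Nat.gcd d k = 1
    · have h' : d.Coprime k := h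
      rw [if_pos h, if_pos h', Finset.card_insert_of_notMem (by simp)]
      omega
    · have h' : ¬ d.Coprime k := h
      rw [if_neg h, if_neg h']
      omega

theorem phi_eq (d : ℕ) : phi d = Nat.totient d := by
  rw [phi, phiAux_eq, Nat.totient_eq_card_coprime]

/-- the list of divisors, ascending -/
def divs (N : ℕ) : List ℕ := (List.range (N + 1)).filter (fun d => N % d == 0)

theorem mem_divs {N d : ℕ} (hN : 0 < N) : d ∈ divs N ↔ d ∣ N := by
  simp only [divs, List.mem_filter, List.mem_range, beq_iff_eq]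
  constructor
  · rintro ⟨_, h⟩
    exact Nat.dvd_of_mod_eq_zero h
  · intro h
    exact ⟨Nat.lt_succ_of_le (Nat.le_of_dvd hN h), Nat.mod_eq_zero_of_dvd h⟩

theorem divs_sorted (N : ℕ) : (divs N).Pairwise (· < ·) :=
  List.Pairwise.filter _ List.pairwise_lt_range

/-- sum of the assigned values over the assigned divisors of `d` -/
def sumDiv (asg : List (ℕ × ℕ)) (d : ℕ) : ℕ :=
  ((asg.filter (fun kv => d % kv.1 == 0)).map Prod.snd).sum

/-- the local constraints at `d` for the value `v` -/
def ok (asg : List (ℕ × ℕ)) (d v : ℕ) : Bool :=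
  (d != 1 || v == 1) && ((v + sumDiv asg d) % d == 0) &&
  (v == 0 || (asg.all (fun kv => !(d % kv.1 == 0) || kv.2 != 0) && v % phi d == 0))

/-- local search: is there an assignment on the given divisors satisfying the local constraints -/
def searchLoc (V : List ℕ) : List ℕ → List (ℕ × ℕ) → Bool
  | [], _ => true
  | d :: ds, asg => (0 :: V).any (fun v => ok asg d v && searchLoc V ds ((d, v) :: asg))

/-- global search: moreover the values sum to the budget and every value of `V` is attained -/
def searchGlob (V : List ℕ) : List ℕ → List (ℕ × ℕ) → ℕ → Bool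
  | [], asg, rem => rem == 0 && V.all (fun v => asg.any (fun kv => kv.2 == v))
  | d :: ds, asg, rem =>
    (0 :: V).any (fun v => decide (v ≤ rem) && ok asg d v &&
      searchGlob V ds ((d, v) :: asg) (rem - v))

/-- the arithmetic shadow of "the numbers of elements of each order" -/
structure Model (N : ℕ) (s : ℕ → ℕ) (V : List ℕ) : Prop where
  pos : 0 < N
  one : s 1 = 1
  tot : ∀ m, Nat.totient m ∣ s m
  frob : ∀ m, m ∣ N → m ∣ ∑ d ∈ m.divisors, s d
  total : ∑ d ∈ N.divisors, s d = N
  down : ∀ m d, s m ≠ 0 → d ∣ m → s d ≠ 0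
  dvd : ∀ m, s m ≠ 0 → m ∣ N
  mem : ∀ m, s m ≠ 0 → s m ∈ V
  attained : ∀ v ∈ V, v ≠ 0 ∧ ∃ m, s m = v

theorem sumDiv_eq {s : ℕ → ℕ} {D pre ds : List ℕ} {d : ℕ} (hD : D = pre ++ d :: ds)
    (hsort : D.Pairwise (· < ·)) (hclosed : ∀ k, k ∣ d → k ∈ D) :
    sumDiv ((pre.map (fun k => (k, s k))).reverse) d = ∑ k ∈ d.properDivisors, s k := by
  have h1 : sumDiv ((pre.map (fun k => (k, s k))).reverse) d =
      ((pre.filter (fun k => d % k == 0)).map s).sum := by
    unfold sumDiv
    rw [List.filter_reverse, List.map_reverse, List.sum_reverse, List.filter_map, List.map_map]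
    rfl
  rw [hD] at hsort
  obtain ⟨hpre, hrest, hlt⟩ := List.pairwise_append.mp hsort
  rw [h1, ← List.sum_toFinset]
  · apply Finset.sum_congr _ (fun _ _ => rfl)
    ext k
    simp only [List.mem_toFinset, List.mem_filter, beq_iff_eq, Nat.mem_properDivisors]
    constructor
    · rintro ⟨hk, hmod⟩
      exact ⟨Nat.dvd_of_mod_eq_zero hmod, hlt k hk d List.mem_cons_self⟩
    · rintro ⟨hkd, hkl⟩
      refine ⟨?_, Nat.mod_eq_zero_of_dvd hkd⟩
      have hk := hclosed k hkd
      rw [hD] at hk
      rcases List.mem_append.mp hk with hk | hk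
      · exact hk
      · rcases List.mem_cons.mp hk with rfl | hk
        · omega
        · have := (List.pairwise_cons.mp hrest).1 k hk
          omega
  · exact (hpre.imp (fun h => h.ne)).filter _

theorem ok_sound {N : ℕ} {s : ℕ → ℕ} {V : List ℕ} (h : Model N s V) {D pre ds : List ℕ} {d : ℕ}
    (hD : D = pre ++ d :: ds) (hsort : D.Pairwise (· < ·)) (hdvd : ∀ k ∈ D, k ∣ N)
    (hclosed : ∀ k ∈ D, ∀ j, j ∣ k → j ∈ D) :
    ok ((pre.map (fun k => (k, s k))).reverse) d (s d) = true := by
  have hdD : d ∈ D := by rw [hD]; simp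
  have hdN : d ∣ N := hdvd d hdD
  have hdpos : 0 < d := Nat.pos_of_dvd_of_pos hdN h.pos
  unfold ok
  rw [Bool.and_eq_true, Bool.and_eq_true]
  refine ⟨⟨?_, ?_⟩, ?_⟩
  · by_cases hd1 : d = 1
    · subst hd1
      simp [h.one]
    · simp [hd1]
  · rw [sumDiv_eq hD hsort (hclosed d hdD)]
    have h1 := h.frob d hdN
    rw [← Nat.insert_self_properDivisors hdpos.ne',
      Finset.sum_insert Nat.self_notMem_properDivisors] at h1
    simpa using Nat.mod_eq_zero_of_dvd h1
  · by_cases h0 : s d = 0
    · simp [h0]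
    · rw [Bool.or_eq_true, Bool.and_eq_true]
      right
      constructor
      · rw [List.all_eq_true]
        intro kv hkv
        rw [List.mem_reverse, List.mem_map] at hkv
        obtain ⟨k, _, rfl⟩ := hkv
        by_cases hkd : d % k = 0
        · have := h.down d k h0 (Nat.dvd_of_mod_eq_zero hkd)
          simp [this]
        · simp [hkd]
      · rw [phi_eq]
        simpa using Nat.mod_eq_zero_of_dvd (h.tot d)

theorem searchLoc_aux {N : ℕ} {s : ℕ → ℕ} {V : List ℕ} (h : Model N s V) {D : List ℕ}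
    (hsort : D.Pairwise (· < ·)) (hdvd : ∀ k ∈ D, k ∣ N)
    (hclosed : ∀ k ∈ D, ∀ j, j ∣ k → j ∈ D) :
    ∀ (rest pre : List ℕ), D = pre ++ rest →
      searchLoc V rest ((pre.map (fun k => (k, s k))).reverse) = true := by
  intro rest
  induction rest with
  | nil => intro pre _; rfl
  | cons d ds ih =>
    intro pre hD
    rw [searchLoc, List.any_eq_true]
    refine ⟨s d, ?_, ?_⟩
    · by_cases h0 : s d = 0
      · rw [h0]; exact List.mem_cons_self
      · exact List.mem_cons_of_mem _ (h.mem d h0)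
    · rw [Bool.and_eq_true]
      refine ⟨ok_sound h hD hsort hdvd hclosed, ?_⟩
      have h2 := ih (pre ++ [d]) (by rw [hD]; simp)
      simpa using h2

theorem searchLoc_true {N : ℕ} {s : ℕ → ℕ} {V : List ℕ} (h : Model N s V) {Q : ℕ} (hQ : Q ∣ N) :
    searchLoc V (divs Q) [] = true := by
  have hQpos : 0 < Q := Nat.pos_of_dvd_of_pos hQ h.pos
  exact searchLoc_aux h (divs_sorted Q) (fun k hk => ((mem_divs hQpos).mp hk).trans hQ)
    (fun k hk j hj => (mem_divs hQpos).mpr (hj.trans ((mem_divs hQpos).mp hk))) (divs Q) [] rfl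

theorem searchGlob_aux {N : ℕ} {s : ℕ → ℕ} {V : List ℕ} (h : Model N s V) {D : List ℕ}
    (hsort : D.Pairwise (· < ·)) (hdvd : ∀ k, k ∈ D ↔ k ∣ N) :
    ∀ (rest pre : List ℕ), D = pre ++ rest →
      searchGlob V rest ((pre.map (fun k => (k, s k))).reverse) ((rest.map s).sum) = true := by
  intro rest
  induction rest with
  | nil =>
    intro pre hD
    rw [searchGlob, Bool.and_eq_true, List.all_eq_true]
    refine ⟨by simp, ?_⟩
    intro v hv
    obtain ⟨hv0, m, hm⟩ := h.attained v hv
    rw [List.any_eq_true]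
    have hmN : m ∣ N := h.dvd m (by rw [hm]; exact hv0)
    have hmD : m ∈ pre := by
      have := (hdvd m).mpr hmN
      rwa [hD, List.append_nil] at this
    refine ⟨(m, s m), ?_, by simp [hm]⟩
    rw [List.mem_reverse, List.mem_map]
    exact ⟨m, hmD, rfl⟩
  | cons d ds ih =>
    intro pre hD
    rw [searchGlob, List.any_eq_true]
    refine ⟨s d, ?_, ?_⟩
    · by_cases h0 : s d = 0
      · rw [h0]; exact List.mem_cons_self
      · exact List.mem_cons_of_mem _ (h.mem d h0)
    · rw [Bool.and_eq_true, Bool.and_eq_true]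
      refine ⟨⟨?_, ok_sound h hD hsort (fun k hk => (hdvd k).mp hk)
        (fun k hk j hj => (hdvd j).mpr (hj.trans ((hdvd k).mp hk)))⟩, ?_⟩
      · simp
      · have h2 := ih (pre ++ [d]) (by rw [hD]; simp)
        simpa using h2

theorem searchGlob_true {N : ℕ} {s : ℕ → ℕ} {V : List ℕ} (h : Model N s V) :
    searchGlob V (divs N) [] N = true := by
  have h1 := searchGlob_aux h (divs_sorted N) (fun k => mem_divs h.pos) (divs N) [] rfl
  have h2 : ((divs N).map s).sum = N := by
    rw [← List.sum_toFinset s ((divs_sorted N).imp (fun h => h.ne))]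
    have h3 : (divs N).toFinset = N.divisors := by
      ext k
      rw [List.mem_toFinset, mem_divs h.pos, Nat.mem_divisors]
      exact ⟨fun hk => ⟨hk, h.pos.ne'⟩, fun hk => hk.1⟩
    rw [h3, h.total]
  rw [h2] at h1
  exact h1

theorem prime_le {N : ℕ} {s : ℕ → ℕ} {V : List ℕ} (h : Model N s V) {p : ℕ} (hp : p.Prime)
    (hpN : p ∣ N) : ∃ v ∈ V, p ≤ v + 1 := by
  have h1 := h.frob p hpN
  rw [Nat.Prime.divisors hp, Finset.sum_pair hp.one_lt.ne, h.one] at h1
  have h2 : s p ≠ 0 := by
    intro h0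
    rw [h0] at h1
    exact hp.one_lt.ne' (Nat.dvd_one.mp h1)
  exact ⟨s p, h.mem p h2, by have := Nat.le_of_dvd (by omega) h1; omega⟩

theorem dvd_prod_of_smooth : ∀ (P : List (ℕ × ℕ)) (N : ℕ), N ≠ 0 →
    (∀ p, p.Prime → p ∣ N → ∃ pe ∈ P, pe.1 = p) →
    (∀ pe ∈ P, pe.1 ≠ 1 ∧ ¬ pe.1 ^ (pe.2 + 1) ∣ N) →
    N ∣ (P.map (fun pe => pe.1 ^ pe.2)).prod
  | [], N, _, h1, _ => by
    have hN1 : N = 1 := by
      by_contra hne
      obtain ⟨p, hp, hpN⟩ := Nat.exists_prime_and_dvd hne
      obtain ⟨pe, hpe, _⟩ := h1 p hp hpN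
      simp at hpe
    simp [hN1]
  | (p, e) :: P, N, hN, h1, h2 => by
    obtain ⟨hp1, hpe⟩ := h2 (p, e) List.mem_cons_self
    obtain ⟨a, N', hN', rfl⟩ := Nat.exists_eq_pow_mul_and_not_dvd hN p hp1
    have ha : a ≤ e := by
      by_contra hlt
      push Not at hlt
      exact hpe (Dvd.dvd.mul_right (pow_dvd_pow p hlt) N')
    have hN'0 : N' ≠ 0 := by
      rintro rfl
      simp at hN
    have ih := dvd_prod_of_smooth P N' hN'0 (fun r hr hrN' => by
        obtain ⟨pe, hmem, hpe1⟩ := h1 r hr (Dvd.dvd.mul_left hrN' _)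
        rcases List.mem_cons.mp hmem with rfl | hmem
        · have hpr : p = r := hpe1
          rw [hpr] at hN'
          exact absurd hrN' hN'
        · exact ⟨pe, hmem, hpe1⟩)
      (fun pe hmem => ⟨(h2 pe (List.mem_cons_of_mem _ hmem)).1,
        fun hd => (h2 pe (List.mem_cons_of_mem _ hmem)).2 (hd.trans (Dvd.intro_left _ rfl))⟩)
    simp only [List.map_cons, List.prod_cons]
    exact Nat.mul_dvd_mul (pow_dvd_pow p ha) ih

/-- The criterion: all checks are closed Boolean computations. -/
theorem card_eq_of_checks {N : ℕ} {s : ℕ → ℕ} {V : List ℕ} (h : Model N s V)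
    (P : List (ℕ × ℕ)) (B N0 : ℕ) (forb : List ℕ)
    (c1 : V.all (fun v => decide (v < B)) = true)
    (c2 : (List.range (B + 1)).all (fun p => P.any (fun pe => pe.1 == p) ||
        !(searchLoc V (divs p) []) || decide (p < 2) ||
        [2, 3, 5, 7, 11, 13].any (fun k => decide (k < p) && p % k == 0)) = true)
    (c3 : P.all (fun pe => pe.1 != 1 && !(searchLoc V (divs (pe.1 ^ (pe.2 + 1))) [])) = true)
    (c4 : forb.all (fun q => !(searchLoc V (divs q) [])) = true)
    (c5 : 0 < (P.map (fun pe => pe.1 ^ pe.2)).prod)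
    (c6 : (divs ((P.map (fun pe => pe.1 ^ pe.2)).prod)).all (fun n => n == N0 ||
        forb.any (fun q => n % q == 0) || !(searchGlob V (divs n) [] n)) = true) :
    N = N0 := by
  have hprime : ∀ p, p.Prime → p ∣ N → ∃ pe ∈ P, pe.1 = p := by
    intro p hp hpN
    obtain ⟨v, hv, hle⟩ := prime_le h hp hpN
    have hvB := of_decide_eq_true (List.all_eq_true.mp c1 v hv)
    have hmem : p ∈ List.range (B + 1) := List.mem_range.mpr (by omega)
    have h3 := List.all_eq_true.mp c2 p hmem
    simp only [Bool.or_eq_true, List.any_eq_true, beq_iff_eq, Bool.not_eq_true',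
      decide_eq_true_eq, Bool.and_eq_true] at h3
    rcases h3 with ((h1 | h1) | h1) | h1
    · exact h1
    · rw [searchLoc_true h hpN] at h1
      exact absurd h1 (by simp)
    · exact absurd hp.two_le (by omega)
    · obtain ⟨k, hk, hkp, hmod⟩ := h1
      have hkd : k ∣ p := Nat.dvd_of_mod_eq_zero hmod
      rcases (Nat.dvd_prime hp).mp hkd with rfl | rfl
      · simp at hk
      · omega
  have hpp : ∀ pe ∈ P, pe.1 ≠ 1 ∧ ¬ pe.1 ^ (pe.2 + 1) ∣ N := by
    intro pe hpe
    have h3 := List.all_eq_true.mp c3 pe hpe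
    simp only [Bool.and_eq_true, bne_iff_ne, ne_eq, Bool.not_eq_true'] at h3
    refine ⟨h3.1, fun hd => ?_⟩
    rw [searchLoc_true h hd] at h3
    exact absurd h3.2 (by simp)
  have hNM := dvd_prod_of_smooth P N h.pos.ne' hprime hpp
  have hmem : N ∈ divs ((P.map (fun pe => pe.1 ^ pe.2)).prod) := (mem_divs c5).mpr hNM
  have h3 := List.all_eq_true.mp c6 N hmem
  simp only [Bool.or_eq_true, beq_iff_eq, List.any_eq_true, Bool.not_eq_true'] at h3
  rcases h3 with (h1 | ⟨q, hq, hmod⟩) | h1
  · exact h1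
  · have hqN : q ∣ N := Nat.dvd_of_mod_eq_zero hmod
    have h4 := List.all_eq_true.mp c4 q hq
    rw [searchLoc_true h hqN] at h4
    simp at h4
  · rw [searchGlob_true h] at h1
    simp at h1

end Cfsg.Agent.Lib.Helper99.Nse
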