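import Cfsg.Agent.Lib.Helper99.NseA

/-!
# The three arithmetic models for A₄, A₅, A₆ (helper99)
-/

set_option autoImplicit false
set_option linter.unusedSectionVars false

namespace Cfsg.Agent.Lib.Helper99.Nse

set_option maxRecDepth 1000000 in
theorem card_A4 {N : ℕ} {s : ℕ → ℕ} (h : Model N s [1, 3, 8]) : N = 12 :=
  card_eq_of_checks h [(2, 2), (3, 2)] 9 12 [] (by decide +kernel) (by decide +kernel)
    (by decide +kernel) (by decide +kernel) (by decide +kernel) (by decide +kernel)

set_option maxRecDepth 1000000 in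
theorem card_A5 {N : ℕ} {s : ℕ → ℕ} (h : Model N s [1, 15, 20, 24]) : N = 60 :=
  card_eq_of_checks h [(2, 6), (3, 2), (5, 2)] 25 60 [24, 45, 75, 80, 100] (by decide +kernel)
    (by decide +kernel) (by decide +kernel) (by decide +kernel) (by decide +kernel)
    (by decide +kernel)

set_option maxRecDepth 1000000 in
theorem card_A6 {N : ℕ} {s : ℕ → ℕ} (h : Model N s [1, 45, 80, 90, 144]) : N = 360 :=
  card_eq_of_checks h [(2, 3), (3, 4), (5, 2), (7, 1)] 145 360 [28, 35, 75, 108, 135, 189, 200]
    (by decide +kernel) (by decide +kernel) (by decide +kernel) (by decide +kernel)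
    (by decide +kernel) (by decide +kernel)

end Cfsg.Agent.Lib.Helper99.Nse
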