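import Mathlib
import Cfsg.Agent.Lib.Helper27.OzStmt
import Cfsg.Agent.Lib.Helper86.TabGrp
import Cfsg.Agent.Lib.Helper86.ChainEnum

/-! Piece NONCEN of S5388: a monomial automorphism commuting with the sign change on the
complement of the octad has a commutator with an element of the extraspecial group that is not
central in it. -/

set_option autoImplicit false

namespace Cfsg.Agent.Lib.Helper99.OzNONCEN

open Cfsg Cfsg.Agent.Lib.Helper92.LeechCore Cfsg.Agent.Lib.Helper92.MinVec
open Cfsg.Agent.Lib.Helper92.MaxMono Cfsg.Agent.Lib.Helper92.NormalMono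
open Cfsg.Agent.Lib.Helper7.GolayBase Cfsg.Agent.Lib.Helper7.GolayCode
open Cfsg.Agent.Lib.Helper7.M24Main Cfsg.Agent.Lib.Helper26.OctadStab
open Cfsg.Agent.Lib.Helper7.M24Mem Cfsg.Agent.Lib.Helper7.GolayPerm
open Cfsg.Agent.Lib.Helper86.TabGrp Cfsg.Agent.Lib.Helper86.ChainEnum
open Cfsg.Agent.Lib.Helper27.CzStmt Cfsg.Agent.Lib.Helper27.OzStmt
open scoped Pointwise

/-- the table of an involution of the group of the code stabilising the octad -/
def tpi : List ℕ :=
  [1, 0, 5, 14, 12, 2, 9, 22, 20, 6, 11, 10, 4, 18, 3, 19, 21, 23, 13, 15, 8, 16, 7, 17]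

/-- the mask of an octad inside the complement of the octad -/
def MC : ℕ := 0x6920d0

/-- the mask of the sum of that octad and its image -/
def M2 : ℕ := 0xcb250

theorem tpi_inv : invOK tpi tpi = true := by decide +kernel

theorem tpi_m24 : inM24T tpi = true := by decide +kernel

theorem hMCcw : IsCW (mk MC) := mk_mem_supports (inCode_sound (by decide +kernel))

theorem hM2cw : IsCW (mk M2) := mk_mem_supports (inCode_sound (by decide +kernel))

theorem sub_Dset {m : ℕ} (h : ∀ i < 24, m.testBit i = true → DM.testBit i = true) :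
    mk m ⊆ Dset := by
  intro p hp
  rw [mem_Dset]
  rw [mem_mk] at hp
  exact h _ (idx_lt p) hp

theorem hMCsub : mk MC ⊆ Dset := sub_Dset (by decide +kernel)

theorem hM2sub : mk M2 ⊆ Dset := sub_Dset (by decide +kernel)

theorem hM2ne : mk M2 ≠ ∅ := by
  intro h
  have h5 : M2 = 0 := mk_injOn (by decide) (by decide) (h.trans mk_zero.symm)
  revert h5
  decide

theorem hM2neD : mk M2 ≠ Dset := by
  intro h
  have h5 : M2 = DM := mk_injOn (by decide) (by decide) h
  revert h5
  decide

theorem eps_congr {c c' : Finset GolayPt} (h : c = c') (hc : IsCW c) (hc' : IsCW c') :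
    eps c hc = eps c' hc' := by
  subst h
  rfl

theorem eps_inv (c : Finset GolayPt) (hc : IsCW c) : (eps c hc)⁻¹ = eps c hc := by
  apply inv_eq_of_mul_eq_one_left
  rw [eps_mul]
  exact (eps_congr (symmDiff_self c) _ empty_mem).trans eps_empty

theorem main : Cfsg.Agent.Lib.Helper27.OzStmt.NonCen := by
  intro hK K hKmem
  obtain ⟨π, hπ, -, hrep'⟩ := exists_M24_of_table tpi tpi tpi_inv tpi_m24
  have hπD : π • Dset = Dset := by
    have h1 : permMask tpi DM = DM := by decide +kernel
    have h2 := mk_permMask hrep' DM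
    rw [h1] at h2
    exact h2.symm
  have hc' : symmDiff (π • mk MC) (mk MC) = mk M2 := by
    have h1 : permMask tpi MC ^^^ MC = M2 := by decide +kernel
    rw [← mk_permMask hrep' MC, ← mk_xor, h1]
  refine ⟨mono π hπ ∅ empty_mem, ?_, eps (mk MC) hMCcw, ?_, ?_⟩
  · have h := eps_conj π hπ Dset hD
    have h2 : eps (π • Dset) (smul_mem_supports hπ hD) = eps Dset hD := eps_congr hπD _ _
    rw [h2] at h
    calc mono π hπ ∅ empty_mem * eps Dset hD
        = (mono π hπ ∅ empty_mem * eps Dset hD * (mono π hπ ∅ empty_mem)⁻¹)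
          * mono π hπ ∅ empty_mem := by group
      _ = eps Dset hD * mono π hπ ∅ empty_mem := by rw [h]
  · rw [hKmem]
    exact ⟨1, M24.one_mem, mk MC, hMCcw, fun p _ => rfl, hMCsub, rfl⟩
  · have hcomm : mono π hπ ∅ empty_mem * eps (mk MC) hMCcw * (mono π hπ ∅ empty_mem)⁻¹
        * (eps (mk MC) hMCcw)⁻¹ = eps (mk M2) hM2cw := by
      rw [eps_conj π hπ (mk MC) hMCcw, eps_inv, eps_mul]
      exact eps_congr hc' _ _
    obtain ⟨σ, hσ, hσc⟩ := hK.2.2.2 (mk M2) hM2cw hM2sub hM2ne hM2neD
    refine ⟨mono σ (mem_fix.mp hσ).1 ∅ empty_mem, ?_, ?_⟩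
    · rw [hKmem]
      exact ⟨σ, (mem_fix.mp hσ).1, ∅, empty_mem, (mem_fix.mp hσ).2, Finset.empty_subset _, rfl⟩
    · rw [hcomm]
      intro h
      have h3 := eps_conj σ (mem_fix.mp hσ).1 (mk M2) hM2cw
      rw [← h, mul_inv_cancel_right] at h3
      exact hσc (eps_inj h3).symm

end Cfsg.Agent.Lib.Helper99.OzNONCEN
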