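import Mathlib
import Cfsg.Agent.Lib.Helper27.OzStmt

/-! Piece WCONJ of S5388: a conjugate of the sign change on the complement of the octad, other
than itself, whose negative is the sign change on a code word inside that complement. -/

set_option autoImplicit false

namespace Cfsg.Agent.Lib.Helper99.OzWCONJ

open Cfsg Cfsg.Agent.Lib.Helper92.LeechCore Cfsg.Agent.Lib.Helper92.MinVec
open Cfsg.Agent.Lib.Helper92.MaxMono Cfsg.Agent.Lib.Helper92.NormalMono
open Cfsg.Agent.Lib.Helper7.GolayBase Cfsg.Agent.Lib.Helper7.GolayCode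
open Cfsg.Agent.Lib.Helper7.M24Main Cfsg.Agent.Lib.Helper26.OctadStab
open Cfsg.Agent.Lib.Helper7.M24Mem
open Cfsg.Agent.Lib.Helper27.CzStmt Cfsg.Agent.Lib.Helper27.OzStmt
open scoped Pointwise

/-- the mask of an octad inside the complement of the octad -/
def M1 : ℕ := 0x527c0

theorem hM1cw : IsCW (mk M1) := mk_mem_supports (inCode_sound (by decide +kernel))

theorem hM1oct : mk M1 ∈ octads := by
  refine ⟨hM1cw, ?_⟩
  rw [card_mk]
  decide +kernel

theorem hM1sub : mk M1 ⊆ Dset := by
  intro p hp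
  rw [mem_Dset]
  rw [mem_mk] at hp
  have h : ∀ i < 24, M1.testBit i = true → DM.testBit i = true := by decide +kernel
  exact h _ (idx_lt p) hp

theorem Dset_eq : Dset = Finset.univ \ Oset := by
  ext p
  rw [mem_Dset, Finset.mem_sdiff, mem_Oset]
  have h : ∀ i < 24, (DM.testBit i = true ↔ ¬ OM.testBit i = true) := by decide +kernel
  simp only [Finset.mem_univ, true_and]
  exact h _ (idx_lt p)

theorem eps_congr {c c' : Finset GolayPt} (h : c = c') (hc : IsCW c) (hc' : IsCW c') :
    eps c hc = eps c' hc' := by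
  subst h
  rfl

theorem main : Cfsg.Agent.Lib.Helper27.OzStmt.WConj := by
  obtain ⟨σ, hσ, -, hσO⟩ := move_octad [] List.nodup_nil (by simp) hO hM1oct
    (by simp) (by simp)
  have hσD : σ • Dset = Finset.univ \ mk M1 := by
    rw [Dset_eq, Finset.smul_finset_sdiff, Finset.smul_finset_univ, hσO]
  refine ⟨mono σ hσ ∅ empty_mem, ⟨mk M1, hM1cw, hM1sub, ?_⟩, ?_⟩
  · rw [eps_conj σ hσ Dset hD, ← eps_univ, eps_mul]
    apply eps_congr
    rw [hσD]
    ext p
    simp [Finset.mem_symmDiff]
  · rw [eps_conj σ hσ Dset hD]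
    intro h
    have h2 := eps_inj h
    rw [hσD, Dset_eq] at h2
    have h3 : mk M1 = Oset := by
      ext p
      have h4 : p ∈ Finset.univ \ mk M1 ↔ p ∈ Finset.univ \ Oset := by rw [h2]
      simp only [Finset.mem_sdiff, Finset.mem_univ, true_and] at h4
      exact not_iff_not.mp h4
    have h5 : M1 = OM := mk_injOn (by decide) (by decide) h3
    revert h5
    decide

end Cfsg.Agent.Lib.Helper99.OzWCONJ
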