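import Cfsg.Agent.Lib.Helper46.PsuStmt
import Cfsg.Agent.Lib.Helper52.PslP7c

/-!
# Piece DOPP of S5172: the opposite elements of the radical subgroups
-/

set_option autoImplicit false

namespace Cfsg.Agent.Lib.Helper99.PsuDOPP

open Matrix Cfsg.Agent.Lib.Helper43.SUBase Cfsg.Agent.H84.PslDefs
  Cfsg.Agent.Lib.Helper46.PsuDefs Cfsg.Agent.Lib.Helper46.PsuStmt

universe u

/-- the common argument for both radical subgroups `GJ ⊓ sub lam` -/
theorem opp (hLC : LiftConj.{u}) (hNL : NormalLam.{u}) (n : ℕ) (K : Type u) [Field K] [Fintype K]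
    (q : ℕ) (D : QD K q) (hn : 4 ≤ n) (lam : Fin n → ℤ)
    (w : ↥(GJ D n))
    (hwlam : ∀ i j : Fin n, lam i < lam j → (w : SpecialLinearGroup (Fin n) K) i j = 0)
    (hwU : ∀ u ∈ UJ D n, (w : SpecialLinearGroup (Fin n) K) * u *
      (w : SpecialLinearGroup (Fin n) K)⁻¹ ∈ UJ D n → u ∈ GJ D n ⊓ sub n K lam) :
    ∃ x ∈ Subgroup.normalizer
        ((((GJ D n ⊓ sub n K lam).subgroupOf (GJ D n)).map (prJ D n) : Subgroup (PGJ D n)) :
          Set (PGJ D n)),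
      ∀ y ∈ Ubar D n, x * y * x⁻¹ ∈ Ubar D n →
        y ∈ ((GJ D n ⊓ sub n K lam).subgroupOf (GJ D n)).map (prJ D n) := by
  classical
  have hfin : Finite (PGJ D n) := inferInstance
  refine ⟨prJ D n w, ?_, ?_⟩
  · apply Cfsg.Agent.Lib.Helper52.PslP7c.mem_normalizer_of_conj
    rintro _ ⟨r, hr, rfl⟩
    rw [← map_inv, ← map_mul, ← map_mul]
    refine Subgroup.mem_map_of_mem _ ?_
    refine Subgroup.mem_subgroupOf.2 (Subgroup.mem_inf.2 ⟨(w * r * w⁻¹ : ↥(GJ D n)).2, ?_⟩)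
    have h1 := hNL n K lam (w : SpecialLinearGroup (Fin n) K) hwlam
      (r : SpecialLinearGroup (Fin n) K) (Subgroup.mem_inf.1 (Subgroup.mem_subgroupOf.1 hr)).2
    exact h1
  · rintro _ ⟨u, hu, rfl⟩ hy
    rw [← map_inv, ← map_mul, ← map_mul] at hy
    have hu' : (u : SpecialLinearGroup (Fin n) K) ∈ UJ D n := Subgroup.mem_subgroupOf.1 hu
    have h1 := hLC n K q D hn w u hu' hy
    refine Subgroup.mem_map_of_mem _ (Subgroup.mem_subgroupOf.2 ?_)
    exact hwU _ hu' h1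

theorem main : Cfsg.Agent.Lib.Helper46.PsuStmt.DataOppOfParts.{u} := by
  intro hLC hNL hIW hIC n K _ _ q D hn R hR
  simp only [Rset, Set.mem_insert_iff, Set.mem_singleton_iff] at hR
  rcases hR with rfl | rfl
  · obtain ⟨w, hwG, hwlam, hwU⟩ := hIW n K q D hn
    exact opp hLC hNL n K q D hn (lamW n) ⟨w, hwG⟩ hwlam hwU
  · obtain ⟨w, hwG, hwlam, hwU⟩ := hIC n K q D hn
    exact opp hLC hNL n K q D hn (lamC n) ⟨w, hwG⟩ hwlam hwU

end Cfsg.Agent.Lib.Helper99.PsuDOPP
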