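import Cfsg.Agent.Lib.Helper46.PsuStmt

/-!
# Piece DRNP of S5172: the radical subgroups lie in `Ubar` and are normalized by it
-/

set_option autoImplicit false

namespace Cfsg.Agent.Lib.Helper99.PsuDRNP

open Matrix Cfsg.Agent.Lib.Helper43.SUBase Cfsg.Agent.H84.PslDefs
  Cfsg.Agent.Lib.Helper46.PsuDefs Cfsg.Agent.Lib.Helper46.PsuStmt

universe u

/-- an element of `UJ` conjugates `GJ ⊓ sub lam` into itself when `lam` is antitone -/
theorem conj_mem (hNL : NormalLam.{u}) (n : ℕ) (K : Type u) [Field K] (q : ℕ) (D : QD K q)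
    (lam : Fin n → ℤ) (hlam : ∀ i j : Fin n, i ≤ j → lam j ≤ lam i)
    (s r : ↥(GJ D n)) (hs : (s : SpecialLinearGroup (Fin n) K) ∈ UJ D n)
    (hr : (r : SpecialLinearGroup (Fin n) K) ∈ GJ D n ⊓ sub n K lam) :
    ((s * r * s⁻¹ : ↥(GJ D n)) : SpecialLinearGroup (Fin n) K) ∈ GJ D n ⊓ sub n K lam := by
  refine Subgroup.mem_inf.2 ⟨(s * r * s⁻¹).2, ?_⟩
  have hs' := (mem_UJ D n _).1 hs
  have h1 : ∀ k l : Fin n, lam k < lam l → (s : SpecialLinearGroup (Fin n) K) k l = 0 := by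
    intro k l hkl
    apply hs'.2.1 k l
    by_contra hcon
    have hle : k ≤ l := not_lt.1 hcon
    have := hlam k l hle
    omega
  exact hNL n K lam (s : SpecialLinearGroup (Fin n) K) h1 _ (Subgroup.mem_inf.1 hr).2

theorem main : Cfsg.Agent.Lib.Helper46.PsuStmt.DataRadOfParts.{u} := by
  intro hNL n K _ _ q D hn R hR
  simp only [Rset, Set.mem_insert_iff, Set.mem_singleton_iff] at hR
  rcases hR with rfl | rfl
  · refine ⟨?_, ?_⟩
    · apply Subgroup.map_mono
      intro x hx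
      exact Subgroup.mem_subgroupOf.2 (QW_le_UJ D n (Subgroup.mem_subgroupOf.1 hx))
    · rintro _ ⟨s, hs, rfl⟩ _ ⟨r, hr, rfl⟩
      rw [← map_inv, ← map_mul, ← map_mul]
      refine Subgroup.mem_map_of_mem _ ?_
      exact Subgroup.mem_subgroupOf.2
        (conj_mem hNL n K q D (lamW n) (lamW_antitone n) s r (Subgroup.mem_subgroupOf.1 hs)
          (Subgroup.mem_subgroupOf.1 hr))
  · refine ⟨?_, ?_⟩
    · apply Subgroup.map_mono
      intro x hx
      exact Subgroup.mem_subgroupOf.2 (RC_le_UJ D n (Subgroup.mem_subgroupOf.1 hx))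
    · rintro _ ⟨s, hs, rfl⟩ _ ⟨r, hr, rfl⟩
      rw [← map_inv, ← map_mul, ← map_mul]
      refine Subgroup.mem_map_of_mem _ ?_
      exact Subgroup.mem_subgroupOf.2
        (conj_mem hNL n K q D (lamC n) (lamC_antitone n) s r (Subgroup.mem_subgroupOf.1 hs)
          (Subgroup.mem_subgroupOf.1 hr))

end Cfsg.Agent.Lib.Helper99.PsuDRNP
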