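import Cfsg.Agent.Lib.Helper46.PsuStmt

/-!
# Piece NBP of S5172: the normalizer of `Ubar` is the image of the Borel subgroup
-/

set_option autoImplicit false

namespace Cfsg.Agent.Lib.Helper99.PsuNBP

open Matrix Cfsg.Agent.Lib.Helper43.SUBase Cfsg.Agent.H84.PslDefs
  Cfsg.Agent.Lib.Helper46.PsuDefs Cfsg.Agent.Lib.Helper46.PsuStmt

universe u

theorem main : Cfsg.Agent.Lib.Helper46.PsuStmt.NormBorelOfParts.{u} := by
  intro hLC hNU hUD n K _ _ q D hn x hx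
  obtain ⟨g, rfl⟩ := prJ_surjective D n x
  have h1 : ∀ u ∈ UJ D n, (g : SpecialLinearGroup (Fin n) K) * u *
      (g : SpecialLinearGroup (Fin n) K)⁻¹ ∈ UJ D n := by
    intro u hu
    have hu' : (⟨u, UJ_le_GJ D n hu⟩ : ↥(GJ D n)) ∈ (UJ D n).subgroupOf (GJ D n) :=
      Subgroup.mem_subgroupOf.2 hu
    have h2 : prJ D n ⟨u, UJ_le_GJ D n hu⟩ ∈ Ubar D n := Subgroup.mem_map_of_mem _ hu'
    have h3 : prJ D n (g * ⟨u, UJ_le_GJ D n hu⟩ * g⁻¹) ∈ Ubar D n := by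
      rw [map_mul, map_mul, map_inv]
      exact (Subgroup.mem_normalizer_iff.1 hx _).1 h2
    exact hLC n K q D hn g ⟨u, UJ_le_GJ D n hu⟩ hu h3
  have h4 : Upper n (g : SpecialLinearGroup (Fin n) K) := hNU n K q D hn _ g.2 h1
  obtain ⟨t, u, ht, htD, hu, hg⟩ := hUD n K q D hn _ g.2 h4
  refine ⟨⟨t, ht⟩, ⟨u, UJ_le_GJ D n hu⟩, htD, hu, ?_⟩
  congr 1
  exact Subtype.ext hg

end Cfsg.Agent.Lib.Helper99.PsuNBP
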