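import Mathlib
import Cfsg.Agent.Lib.Helper83.S38Stmt
import Cfsg.Agent.Lib.Helper23.TypeP

/-!
# S1538 piece PKAP (helper99): `p = |W₁| ∈ κ(M)`
Also exports `card_M`, `coprime_p`, `exists_comm` (an element of `M` of order `p` centralizes a
non-identity element of `fittingHallOf M`, from ConjW).
-/

set_option autoImplicit false

universe u

namespace Cfsg.Agent.Lib.Helper99.S38PKAP

open Cfsg.Agent.Lib.Helper83.S38Stmt

/-- `|M| = |M'| * p` -/
lemma card_M {G : Type u} [Group G] [Finite G] {M W₁ U W₂ : Subgroup G} (h : Ctx M W₁ U W₂) :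
    Nat.card M = Nat.card (⁅M, M⁆ : Subgroup G) * Nat.card W₁ :=
  Cfsg.Agent.Lib.Helper23.TypeP.card_of_isComplIn h.hP.W₁_compl

/-- `p` is prime to `|M'|` -/
lemma coprime_p {G : Type u} [Group G] [Finite G] {M W₁ U W₂ : Subgroup G} (h : Ctx M W₁ U W₂) :
    (Nat.card W₁).Coprime (Nat.card (⁅M, M⁆ : Subgroup G)) := by
  have h1 := h.hP.W₁_hall
  have hW : W₁ ≤ M := h.hP.W₁_compl.2.1
  have h2 : Nat.card W₁ * W₁.relIndex M = Nat.card M := by
    have h0 := Subgroup.relIndex_mul_relIndex ⊥ W₁ M bot_le hW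
    rwa [Subgroup.relIndex_bot_left, Subgroup.relIndex_bot_left] at h0
  have h3 := card_M h
  have hpos : 0 < Nat.card W₁ := Nat.card_pos
  have h4 : W₁.relIndex M = Nat.card (⁅M, M⁆ : Subgroup G) := by
    have h5 : Nat.card W₁ * W₁.relIndex M = Nat.card W₁ * Nat.card (⁅M, M⁆ : Subgroup G) := by
      rw [h2, h3, mul_comm]
    exact Nat.eq_of_mul_eq_mul_left hpos h5
  rw [← h4]
  exact h1

/-- an element of `M` of order `p` centralizes a non-identity element of `H = M_F` -/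
lemma exists_comm (hC : ConjW.{u}) {G : Type u} [Group G] [Finite G] {M W₁ U W₂ : Subgroup G}
    (h : Ctx M W₁ U W₂) (k : G) (hk : k ∈ M) (hord : orderOf k = Nat.card W₁) :
    ∃ y ∈ Cfsg.fittingHallOf M, y ≠ 1 ∧ k * y = y * k := by
  obtain ⟨m, hm, hw⟩ := hC M W₁ U W₂ h k hk hord
  have hk1 : k ≠ 1 := by
    intro h1
    rw [h1, orderOf_one] at hord
    exact h.hpr.one_lt.ne hord
  have hw1 : m * k * m⁻¹ ≠ 1 := by
    intro h1
    apply hk1
    have h2 : k = m⁻¹ * (m * k * m⁻¹) * m := by group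
    rw [h2, h1]
    group
  have hW2 := h.hP.W₂_centralizer (m * k * m⁻¹) hw hw1
  have hW2ne : W₂ ≠ ⊥ := h.hP.selfNormalizing.2.1
  obtain ⟨⟨y₀, hy₀⟩, hy₀1⟩ := (Subgroup.ne_bot_iff_exists_ne_one).mp hW2ne
  have hy₀1' : y₀ ≠ 1 := fun h0 => hy₀1 (Subtype.ext h0)
  have hy₀H : y₀ ∈ Cfsg.fittingHallOf M := (Subgroup.mem_inf.mp (h.hP.W₂_le hy₀)).1
  have hy₀c : y₀ ∈ Subgroup.centralizer ({m * k * m⁻¹} : Set G) := by
    have h3 : y₀ ∈ ⁅M, M⁆ ⊓ Subgroup.centralizer ({m * k * m⁻¹} : Set G) := by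
      rw [hW2]
      exact hy₀
    exact (Subgroup.mem_inf.mp h3).2
  have hcomm : m * k * m⁻¹ * y₀ = y₀ * (m * k * m⁻¹) :=
    (Subgroup.mem_centralizer_iff.mp hy₀c) (m * k * m⁻¹) (Set.mem_singleton _)
  obtain ⟨z, hz, hzy⟩ := Subgroup.mem_map.mp hy₀H
  refine ⟨m⁻¹ * y₀ * m, ?_, ?_, ?_⟩
  · refine Subgroup.mem_map.mpr ⟨(⟨m, hm⟩ : M)⁻¹ * z * ((⟨m, hm⟩ : M)⁻¹)⁻¹,
      (Cfsg.fittingHall_normal M).conj_mem z hz _, ?_⟩
    rw [← hzy]
    simp
  · intro h1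
    apply hy₀1'
    have h2 : y₀ = m * (m⁻¹ * y₀ * m) * m⁻¹ := by group
    rw [h2, h1]
    group
  · calc k * (m⁻¹ * y₀ * m) = m⁻¹ * ((m * k * m⁻¹) * y₀) * m := by group
      _ = m⁻¹ * (y₀ * (m * k * m⁻¹)) * m := by rw [hcomm]
      _ = (m⁻¹ * y₀ * m) * k := by group

theorem main (hC : ConjW.{u}) (hP : PSig.{u}) (hMS : MSig.{u}) : PKap.{u} := by
  intro G _ _ M W₁ U W₂ h
  have hpr := h.hpr
  have hW : W₁ ≤ M := h.hP.W₁_compl.2.1
  have hdvd : Nat.card W₁ ∣ Nat.card M := Subgroup.card_dvd_of_le hW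
  refine ⟨hpr, hdvd, hP M W₁ U W₂ h, ?_⟩
  intro P
  haveI : Fact (Nat.card W₁).Prime := ⟨hpr⟩
  have hcardP : Nat.card P = Nat.card W₁ := by
    have h1 : (Nat.card M).factorization (Nat.card W₁) = 1 := by
      rw [card_M h, Nat.factorization_mul (Nat.card_pos.ne') (Nat.card_pos.ne'),
        Finsupp.add_apply, Nat.Prime.factorization_self hpr,
        Nat.factorization_eq_zero_of_not_dvd
          ((Nat.Prime.coprime_iff_not_dvd hpr).mp (coprime_p h))]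
    rw [Sylow.card_eq_multiplicity, h1, pow_one]
  refine ⟨isCyclic_of_prime_card hcardP, ?_⟩
  have hPne : (P : Subgroup M) ≠ ⊥ := by
    intro hbot
    have h1 : Nat.card (P : Subgroup M) = 1 := Subgroup.card_eq_one.mpr hbot
    have h2 : Nat.card W₁ = 1 := hcardP.symm.trans h1
    exact hpr.one_lt.ne' h2
  obtain ⟨x, hx1⟩ := (Subgroup.ne_bot_iff_exists_ne_one).mp hPne
  have hordx : orderOf x = Nat.card W₁ := by
    have h1 : orderOf x ∣ Nat.card W₁ := (orderOf_dvd_natCard x).trans (dvd_of_eq hcardP)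
    rcases (Nat.dvd_prime hpr).mp h1 with h2 | h2
    · exact absurd (orderOf_eq_one_iff.mp h2) hx1
    · exact h2
  have hord : orderOf (((x : M)) : G) = Nat.card W₁ := by
    rw [Subgroup.orderOf_coe, Subgroup.orderOf_coe]
    exact hordx
  obtain ⟨y, hyH, hy1, hcomm⟩ := exists_comm hC h ((x : M) : G) (x : M).2 hord
  refine ⟨(x : M), x.2, ?_, y, ?_, hy1, hcomm⟩
  · intro h0
    apply hx1
    exact Subtype.ext h0
  · rw [hMS M W₁ U W₂ h]
    exact hyH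

end Cfsg.Agent.Lib.Helper99.S38PKAP
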