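import Mathlib
import Cfsg.Agent.Lib.Helper83.S38Stmt
import Cfsg.Agent.Lib.Helper99.S38PKAP

/-!
# S1538 piece NOTI (helper99): `M` is not of Type I
-/

set_option autoImplicit false

universe u

namespace Cfsg.Agent.Lib.Helper99.S38NOTI

open Cfsg.Agent.Lib.Helper83.S38Stmt
open Cfsg.Agent.Lib.Helper99.S38PKAP

theorem main (hC : ConjW.{u}) : NotI.{u} := by
  intro G _ _ M W₁ U W₂ h hI
  obtain ⟨⟨hsolv, hodd, hHne, hHtop, U', hU'ne, hcompl, hU₁, U₀, hU₀le, hexp, hfree⟩, -⟩ := hI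
  have hpr := h.hpr
  haveI : Fact (Nat.card W₁).Prime := ⟨hpr⟩
  have hcard : Nat.card (Cfsg.fittingHall M) * Nat.card U' = Nat.card M := hcompl.card_mul_card
  have hHM' : Cfsg.fittingHallOf M ≤ ⁅M, M⁆ := h.hP.U_compl.1
  have hcardH : Nat.card (Cfsg.fittingHallOf M) = Nat.card (Cfsg.fittingHall M) := by
    unfold Cfsg.fittingHallOf
    exact Subgroup.card_map_of_injective M.subtype_injective
  have hnd : ¬ Nat.card W₁ ∣ Nat.card (Cfsg.fittingHall M) := by
    intro hd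
    rw [← hcardH] at hd
    have h2 : Nat.card W₁ ∣ Nat.card (⁅M, M⁆ : Subgroup G) :=
      hd.trans (Subgroup.card_dvd_of_le hHM')
    exact (Nat.Prime.coprime_iff_not_dvd hpr).mp (coprime_p h) h2
  have hdvdM : Nat.card W₁ ∣ Nat.card M := Subgroup.card_dvd_of_le h.hP.W₁_compl.2.1
  have hdvdU' : Nat.card W₁ ∣ Nat.card U' := by
    rw [← hcard] at hdvdM
    exact (hpr.dvd_mul.mp hdvdM).resolve_left hnd
  obtain ⟨u', hu'⟩ := exists_prime_orderOf_dvd_card' (G := U') (Nat.card W₁) hdvdU'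
  have hexp1 : Nat.card W₁ ∣ Monoid.exponent U' := by
    rw [← hu']
    exact Monoid.order_dvd_exponent u'
  have hdvdU₀ : Nat.card W₁ ∣ Nat.card U₀ := by
    rw [← hexp] at hexp1
    exact hexp1.trans Group.exponent_dvd_nat_card
  obtain ⟨u, hu⟩ := exists_prime_orderOf_dvd_card' (G := U₀) (Nat.card W₁) hdvdU₀
  have hord : orderOf (((u : M)) : G) = Nat.card W₁ := by
    rw [Subgroup.orderOf_coe, Subgroup.orderOf_coe]
    exact hu
  obtain ⟨y, hyH, hy1, hcomm⟩ := exists_comm hC h ((u : M) : G) (u : M).2 hord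
  obtain ⟨z, hz, hzy⟩ := Subgroup.mem_map.mp hyH
  have hu1 : (u : M) ≠ 1 := by
    intro h1
    have h2 : orderOf (u : M) = 1 := by rw [h1, orderOf_one]
    rw [Subgroup.orderOf_coe, hu] at h2
    exact hpr.one_lt.ne' h2
  have hzc : (u : M) * z = z * (u : M) := by
    apply Subtype.ext
    rw [Subgroup.coe_mul, Subgroup.coe_mul]
    have h3 : (z : G) = y := hzy
    rw [h3]
    exact hcomm
  have hz1 := hfree (u : M) u.2 hu1 z hz hzc
  apply hy1
  rw [← hzy, hz1]
  rfl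

end Cfsg.Agent.Lib.Helper99.S38NOTI
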