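import Mathlib
import Cfsg.Agent.Lib.Helper62.S55Stmt

/-!
# S1355 piece FNEB (helper99): `M_F ≠ 1`
-/

set_option autoImplicit false

universe u

namespace Cfsg.Agent.Lib.Helper99.S55FNEB

open Cfsg.Agent.Lib.Helper62.S55Stmt Cfsg.Agent.Lib.Helper93.S64Stmt

theorem main : FNeB.{u} := by
  intro X _ _ H R _ q hB hC hO hbot
  have hcard := hB.card
  have hle : H ⊓ Subgroup.centralizer (R : Set X) ≤ ⊥ := by
    rw [← hbot]
    exact hC.trans hO
  have h1 : H ⊓ Subgroup.centralizer (R : Set X) = ⊥ := le_bot_iff.mp hle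
  rw [h1, Subgroup.card_bot] at hcard
  exact hB.qprime.one_lt.ne hcard

end Cfsg.Agent.Lib.Helper99.S55FNEB
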