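import Mathlib
import Cfsg.Agent.Lib.Helper62.S55Stmt
import Cfsg.Agent.Lib.Helper76.PSolv

/-!
# S1355 piece OLE (helper99): a normal Sylow `q`-subgroup `O_q(H)` lies in `M_F`
-/

set_option autoImplicit false

universe u

namespace Cfsg.Agent.Lib.Helper99.S55OLE

open Cfsg.Agent.Lib.Helper62.S55Stmt Cfsg.Agent.Lib.Helper93.S64Stmt

theorem main : OLe.{u} := by
  intro X _ _ H _ q hq hnd
  haveI : Fact q.Prime := ⟨hq⟩
  have hle : Oq X H q ≤ Cfsg.pCore q X := by
    unfold Oq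
    exact inf_le_left
  have hpg : IsPGroup q (Oq X H q) :=
    (Cfsg.Agent.Lib.Helper76.PSolv.pCore_isPGroup q).to_le hle
  have hnil : Group.IsNilpotent (Oq X H q) := hpg.isNilpotent
  obtain ⟨n, hn⟩ := hpg.exists_card_eq
  have hcop : (Nat.card (Oq X H q)).Coprime (Oq X H q).index := by
    rw [hn]
    exact Nat.Coprime.pow_left n ((Nat.Prime.coprime_iff_not_dvd hq).mpr hnd)
  unfold Cfsg.fittingHall
  exact le_sSup ⟨Oq_normal X H q, hnil, hcop⟩

end Cfsg.Agent.Lib.Helper99.S55OLE
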