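import Mathlib
import Cfsg.Agent.Lib.Helper62.S55Stmt

/-!
# S1355 piece QMONO (helper99): nilpotency of the image passes to a larger kernel
-/

set_option autoImplicit false

universe u

namespace Cfsg.Agent.Lib.Helper99.S55QMONO

open Cfsg.Agent.Lib.Helper62.S55Stmt Cfsg.Agent.Lib.Helper93.S64Stmt

theorem nil_of_eq {Y : Type u} [Group Y] (A B : Subgroup Y) (h : A = B)
    (hA : Group.IsNilpotent A) : Group.IsNilpotent B := by
  subst h
  exact hA

theorem main : QMono.{u} := by
  intro X _ H O F _ _ hOF hnil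
  let φ : X ⧸ O →* X ⧸ F := QuotientGroup.map O F (MonoidHom.id X) (by
    intro x hx
    exact hOF hx)
  have hcomp : φ.comp (QuotientGroup.mk' O) = QuotientGroup.mk' F := by
    ext x
    rfl
  have hmap : (H.map (QuotientGroup.mk' O)).map φ = H.map (QuotientGroup.mk' F) := by
    rw [Subgroup.map_map, hcomp]
  haveI := hnil
  have h2 : Group.IsNilpotent ↥((H.map (QuotientGroup.mk' O)).map φ) :=
    Group.nilpotent_of_surjective (φ.subgroupMap _) (φ.subgroupMap_surjective _)
  exact nil_of_eq _ _ hmap h2

end Cfsg.Agent.Lib.Helper99.S55QMONO
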