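import Mathlib
import Cfsg.Agent.Lib.Helper22.S56Stmt

/-!
# S1356, piece F2EQ (call by helper22)

`F(M) = C_M(M_F) M_F` from the nilpotency of `C_M(M_F)` and `FLe2`.
-/

set_option autoImplicit false

namespace Cfsg.Agent.Lib.Helper99.S56F2EQ

universe u

open Cfsg Cfsg.Agent.Lib.Helper22.S56Stmt

/-- In any group: `F(X) = C_X(X_F) X_F` as soon as `C_X(X_F)` is nilpotent and `FLe2` holds. -/
theorem fitting_eq {X : Type u} [Group X]
    (hle : Cfsg.fittingSubgroup X ≤
      Subgroup.centralizer ((Cfsg.fittingHall X : Subgroup X) : Set X) ⊔ Cfsg.fittingHall X)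
    (hnil : Group.IsNilpotent
      ↥(Subgroup.centralizer ((Cfsg.fittingHall X : Subgroup X) : Set X))) :
    Cfsg.fittingSubgroup X =
      Subgroup.centralizer ((Cfsg.fittingHall X : Subgroup X) : Set X) ⊔ Cfsg.fittingHall X := by
  apply le_antisymm hle
  apply sup_le
  · have hCn : (Subgroup.centralizer ((Cfsg.fittingHall X : Subgroup X) : Set X)).Normal :=
      Subgroup.normal_centralizer
    exact le_sSup ⟨hCn, hnil⟩
  · unfold Cfsg.fittingHall Cfsg.fittingSubgroup
    exact sSup_le_sSup (fun N hN => ⟨hN.1, hN.2.1⟩)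

/-- The image of the centralizer of `M_F` (taken in `↥M`) is `M ⊓ C_G(M_F)`. -/
theorem map_centralizer {G : Type u} [Group G] (M : Subgroup G) :
    (Subgroup.centralizer ((Cfsg.fittingHall ↥M : Subgroup ↥M) : Set ↥M)).map M.subtype =
      M ⊓ Subgroup.centralizer (Cfsg.fittingHallOf M : Set G) := by
  ext g
  constructor
  · rintro ⟨c, hc, rfl⟩
    refine ⟨c.2, ?_⟩
    show M.subtype c ∈ Subgroup.centralizer (Cfsg.fittingHallOf M : Set G)
    rw [Subgroup.mem_centralizer_iff]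
    rintro h ⟨n, hn, rfl⟩
    have hc' : c ∈ Subgroup.centralizer ((Cfsg.fittingHall ↥M : Subgroup ↥M) : Set ↥M) := hc
    have h1 := (Subgroup.mem_centralizer_iff.mp hc') n hn
    have h2 := congrArg (M.subtype) h1
    simpa using h2
  · rintro ⟨hgM, hgC⟩
    refine ⟨⟨g, hgM⟩, ?_, rfl⟩
    show (⟨g, hgM⟩ : ↥M) ∈ Subgroup.centralizer ((Cfsg.fittingHall ↥M : Subgroup ↥M) : Set ↥M)
    rw [Subgroup.mem_centralizer_iff]
    intro n hn
    have hgC' : g ∈ Subgroup.centralizer (Cfsg.fittingHallOf M : Set G) := hgC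
    have h1 := (Subgroup.mem_centralizer_iff.mp hgC') (M.subtype n) ⟨n, hn, rfl⟩
    apply Subtype.ext
    simpa using h1

theorem main (hF : FLe2.{u}) : F2Eq.{u} := by
  intro G _ _ M hnil
  have h1 := fitting_eq (X := ↥M) hF hnil
  unfold Cfsg.fittingOf
  rw [h1, Subgroup.map_sup, map_centralizer]
  rfl

end Cfsg.Agent.Lib.Helper99.S56F2EQ
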