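import Mathlib

set_option autoImplicit false

namespace Cfsg.Agent.Lib.Helper99.S6Swaps

open Equiv

set_option maxRecDepth 100000 in
lemma lemD : ∀ a b c d : Fin 6, a ≠ b → c ≠ d → swap a b ≠ swap c d →
    swap a b * swap c d = swap c d * swap a b → c ≠ a ∧ c ≠ b ∧ d ≠ a ∧ d ≠ b := by
  decide +kernel

set_option maxRecDepth 100000 in
lemma lemE : ∀ u v c d : Fin 6, u ≠ v → c ≠ d → swap u v ≠ swap c d →
    (swap u v * swap c d) ^ 3 = 1 → c ≠ u → d ≠ u →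
    ∃ w, swap c d = swap v w ∧ w ≠ u ∧ w ≠ v := by
  decide +kernel

set_option maxRecDepth 100000 in
lemma lemE0 : ∀ x y c d : Fin 6, x ≠ y → c ≠ d → swap x y ≠ swap c d →
    (swap x y * swap c d) ^ 3 = 1 →
    ∃ u v w, swap x y = swap u v ∧ swap c d = swap v w ∧ u ≠ v ∧ v ≠ w ∧ u ≠ w := by
  decide +kernel

/-- An automorphism of `S_6` sending one transposition to a transposition is inner. -/
theorem inner_of_swap (γ : Perm (Fin 6) ≃* Perm (Fin 6)) (h : (γ (swap 0 1)).IsSwap) :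
    ∃ π : Perm (Fin 6), ∀ g, γ g = π * g * π⁻¹ := by
  have hsw : ∀ a b : Fin 6, a ≠ b → ∃ x y : Fin 6, x ≠ y ∧ γ (swap a b) = swap x y := by
    intro a b hne
    obtain ⟨c, hc⟩ := isConj_iff.mp (Equiv.Perm.isConj_swap (show (0 : Fin 6) ≠ 1 by decide) hne)
    obtain ⟨x, y, hxy, hx⟩ := h
    refine ⟨γ c x, γ c y, (γ c).injective.ne hxy, ?_⟩
    rw [← hc, map_mul, map_mul, map_inv, hx, Equiv.swap_apply_apply]
  have rel3 : ∀ g h : Perm (Fin 6), (g * h) ^ 3 = 1 → (γ g * γ h) ^ 3 = 1 :=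
    fun g h e => by rw [← map_mul, ← map_pow, e, map_one]
  have relc : ∀ g h : Perm (Fin 6), g * h = h * g → γ g * γ h = γ h * γ g :=
    fun g h e => by rw [← map_mul, ← map_mul, e]
  have relne : ∀ g h : Perm (Fin 6), g ≠ h → γ g ≠ γ h := fun g h e => γ.injective.ne e
  obtain ⟨x0, y0, hxy0, h0⟩ := hsw 0 1 (by decide)
  obtain ⟨x1, y1, hxy1, h1⟩ := hsw 1 2 (by decide)
  obtain ⟨x2, y2, hxy2, h2⟩ := hsw 2 3 (by decide)
  obtain ⟨x3, y3, hxy3, h3⟩ := hsw 3 4 (by decide)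
  obtain ⟨x4, y4, hxy4, h4⟩ := hsw 4 5 (by decide)
  -- relations among the images
  have n01 := relne (swap (0 : Fin 6) 1) (swap 1 2) (by decide)
  have n12 := relne (swap (1 : Fin 6) 2) (swap 2 3) (by decide)
  have n23 := relne (swap (2 : Fin 6) 3) (swap 3 4) (by decide)
  have n34 := relne (swap (3 : Fin 6) 4) (swap 4 5) (by decide)
  have n02 := relne (swap (0 : Fin 6) 1) (swap 2 3) (by decide)
  have n03 := relne (swap (0 : Fin 6) 1) (swap 3 4) (by decide)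
  have n04 := relne (swap (0 : Fin 6) 1) (swap 4 5) (by decide)
  have n13 := relne (swap (1 : Fin 6) 2) (swap 3 4) (by decide)
  have n14 := relne (swap (1 : Fin 6) 2) (swap 4 5) (by decide)
  have n24 := relne (swap (2 : Fin 6) 3) (swap 4 5) (by decide)
  have r01 := rel3 (swap (0 : Fin 6) 1) (swap 1 2) (by decide)
  have r12 := rel3 (swap (1 : Fin 6) 2) (swap 2 3) (by decide)
  have r23 := rel3 (swap (2 : Fin 6) 3) (swap 3 4) (by decide)
  have r34 := rel3 (swap (3 : Fin 6) 4) (swap 4 5) (by decide)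
  have c02 := relc (swap (0 : Fin 6) 1) (swap 2 3) (by decide)
  have c03 := relc (swap (0 : Fin 6) 1) (swap 3 4) (by decide)
  have c04 := relc (swap (0 : Fin 6) 1) (swap 4 5) (by decide)
  have c13 := relc (swap (1 : Fin 6) 2) (swap 3 4) (by decide)
  have c14 := relc (swap (1 : Fin 6) 2) (swap 4 5) (by decide)
  have c24 := relc (swap (2 : Fin 6) 3) (swap 4 5) (by decide)
  rw [h0, h1] at n01 r01
  obtain ⟨a0, a1, a2, e0, e1, d01, d12, d02⟩ := lemE0 x0 y0 x1 y1 hxy0 hxy1 n01 r01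
  rw [e0] at h0
  rw [e1] at h1
  clear e0 e1 n01 r01 hxy0 hxy1 x0 y0 x1 y1
  -- step 2
  rw [h1, h2] at n12 r12
  rw [h0, h2] at n02 c02
  obtain ⟨p1, p2, p3, p4⟩ := lemD a0 a1 x2 y2 d01 hxy2 n02 c02
  obtain ⟨a3, e2, d31, d32⟩ := lemE a1 a2 x2 y2 d12 hxy2 n12 r12 p2 p4
  rw [e2] at h2 n02 c02
  obtain ⟨q1, q2, d30, q4⟩ := lemD a0 a1 a2 a3 d01 d32.symm n02 c02
  clear e2 p1 p2 p3 p4 n12 r12 hxy2 x2 y2
  -- step 3
  rw [h2, h3] at n23 r23
  rw [h1, h3] at n13 c13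
  rw [h0, h3] at n03 c03
  obtain ⟨p1, p2, p3, p4⟩ := lemD a1 a2 x3 y3 d12 hxy3 n13 c13
  obtain ⟨a4, e3, d42, d43⟩ := lemE a2 a3 x3 y3 d32.symm hxy3 n23 r23 p2 p4
  rw [e3] at h3 n13 c13 n03 c03
  obtain ⟨_, _, d41, _⟩ := lemD a1 a2 a3 a4 d12 d43.symm n13 c13
  obtain ⟨_, _, d40, _⟩ := lemD a0 a1 a3 a4 d01 d43.symm n03 c03
  clear e3 p1 p2 p3 p4 n23 r23 hxy3 x3 y3
  -- step 4
  rw [h3, h4] at n34 r34
  rw [h2, h4] at n24 c24
  rw [h1, h4] at n14 c14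
  rw [h0, h4] at n04 c04
  obtain ⟨p1, p2, p3, p4⟩ := lemD a2 a3 x4 y4 d32.symm hxy4 n24 c24
  obtain ⟨a5, e4, d53, d54⟩ := lemE a3 a4 x4 y4 d43.symm hxy4 n34 r34 p2 p4
  rw [e4] at h4 n24 c24 n14 c14 n04 c04
  obtain ⟨_, _, d52, _⟩ := lemD a2 a3 a4 a5 d32.symm d54.symm n24 c24
  obtain ⟨_, _, d51, _⟩ := lemD a1 a2 a4 a5 d12 d54.symm n14 c14
  obtain ⟨_, _, d50, _⟩ := lemD a0 a1 a4 a5 d01 d54.symm n04 c04
  -- the permutation
  have hinj : Function.Injective (![a0, a1, a2, a3, a4, a5] : Fin 6 → Fin 6) := by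
    intro i j hij
    fin_cases i <;> fin_cases j <;> simp_all
  let π : Perm (Fin 6) := Equiv.ofBijective _ (Finite.injective_iff_bijective.mp hinj)
  refine ⟨π, ?_⟩
  have key : γ.toMonoidHom = (MulAut.conj π).toMonoidHom := by
    apply MonoidHom.eq_of_eqOn_denseM (Equiv.Perm.mclosure_swap_castSucc_succ 5)
    rintro _ ⟨i, rfl⟩
    simp only [MulEquiv.coe_toMonoidHom, MulAut.conj_apply]
    rw [← Equiv.swap_apply_apply]
    fin_cases i
    · exact h0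
    · exact h1
    · exact h2
    · exact h3
    · exact h4
  intro g
  have := congrArg (fun f : Perm (Fin 6) →* Perm (Fin 6) => f g) key
  simpa using this

end Cfsg.Agent.Lib.Helper99.S6Swaps
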