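import Mathlib
import Cfsg.Agent.Lib.Helper41.SubfStmt

/-! Piece COMB3B2 of S5965: the vector `(1, 0, …, 0)` has no reflection symmetry. -/

set_option autoImplicit false

namespace Cfsg.Agent.Lib.Helper99.SubfCOMB3B2

open Cfsg.Agent.Lib.Helper41.SubfStmt

/-- the vector `(1, 0, …, 0)` -/
def vec (n r : ℕ) : Fin n → ZMod r := fun j => if j.val = 0 then 1 else 0

theorem vec_zero (n r : ℕ) (j : Fin n) (h : j.val = 0) : vec n r j = 1 := by
  unfold vec
  rw [if_pos h]

theorem vec_pos (n r : ℕ) (j : Fin n) (h : j.val ≠ 0) : vec n r j = 0 := by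
  unfold vec
  rw [if_neg h]

theorem main : Cfsg.Agent.Lib.Helper41.SubfStmt.Comb3B2 := by
  intro n r _ hn hr2
  have hr : r.Prime := Fact.out
  haveI : Fact (1 < r) := ⟨hr.one_lt⟩
  have h10 : (1 : ZMod r) ≠ 0 := one_ne_zero
  have hm1 : (-1 : ZMod r) ≠ 1 := by
    intro h
    have h2 : (1 : ZMod r) + 1 = 0 := by linear_combination -h
    have h3 : ((2 : ℕ) : ZMod r) = 0 := by
      rw [← h2]
      norm_num
    rw [ZMod.natCast_eq_zero_iff] at h3
    have h4 := Nat.le_of_dvd (by norm_num) h3
    have h5 := hr.two_le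
    omega
  refine ⟨vec n r, ?_, ⟨⟨0, by omega⟩, ⟨1, by omega⟩, ?_⟩, ?_⟩
  · rw [Finset.sum_eq_single (⟨0, by omega⟩ : Fin n)]
    · rw [vec_zero n r _ rfl, ZMod.val_one]
    · intro j _ hj
      have hj0 : j.val ≠ 0 := fun h => hj (Fin.ext h)
      rw [vec_pos n r j hj0, ZMod.val_zero]
    · intro h
      exact absurd (Finset.mem_univ _) h
  · rw [vec_zero n r _ rfl, vec_pos n r ⟨1, by omega⟩ (by simp)]
    exact h10
  · rintro ⟨w, hw⟩
    have hval : ∀ j : Fin n, vec n r j = 1 ∨ vec n r j = 0 := by
      intro j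
      by_cases h : j.val = 0
      · left; exact vec_zero n r j h
      · right; exact vec_pos n r j h
    have hbig : ∀ a : ZMod r, 2 ≤ (Finset.univ.filter (fun j => vec n r j = a)).card →
        a = 0 := by
      intro a ha
      by_contra ha0
      have hsub : Finset.univ.filter (fun j => vec n r j = a) ⊆
          {(⟨0, by omega⟩ : Fin n)} := by
        intro j hj
        rw [Finset.mem_filter] at hj
        rw [Finset.mem_singleton]
        apply Fin.ext
        show j.val = 0
        by_contra hj0
        have h5 : vec n r j = 0 := vec_pos n r j hj0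
        exact ha0 (hj.2 ▸ h5)
      have h6 := Finset.card_le_card hsub
      rw [Finset.card_singleton] at h6
      omega
    have h0big : 2 ≤ (Finset.univ.filter (fun j => vec n r j = (0 : ZMod r))).card := by
      have h7 : 1 < (Finset.univ.filter (fun j => vec n r j = (0 : ZMod r))).card := by
        rw [Finset.one_lt_card]
        refine ⟨⟨1, by omega⟩, ?_, ⟨2, by omega⟩, ?_, ?_⟩
        · rw [Finset.mem_filter]
          exact ⟨Finset.mem_univ _, vec_pos n r _ (by simp)⟩
        · rw [Finset.mem_filter]
          exact ⟨Finset.mem_univ _, vec_pos n r _ (by simp)⟩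
        · intro h
          simp [Fin.ext_iff] at h
      omega
    have hw0 : w = 0 := by
      have h1 := hw 0
      rw [h1] at h0big
      have h8 := hbig _ h0big
      simpa using h8
    have h1pos : 0 < (Finset.univ.filter (fun j => vec n r j = (1 : ZMod r))).card := by
      rw [Finset.card_pos]
      exact ⟨⟨0, by omega⟩, by
        rw [Finset.mem_filter]
        exact ⟨Finset.mem_univ _, vec_zero n r _ rfl⟩⟩
    rw [hw 1, hw0, Finset.card_pos] at h1pos
    obtain ⟨j, hj⟩ := h1pos
    rw [Finset.mem_filter] at hj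
    have hj2 : vec n r j = -1 := by simpa using hj.2
    rcases hval j with h | h
    · exact hm1 (hj2 ▸ h)
    · rw [h] at hj2
      have h9 : (1 : ZMod r) = 0 := by linear_combination hj2
      exact h10 h9

end Cfsg.Agent.Lib.Helper99.SubfCOMB3B2
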