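import Mathlib
import Cfsg.Agent.Lib.Helper41.SubfStmt

/-! Piece COMB3B3 of S5965: for `r = 3`, `n ≥ 4`, `n ≠ 6` the vector `(1, 1, 1, 0, …, 0)` has
no reflection symmetry. -/

set_option autoImplicit false

namespace Cfsg.Agent.Lib.Helper99.SubfCOMB3B3

open Cfsg.Agent.Lib.Helper41.SubfStmt

/-- the vector `(1, 1, 1, 0, …, 0)` -/
def vec3 (n : ℕ) : Fin n → ZMod 3 := fun j => if j.val < 3 then 1 else 0

theorem vec3_one (n : ℕ) (j : Fin n) : vec3 n j = 1 ↔ j.val < 3 := by
  unfold vec3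
  have h01 : (0 : ZMod 3) ≠ 1 := by decide
  split_ifs with h <;> simp [h, h01]

theorem vec3_zero (n : ℕ) (j : Fin n) : vec3 n j = 0 ↔ ¬ j.val < 3 := by
  unfold vec3
  have h10 : (1 : ZMod 3) ≠ 0 := by decide
  split_ifs with h <;> simp [h, h10]

theorem vec3_two (n : ℕ) (j : Fin n) : ¬ vec3 n j = 2 := by
  unfold vec3
  split_ifs <;> decide

theorem card_one (n : ℕ) (hn : 4 ≤ n) :
    (Finset.univ.filter (fun j => vec3 n j = 1)).card = 3 := by
  have h1 : Finset.univ.filter (fun j => vec3 n j = 1) =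
      Finset.univ.filter (fun j : Fin n => j.val < 3) :=
    Finset.filter_congr (fun j _ => vec3_one n j)
  rw [h1, Fin.card_filter_val_lt]
  omega

theorem card_zero (n : ℕ) (hn : 4 ≤ n) :
    (Finset.univ.filter (fun j => vec3 n j = 0)).card = n - 3 := by
  have h1 := Finset.card_filter_add_card_filter_not (s := (Finset.univ : Finset (Fin n)))
    (fun j => vec3 n j = 1)
  have h2 : Finset.univ.filter (fun j => ¬ vec3 n j = 1) =
      Finset.univ.filter (fun j => vec3 n j = 0) := by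
    apply Finset.filter_congr
    intro j _
    rw [vec3_one, vec3_zero]
  rw [h2, card_one n hn, Finset.card_univ, Fintype.card_fin] at h1
  omega

theorem card_two (n : ℕ) : (Finset.univ.filter (fun j => vec3 n j = 2)).card = 0 :=
  Finset.card_eq_zero.2 (Finset.filter_eq_empty_iff.2 (fun j _ => vec3_two n j))

theorem three_cast : ((3 : ℕ) : ZMod 3) = 0 := by decide

theorem one_ne_zero3 : (1 : ZMod 3) ≠ 0 := by decide

theorem cases3 : ∀ w : ZMod 3, w = 0 ∨ w = 1 ∨ w = 2 := by decide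

theorem e1a : (-1 : ZMod 3) * 1 - 0 = 2 := by decide

theorem e1b : (-1 : ZMod 3) * 0 - 1 = 2 := by decide

theorem e1c : (-1 : ZMod 3) * 0 - 2 = 1 := by decide

theorem main : Cfsg.Agent.Lib.Helper41.SubfStmt.Comb3B3 := by
  intro n r inst hr hn4 hn6
  subst hr
  refine ⟨vec3 n, ?_, ⟨⟨0, by omega⟩, ⟨3, by omega⟩, ?_⟩, ?_⟩
  · unfold vec3
    rw [Finset.sum_boole, Fin.card_filter_val_lt]
    have h3 : min n 3 = 3 := by omega
    rw [h3]
    exact three_cast
  · have h1 : vec3 n ⟨0, by omega⟩ = 1 := (vec3_one n _).2 (by simp)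
    have h2 : vec3 n ⟨3, by omega⟩ = 0 := (vec3_zero n _).2 (by simp)
    rw [h1, h2]
    exact one_ne_zero3
  · rintro ⟨w, hw⟩
    rcases cases3 w with rfl | rfl | rfl
    · have h := hw 1
      have e1 : (-1 : ZMod 3) * 1 - 0 = 2 := e1a
      rw [e1, card_one n hn4, card_two] at h
      omega
    · have h := hw 0
      have e1 : (-1 : ZMod 3) * 0 - 1 = 2 := e1b
      rw [e1, card_zero n hn4, card_two] at h
      omega
    · have h := hw 0
      have e1 : (-1 : ZMod 3) * 0 - 2 = 1 := e1c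
      rw [e1, card_zero n hn4, card_one n hn4] at h
      omega

end Cfsg.Agent.Lib.Helper99.SubfCOMB3B3
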