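import Mathlib
import Cfsg.Agent.Lib.Helper14.TC3Stmt
import Cfsg.Agent.Lib.Helper3.TDUniq
import Cfsg.Agent.Lib.Helper3.TDBasic
import Cfsg.Agent.Lib.Helper3.MGroup
import Cfsg.Agent.Lib.Helper80.Integrality
import Cfsg.Agent.Lib.CT.Ops
import Cfsg.Agent.S0027

/-!
S4460 piece DLB (helper99, for helper14): PART II case B (Frobenius-type section, no nonabelian
`p`-quotient): assembly.
-/

set_option autoImplicit false

universe u

namespace Cfsg.Agent.Lib.Helper99.TC3DLB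

open Cfsg Cfsg.Agent.Lib.Helper14.TC3Stmt
open scoped commutatorElement

theorem dl3_of {G : Type u} [Group G] (N : Subgroup G) (hGN : commutator G ≤ N)
    (h : ⁅⁅N, N⁆, ⁅N, N⁆⁆ = ⊥) : derivedSeries G 3 = ⊥ := by
  have h1 : derivedSeries G 1 ≤ N := by
    rw [derivedSeries_one]; exact hGN
  have e2 : derivedSeries G 2 = ⁅derivedSeries G 1, derivedSeries G 1⁆ := derivedSeries_succ G 1
  have e3 : derivedSeries G 3 = ⁅derivedSeries G 2, derivedSeries G 2⁆ := derivedSeries_succ G 2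
  have h2 : derivedSeries G 2 ≤ ⁅N, N⁆ := by
    rw [e2]
    exact Subgroup.commutator_mono h1 h1
  have h3 : derivedSeries G 3 ≤ ⁅⁅N, N⁆, ⁅N, N⁆⁆ := by
    rw [e3]
    exact Subgroup.commutator_mono h2 h2
  rw [h] at h3
  exact le_bot_iff.mp h3

theorem ordProj_eq {p a e : ℕ} (ha : a ≠ 0) (he : e ≠ 0) (hpe : ¬ p ∣ e) :
    ordProj[p] (a * e) = ordProj[p] a := by
  rw [Nat.ordProj_mul p ha he, Nat.factorization_eq_zero_of_not_dvd hpe, pow_zero, mul_one]

theorem deg_triv {G : Type u} [Group G] :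
    charDegree ((⟨fun _ => (1 : ℂ), Cfsg.Agent.Lib.CT.Ops.isIrrCharacter_one⟩ :
      IrrCharacter G) : G → ℂ) = 1 := by
  show ⌊((1 : ℂ)).re⌋₊ = 1
  simp

/-- the case where `[G : N] = f` is one of the two degrees and `f'` is the other -/
theorem core (hW : W124.{u}) (hTwoSub : TwoSub.{u}) (hB2B : B2B.{u}) (hB2C : B2C.{u})
    (hB2D : B2D.{u}) (hEAb : EAb.{u}) (hB2H : B2H.{u})
    {G : Type u} [Group G] [Finite G] (f f' : ℕ) (hdeg : Deg3 G f f') (hf1 : 1 < f)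
    (hf'1 : 1 < f') (hsolv : Group.IsSolvable G) (hnpq : NoPQuot G) (K N : Subgroup G) (p : ℕ)
    (hFS : FSec K N p) (hidx : N.index = f) : derivedSeries G 3 = ⊥ := by
  classical
  obtain ⟨hKn, hp, hNn, hKN, hGN, hNtop, hpN, hrel, hlt, hab, hfpf⟩ := hFS
  have hFS : FSec K N p := ⟨hKn, hp, hNn, hKN, hGN, hNtop, hpN, hrel, hlt, hab, hfpf⟩
  have hWN := hW G K N p hFS
  haveI := hNn
  haveI : Fintype N := Fintype.ofFinite N
  haveI := hsolv
  have hpf : ¬ p ∣ f := by rw [← hidx]; exact hpN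
  have hfpos : 0 < f := by omega
  -- degrees of `G` divisible by `p` are `f'`
  have hGp : ∀ χ : IrrCharacter G, p ∣ charDegree (χ : G → ℂ) → charDegree (χ : G → ℂ) = f' := by
    intro χ hχ
    rcases hdeg χ with h | h | h
    · rw [h] at hχ
      exact absurd (Nat.dvd_one.mp hχ) hp.one_lt.ne'
    · rw [h] at hχ
      exact absurd hχ hpf
    · exact h
  -- (A)
  have hA : ∀ ψ : IrrCharacter ↥N, HasDeg G (N.index * charDegree (ψ : ↥N → ℂ)) →
      charDegree (ψ : ↥N → ℂ) = 1 ∨ f * charDegree (ψ : ↥N → ℂ) = f' := by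
    intro ψ hψ
    rw [hidx] at hψ
    obtain ⟨χ, hχ⟩ := hψ
    rcases hdeg χ with h | h | h
    · rw [h] at hχ
      have : f = 1 := Nat.eq_one_of_mul_eq_one_right hχ.symm
      omega
    · rw [h] at hχ
      left
      have h2 : f * 1 = f * charDegree (ψ : ↥N → ℂ) := by rw [mul_one]; exact hχ
      exact (Nat.eq_of_mul_eq_mul_left hfpos h2).symm
    · right
      rw [← hχ, h]
  by_cases hb : ∃ ψ0 : IrrCharacter ↥N, p ∣ charDegree (ψ0 : ↥N → ℂ)
  · -- (b2)
    obtain ⟨ψ0, hψ0⟩ := hb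
    have hpf' : p ∣ f' := by
      obtain ⟨χ, -, h1, -⟩ := Cfsg.Agent.Lib.Helper3.TDBasic.exists_over N ψ0
      rw [← hGp χ (dvd_trans hψ0 h1)]
      exact dvd_trans hψ0 h1
    have hNL : NonlinDvd ↥N p := by
      intro ψ hψ
      rcases hWN ψ with h | h
      · rcases hA ψ h with h1 | h1
        · exact absurd h1 hψ
        · rw [← h1] at hpf'
          rcases (Nat.Prime.dvd_mul hp).mp hpf' with h2 | h2
          · exact absurd h2 hpf
          · exact h2
      · exact h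
    have hord : ∀ ψ : IrrCharacter ↥N, charDegree (ψ : ↥N → ℂ) = 1 ∨
        ordProj[p] (charDegree (ψ : ↥N → ℂ)) = ordProj[p] f' := by
      intro ψ
      by_cases hψ : charDegree (ψ : ↥N → ℂ) = 1
      · exact Or.inl hψ
      · right
        have hpψ := hNL ψ hψ
        obtain ⟨χ, -, h1, h2⟩ := Cfsg.Agent.Lib.Helper3.TDBasic.exists_over N ψ
        have hχ := hGp χ (dvd_trans hpψ h1)
        rw [hχ] at h1 h2
        have hψ0' : charDegree (ψ : ↥N → ℂ) ≠ 0 :=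
          (Cfsg.Agent.Lib.Helper80.Integrality.charDegree_pos ψ).ne'
        have hfe : charDegree (ψ : ↥N → ℂ) * (f' / charDegree (ψ : ↥N → ℂ)) = f' :=
          Nat.mul_div_cancel' h1
        have he0 : f' / charDegree (ψ : ↥N → ℂ) ≠ 0 := by
          intro h0
          rw [h0, mul_zero] at hfe
          omega
        have hpe : ¬ p ∣ f' / charDegree (ψ : ↥N → ℂ) := fun h => hpN (dvd_trans h h2)
        have h3 := ordProj_eq (p := p) hψ0' he0 hpe
        rw [hfe] at h3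
        exact h3.symm
    obtain ⟨L, P, hsplit⟩ := hB2B G N p hNn hp hNL
    have hctx : B2Ctx G f f' N L P p :=
      ⟨hdeg, hNn, hp, hidx, hpf, hpf', hGN, hnpq, hNL, hsplit⟩
    have hE := hEAb G f f' N L P p hctx
    have hD2 := hB2H G N L P p (ordProj[p] f') hNn hp hsplit hE hord
    have hEP := hTwoSub G (⁅L, P⁆ ⊔ P) (ordProj[p] f') hD2
    have hLL := hB2C G N L P p hNn hp hNL hsplit
    obtain ⟨hLn, hLN, hPN, hcopL, hPp, hLP, hLPbot, hLrel⟩ := hsplit
    have hNN : ⁅N, N⁆ ≤ ⁅L, P⁆ ⊔ ⁅P, P⁆ := by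
      have := hB2D G L P hLn hLL
      rw [hLP] at this
      exact this
    -- coprime action
    have hPL : P ≤ Subgroup.normalizer (L : Set G) := by
      intro x _
      rw [Subgroup.mem_normalizer_iff]
      intro h
      constructor
      · intro hh
        exact hLn.conj_mem h hh x
      · intro hh
        have h1 := hLn.conj_mem _ hh x⁻¹
        have e : x⁻¹ * (x * h * x⁻¹) * x⁻¹⁻¹ = h := by group
        rw [e] at h1
        exact h1
    have hcop : (Nat.card P).Coprime (Nat.card L) := by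
      haveI : Fact p.Prime := ⟨hp⟩
      obtain ⟨k, hk⟩ := IsPGroup.iff_card.mp hPp
      rw [hk]
      exact Nat.Coprime.pow_left k hcopL.symm
    have hS27 := Cfsg.Agent.S0027.result P L hPL hcop (Or.inl inferInstance)
    have hE1 : ⁅L, P⁆ ≤ ⁅⁅L, P⁆ ⊔ P, ⁅L, P⁆ ⊔ P⁆ := by
      calc ⁅L, P⁆ = ⁅⁅L, P⁆, P⁆ := hS27.symm
        _ ≤ ⁅⁅L, P⁆ ⊔ P, ⁅L, P⁆ ⊔ P⁆ := Subgroup.commutator_mono le_sup_left le_sup_right
    have hE2 : ⁅P, P⁆ ≤ ⁅⁅L, P⁆ ⊔ P, ⁅L, P⁆ ⊔ P⁆ :=
      Subgroup.commutator_mono le_sup_right le_sup_right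
    have hNN' : ⁅N, N⁆ ≤ ⁅⁅L, P⁆ ⊔ P, ⁅L, P⁆ ⊔ P⁆ := hNN.trans (sup_le hE1 hE2)
    apply dl3_of N hGN
    have h4 : ⁅⁅N, N⁆, ⁅N, N⁆⁆ ≤ ⁅⁅⁅L, P⁆ ⊔ P, ⁅L, P⁆ ⊔ P⁆, ⁅⁅L, P⁆ ⊔ P, ⁅L, P⁆ ⊔ P⁆⁆ :=
      Subgroup.commutator_mono hNN' hNN'
    rw [hEP] at h4
    exact le_bot_iff.mp h4
  · -- (b1)
    have hD2 : Deg2 ↥N (f' / f) := by
      intro ψ
      rcases hWN ψ with h | h
      · rcases hA ψ h with h1 | h1
        · exact Or.inl h1
        · right
          rw [← h1, Nat.mul_div_cancel_left _ hfpos]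
      · exact absurd ⟨ψ, h⟩ hb
    exact dl3_of N hGN (hTwoSub G N (f' / f) hD2)

theorem main (hW : W124.{u}) (hTwoSub : TwoSub.{u}) (hB2B : B2B.{u}) (hB2C : B2C.{u})
    (hB2D : B2D.{u}) (hEAb : EAb.{u}) (hB2H : B2H.{u}) : DlB.{u} := by
  intro G _ _ m n hdeg hm hn hm1 hn1 hmn hsolv hnpq
  classical
  -- `G` is not abelian
  have hne : commutator G ≠ ⊥ := by
    intro h
    obtain ⟨χ, hχ⟩ := hm
    have h1 : (χ : G → ℂ) 1 = 1 := by
      apply Cfsg.Agent.Lib.Helper3.MGroup.apply_one_eq_one_of_comm χ.2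
      intro a b
      have hab : ⁅a, b⁆ ∈ commutator G := by
        rw [commutator_def]
        exact Subgroup.commutator_mem_commutator (Subgroup.mem_top a) (Subgroup.mem_top b)
      rw [h, Subgroup.mem_bot] at hab
      rw [hab]
    have h2 : charDegree (χ : G → ℂ) = 1 := by
      show ⌊((χ : G → ℂ) 1).re⌋₊ = 1
      rw [h1]
      simp
    omega
  obtain ⟨K, p, hKn, hKc, hp, hK⟩ := Cfsg.Agent.Lib.Helper3.TDUniq.exists_section hsolv hne
  rcases hK with ⟨j, hj⟩ | ⟨N, hNn, hKN, hGN, hNtop, hpN, hrel, hlt, hab, hfpf⟩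
  · exact absurd (hnpq K p hKn hp ⟨j, hj⟩) hKc
  · have hFS : FSec K N p := ⟨hKn, hp, hNn, hKN, hGN, hNtop, hpN, hrel, hlt, hab, hfpf⟩
    -- the index of `N` is a degree
    have hidx : HasDeg G N.index := by
      have h := hW G K N p hFS
        (⟨fun _ => (1 : ℂ), Cfsg.Agent.Lib.CT.Ops.isIrrCharacter_one⟩ : IrrCharacter ↥N)
      rw [deg_triv, mul_one] at h
      rcases h with h | h
      · exact h
      · exact absurd (Nat.dvd_one.mp h) hp.one_lt.ne'
    have hidx1 : N.index ≠ 1 := fun h => hNtop (Subgroup.index_eq_one.mp h)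
    obtain ⟨χ, hχ⟩ := hidx
    rcases hdeg χ with h | h | h
    · rw [h] at hχ
      exact absurd hχ.symm hidx1
    · rw [h] at hχ
      exact core hW hTwoSub hB2B hB2C hB2D hEAb hB2H m n hdeg hm1 hn1 hsolv hnpq K N p hFS
        hχ.symm
    · rw [h] at hχ
      have hdeg' : Deg3 G n m := by
        intro χ'
        rcases hdeg χ' with h' | h' | h'
        · exact Or.inl h'
        · exact Or.inr (Or.inr h')
        · exact Or.inr (Or.inl h')
      exact core hW hTwoSub hB2B hB2C hB2D hEAb hB2H n m hdeg' hn1 hm1 hsolv hnpq K N p hFS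
        hχ.symm

end Cfsg.Agent.Lib.Helper99.TC3DLB
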