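import Mathlib
import Cfsg.Agent.Lib.Helper14.TC3Stmt
import Cfsg.Agent.S4456

/-!
S4460 piece THN (helper99, second seat, for helper14): Thompson's normal `q`-complement of a
normal subgroup `N` is normal in `G`.
-/

set_option autoImplicit false

universe u

namespace Cfsg.Agent.Lib.Helper99.TC3THN

open Cfsg Cfsg.Agent.Lib.Helper14.TC3Stmt

theorem main : THN.{u} := by
  intro G _ _ N q hNn hq hNL
  obtain ⟨L1, hL1n, hcop, k, hk⟩ := Cfsg.Agent.S4456.result (G := ↥N) q hq hNL
  haveI := hL1n
  -- the elements of order prime to `q` lie in `L1`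
  have hmem : ∀ n : ↥N, (orderOf n).Coprime q → n ∈ L1 := by
    intro n hn
    have h1 : orderOf (QuotientGroup.mk' L1 n) ∣ orderOf n := orderOf_map_dvd _ n
    have h2 : orderOf (QuotientGroup.mk' L1 n) ∣ q ^ k := by
      rw [← hk, Subgroup.index_eq_card]
      exact orderOf_dvd_natCard _
    have h3 : orderOf (QuotientGroup.mk' L1 n) = 1 := by
      have hc : Nat.Coprime (orderOf n) (q ^ k) := Nat.Coprime.pow_right k hn
      have h4 := Nat.dvd_gcd h1 h2
      rw [Nat.Coprime.gcd_eq_one hc] at h4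
      exact Nat.dvd_one.mp h4
    rw [orderOf_eq_one_iff] at h3
    exact (QuotientGroup.eq_one_iff n).mp h3
  have hord : ∀ y ∈ L1, (orderOf y).Coprime q := by
    intro y hy
    have h1 : orderOf (⟨y, hy⟩ : L1) ∣ Nat.card L1 := orderOf_dvd_natCard _
    rw [Subgroup.orderOf_mk] at h1
    exact Nat.Coprime.coprime_dvd_left h1 hcop
  refine ⟨L1.map N.subtype, ?_, ?_, ?_, k, ?_⟩
  · constructor
    rintro x ⟨y, hy, rfl⟩ g
    have hgN : g * (y : G) * g⁻¹ ∈ N := hNn.conj_mem y y.2 g
    refine ⟨⟨g * (y : G) * g⁻¹, hgN⟩, ?_, rfl⟩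
    apply hmem
    have e1 : orderOf (⟨g * (y : G) * g⁻¹, hgN⟩ : ↥N) = orderOf (g * (y : G) * g⁻¹) :=
      Subgroup.orderOf_mk _ _
    have e2 : orderOf (g * (y : G) * g⁻¹) = orderOf (y : G) := by
      have h := orderOf_injective (MulAut.conj g).toMonoidHom (MulAut.conj g).injective (y : G)
      exact h
    rw [e1, e2, Subgroup.orderOf_coe]
    exact hord y hy
  · rintro x ⟨y, -, rfl⟩
    exact y.2
  · rw [Subgroup.card_map_of_injective N.subtype_injective]
    exact hcop
  · have hsub : (L1.map N.subtype).subgroupOf N = L1 := by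
      ext x
      rw [Subgroup.mem_subgroupOf]
      constructor
      · rintro ⟨y, hy, hyx⟩
        have hyx' : y = x := Subtype.ext hyx
        rw [← hyx']
        exact hy
      · intro hx
        exact ⟨x, hx, rfl⟩
    rw [Subgroup.relIndex, hsub, hk]

end Cfsg.Agent.Lib.Helper99.TC3THN
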