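import Mathlib
import Cfsg.Agent.Lib.Helper41.TMStmt

/-!
# S5987 piece G1E (helper99; assembly, minus type, `i` even): an invariant totally singular
`m`-space.  Glue of IPos, FixND, Perp, InvDim, FxType, TsIn, TsEven.
-/

set_option autoImplicit false

namespace Cfsg.Agent.Lib.Helper99.TMG1E

universe u

open Cfsg.Agent.Lib.Helper41.TMStmt
open Cfsg.Agent.Lib.Helper37.HypStmt (cc IPos)
open Cfsg.Agent.Lib.Helper44.TSStmt (Fac NumTypes)
open Cfsg.Agent.Lib.Helper45.OMiStmt (M Aniso FxM NDegM StabM)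
open Cfsg.Agent.Lib.Helper41.TMTwoStmt (TSubM PlusM FixTSM)

/-- arithmetic core of G1E (minus type) -/
theorem arithE (d m i t f0 b : ℕ) (hi : 0 < i) (hn : f0 + b * i = 2 * d)
    (H1 : t + 2 * (m / i) ≤ (2 * d) / i)
    (H2 : (2 * (m % i) ≤ i ∧ (2 * d) % i = 0 ∧ Even ((2 * d) / i) ∧
        t + 2 * (m / i) < (2 * d) / i) ∨
      (2 * (m % i) ≤ (2 * d) % i ∧ Odd ((2 * d) / i)) ∨
      (2 * (m % i) < (2 * d) % i ∧ Even ((2 * d) / i))) :
    (min (m / i) ((b + 1 - t) / 2) = 0 ∨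
        i * (2 * min (m / i) ((b + 1 - t) / 2) + t) + f0 ≤ 2 * d + i) ∧
      i * min (m / i) ((b + 1 - t) / 2) ≤ m ∧
      (Odd b → 2 * (m - i * min (m / i) ((b + 1 - t) / 2)) ≤ f0) ∧
      (Even b → 0 < f0 → 2 * (m - i * min (m / i) ((b + 1 - t) / 2)) < f0) := by
  obtain ⟨s, hs⟩ : ∃ s, s = min (m / i) ((b + 1 - t) / 2) := ⟨_, rfl⟩
  rw [← hs]
  obtain ⟨M, hM⟩ : ∃ M, M = m / i := ⟨_, rfl⟩
  obtain ⟨l, hl⟩ : ∃ l, l = m % i := ⟨_, rfl⟩
  obtain ⟨n', hn'⟩ : ∃ n', n' = (2 * d) / i := ⟨_, rfl⟩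
  obtain ⟨k, hk⟩ : ∃ k, k = (2 * d) % i := ⟨_, rfl⟩
  rw [← hM, ← hn'] at H1
  rw [← hM, ← hl, ← hn', ← hk] at H2
  have hm : i * M + l = m := by
    rw [hM, hl]
    exact Nat.div_add_mod m i
  have hN : i * n' + k = 2 * d := by
    rw [hn', hk]
    exact Nat.div_add_mod (2 * d) i
  have hli : l < i := by
    rw [hl]
    exact Nat.mod_lt _ hi
  have hki : k < i := by
    rw [hk]
    exact Nat.mod_lt _ hi
  have hsM : s ≤ M := by
    rw [hs, hM]
    exact min_le_left _ _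
  have hs2 : s ≤ (b + 1 - t) / 2 := by
    rw [hs]
    exact min_le_right _ _
  have hsor : s = M ∨ s = (b + 1 - t) / 2 := by
    rw [hs, hM]
    rcases Nat.le_total (m / i) ((b + 1 - t) / 2) with h | h
    · left
      exact Nat.min_eq_left h
    · right
      exact Nat.min_eq_right h
  obtain ⟨PM, hPM⟩ : ∃ PM, PM = i * M := ⟨_, rfl⟩
  obtain ⟨Ps, hPs⟩ : ∃ Ps, Ps = i * s := ⟨_, rfl⟩
  obtain ⟨Pn, hPn⟩ : ∃ Pn, Pn = i * n' := ⟨_, rfl⟩
  obtain ⟨Pb, hPb⟩ : ∃ Pb, Pb = b * i := ⟨_, rfl⟩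
  rw [← hPM] at hm
  rw [← hPn] at hN
  rw [← hPb] at hn
  have hPsM : Ps ≤ PM := by
    rw [hPs, hPM]
    exact Nat.mul_le_mul_left i hsM
  have key : ∀ c : ℕ, 2 * M + b + c ≤ n' + 2 * s → 2 * PM + Pb + c * i ≤ Pn + 2 * Ps := by
    intro c h
    have h1 := Nat.mul_le_mul_left i h
    have e1 : i * (2 * M + b + c) = 2 * (i * M) + b * i + c * i := by ring
    have e2 : i * (n' + 2 * s) = i * n' + 2 * (i * s) := by ring
    rw [e1, e2, ← hPM, ← hPb, ← hPn, ← hPs] at h1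
    exact h1
  have hbn : b ≤ n' := by
    have h1 : i * b < i * (n' + 1) := by
      have e : i * (n' + 1) = i * n' + i := by ring
      rw [e, mul_comm i b, ← hPn, ← hPb]
      omega
    have h2 := Nat.lt_of_mul_lt_mul_left h1
    omega
  have hbn' : k = 0 → 0 < f0 → b < n' := by
    intro hk0 hf
    have h1 : i * b < i * n' := by
      rw [mul_comm i b, ← hPn, ← hPb]
      omega
    exact Nat.lt_of_mul_lt_mul_left h1
  refine ⟨?_, ?_, ?_, ?_⟩
  · by_cases h0 : s = 0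
    · left
      exact h0
    · right
      have h2 : 2 * s + t ≤ b + 1 := by omega
      have h3 := Nat.mul_le_mul_left i h2
      have e2 : i * (b + 1) = b * i + i := by ring
      rw [e2, ← hPb] at h3
      omega
  · rw [← hPs]
    omega
  · intro hbo
    rw [← hPs]
    have hb2 : b % 2 = 1 := Nat.odd_iff.mp hbo
    rcases H2 with ⟨ha1, ha2, ha3, ha4⟩ | ⟨hb1, hb2'⟩ | ⟨hc1, hc2⟩
    · have hn2 : n' % 2 = 0 := Nat.even_iff.mp ha3
      have h := key 1 (by omega)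
      omega
    · have h := key 0 (by omega)
      omega
    · have h := key 0 (by omega)
      omega
  · intro hbe hf
    rw [← hPs]
    have hb2 : b % 2 = 0 := Nat.even_iff.mp hbe
    rcases H2 with ⟨ha1, ha2, ha3, ha4⟩ | ⟨hb1, hb2'⟩ | ⟨hc1, hc2⟩
    · have hn2 : n' % 2 = 0 := Nat.even_iff.mp ha3
      have hlt := hbn' ha2 hf
      have h := key 2 (by omega)
      omega
    · have hn2 : n' % 2 = 1 := Nat.odd_iff.mp hb2'
      have h := key 1 (by omega)
      omega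
    · have h := key 0 (by omega)
      omega

theorem stab_sup {F : Type u} [Field F] {d : ℕ} {x : Matrix (M d) (M d) F}
    {A B : Submodule F (M d → F)} (hA : StabM x A) (hB : StabM x B) : StabM x (A ⊔ B) := by
  unfold StabM at *
  rw [Submodule.map_sup]
  exact sup_le_sup hA hB

theorem stab_of_le_FxM {F : Type u} [Field F] {d : ℕ} (x : Matrix (M d) (M d) F)
    {W : Submodule F (M d → F)} (h : W ≤ FxM x) : StabM x W := by
  intro v hv
  obtain ⟨w, hw, rfl⟩ := Submodule.mem_map.mp hv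
  have h1 := (Cfsg.Agent.Lib.Helper45.OMiStmt.mem_FxM x w).mp (h hw)
  rw [Matrix.toLin'_apply, h1]
  exact hw

theorem main (hIPos : IPos.{u}) (hFixND : FixND.{u}) (hPerp : Perp.{u}) (hInv : InvDim.{u})
    (hFxT : FxType.{u}) (hTsIn : TsIn.{u}) (hTsEven : TsEven.{u}) : G1E.{u} := by
  intro F _ _ a₀ b₀ hAn p _ _ d m hm1 hmd r _ hr2 hrp hiev him hH x hxiso hxr
  obtain ⟨H1, H2⟩ := hH
  have hd : 1 ≤ d := by omega
  have hipos := hIPos F p r hrp
  have hfnd := hFixND F a₀ b₀ hAn p d r hrp x hxiso hxr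
  obtain ⟨Y, hYperp, hYnd, hYdisj, hYdim, hYstab⟩ :=
    hPerp F a₀ b₀ hAn d hd (FxM (x : Matrix (M d) (M d) F)) hfnd
  have hYs : StabM (x : Matrix (M d) (M d) F) Y :=
    hYstab x hxiso (stab_of_le_FxM _ le_rfl)
  have hdvd := hInv F a₀ b₀ hAn p d r hrp x hxr Y hYs (by rw [inf_comm]; exact hYdisj)
  obtain ⟨b, hb⟩ := hdvd
  have hn : Module.finrank F ↥(FxM (x : Matrix (M d) (M d) F)) +
      b * orderOf ((Fintype.card F : ℕ) : ZMod r) = 2 * d := by
    rw [mul_comm, ← hb]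
    exact hYdim
  obtain ⟨hA, hB, hCo, hCe⟩ := arithE d m (orderOf ((Fintype.card F : ℕ) : ZMod r))
    ((r - 1) / orderOf ((Fintype.card F : ℕ) : ZMod r)) _ b hipos hn H1 H2
  obtain ⟨U, hUstab, hUts, hUdim, hUbot, hUperp⟩ :=
    hTsEven F a₀ b₀ hAn p d r hd hr2 hrp hiev x hxiso hxr _ hA
  have hW0 : ∃ W0 : Submodule F (M d → F), W0 ≤ FxM (x : Matrix (M d) (M d) F) ∧
      TSubM d F a₀ b₀ W0 ∧ Module.finrank F ↥W0 =
        m - orderOf ((Fintype.card F : ℕ) : ZMod r) *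
          min (m / orderOf ((Fintype.card F : ℕ) : ZMod r))
            ((b + 1 - (r - 1) / orderOf ((Fintype.card F : ℕ) : ZMod r)) / 2) := by
    have hFT := hFxT F a₀ b₀ hAn p d r hd hr2 hrp x hxiso hxr
    have hbq : (2 * d - Module.finrank F ↥(FxM (x : Matrix (M d) (M d) F))) /
        orderOf ((Fintype.card F : ℕ) : ZMod r) = b := by
      have h1 : 2 * d - Module.finrank F ↥(FxM (x : Matrix (M d) (M d) F)) =
          b * orderOf ((Fintype.card F : ℕ) : ZMod r) := by omega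
      rw [h1]
      exact Nat.mul_div_cancel b hipos
    rw [hbq] at hFT
    rcases Nat.even_or_odd b with hbe | hbo
    · have hf0 : 0 < Module.finrank F ↥(FxM (x : Matrix (M d) (M d) F)) := by
        by_contra h0
        have h0' : Module.finrank F ↥(FxM (x : Matrix (M d) (M d) F)) = 0 := by omega
        have hplus : PlusM d F a₀ b₀ (FxM (x : Matrix (M d) (M d) F)) := by
          refine ⟨⊥, bot_le, ?_, ?_⟩
          · intro w hw
            rw [(Submodule.mem_bot F).mp hw]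
            simp [Cfsg.quadFormMinus]
          · rw [finrank_bot, h0']
        exact (Nat.not_odd_iff_even.mpr hbe) (hFT.mp hplus).2
      exact hTsIn F a₀ b₀ hAn d _ _ hfnd (hCe hbe hf0)
    · have h1 := hCo hbo
      rcases Nat.lt_or_ge (2 * (m - orderOf ((Fintype.card F : ℕ) : ZMod r) *
          min (m / orderOf ((Fintype.card F : ℕ) : ZMod r))
            ((b + 1 - (r - 1) / orderOf ((Fintype.card F : ℕ) : ZMod r)) / 2)))
          (Module.finrank F ↥(FxM (x : Matrix (M d) (M d) F))) with h2 | h2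
      · exact hTsIn F a₀ b₀ hAn d _ _ hfnd h2
      · obtain ⟨T, hTle, hTts, hTdim⟩ := hFT.mpr ⟨hiev, hbo⟩
        exact ⟨T, hTle, hTts, by omega⟩
  obtain ⟨W0, hW0le, hW0ts, hW0dim⟩ := hW0
  refine ⟨U ⊔ W0, ?_, ?_, stab_sup hUstab (stab_of_le_FxM _ hW0le)⟩
  · have hdisj : U ⊓ W0 = ⊥ := by
      apply le_bot_iff.mp
      rw [← hUbot]
      exact inf_le_inf_left U hW0le
    have h1 := Submodule.finrank_sup_add_finrank_inf_eq U W0
    rw [hdisj, finrank_bot, add_zero, hUdim, hW0dim] at h1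
    rw [h1]
    omega
  · intro w hw
    obtain ⟨u, hu, w0, hw0, rfl⟩ := Submodule.mem_sup.mp hw
    have h1 := hUperp u hu w0 (hW0le hw0)
    have h2 : Cfsg.quadFormMinus (d - 1) F a₀ b₀ (u + w0) =
        Cfsg.quadFormMinus (d - 1) F a₀ b₀ u + Cfsg.quadFormMinus (d - 1) F a₀ b₀ w0 +
          QuadraticMap.polar (Cfsg.quadFormMinus (d - 1) F a₀ b₀) u w0 := by
      rw [QuadraticMap.polar]
      ring
    rw [h2, hUts u hu, hW0ts w0 hw0, h1]
    simp

end Cfsg.Agent.Lib.Helper99.TMG1E
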