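import Mathlib
import Cfsg.Agent.Lib.Helper41.TMStmt

/-!
# S5987 piece G1O (helper99): minus type, `i` odd, `i ≤ m < d`, `(2 d) % (2 i) = 0` or
`2 (m % i) < (2 d) % (2 i)`: every isometry of order `r` fixes a totally singular `m`-space.
Glue of FixND, Perp, InvDim, HalfOdd, InvSub, FxType, TsIn.
-/

set_option autoImplicit false

universe u

namespace Cfsg.Agent.Lib.Helper99.TMG1O

open Cfsg.Agent.Lib.Helper41.TMStmt
open Cfsg.Agent.Lib.Helper37.HypStmt (cc IPos)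
open Cfsg.Agent.Lib.Helper44.TSStmt (Fac NumTypes)
open Cfsg.Agent.Lib.Helper45.OMiStmt (M Aniso FxM NDegM StabM)
open Cfsg.Agent.Lib.Helper41.TMTwoStmt (TSubM PlusM FixTSM)

lemma stab_of_le_FxM {F : Type u} [Field F] {d : ℕ} (x : Matrix (M d) (M d) F)
    {W : Submodule F (M d → F)} (h : W ≤ FxM x) : StabM x W := by
  intro v hv
  obtain ⟨w, hw, rfl⟩ := Submodule.mem_map.mp hv
  have h1 := (Cfsg.Agent.Lib.Helper45.OMiStmt.mem_FxM x w).mp (h hw)
  rw [Matrix.toLin'_apply, h1]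
  exact hw

lemma stab_sup {F : Type u} [Field F] {d : ℕ} {x : Matrix (M d) (M d) F}
    {W₁ W₂ : Submodule F (M d → F)} (h1 : StabM x W₁) (h2 : StabM x W₂) :
    StabM x (W₁ ⊔ W₂) := by
  unfold StabM at *
  rw [Submodule.map_sup]
  exact sup_le_sup h1 h2

/-- arithmetic core -/
lemma arith (d m i f β : ℕ) (hi : 0 < i) (hn : f + β * (2 * i) = 2 * d) (hm : m < d)
    (hf : 0 < f)
    (hl : (2 * d) % (2 * i) = 0 ∨ 2 * (m % i) < (2 * d) % (2 * i)) :
    i * min β (m / i) ≤ m ∧ 2 * (m - i * min β (m / i)) < f := by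
  have hA : i * (m / i) + m % i = m := Nat.div_add_mod m i
  have hmod : m % i < i := Nat.mod_lt m hi
  have hk : (2 * d) % (2 * i) = f % (2 * i) := by
    rw [← hn, Nat.add_mul_mod_self_right]
  have hkle : f % (2 * i) ≤ f := Nat.mod_le f (2 * i)
  have hj2 : β * (2 * i) = 2 * (i * β) := by ring
  rcases Nat.le_total β (m / i) with h | h
  · rw [Nat.min_eq_left h]
    have hle : i * β ≤ i * (m / i) := Nat.mul_le_mul_left i h
    refine ⟨by omega, by omega⟩
  · rw [Nat.min_eq_right h]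
    refine ⟨by omega, ?_⟩
    have h3 : m - i * (m / i) = m % i := by omega
    rw [h3]
    rcases hl with h0 | h1
    · rw [hk] at h0
      have hdvd : 2 * i ∣ f := Nat.dvd_of_mod_eq_zero h0
      have hge : 2 * i ≤ f := Nat.le_of_dvd hf hdvd
      omega
    · omega

theorem main (hIPos : IPos.{u}) (hFixND : FixND.{u}) (hPerp : Perp.{u}) (hInvDim : InvDim.{u})
    (hHalf : HalfOdd.{u}) (hInvSub : InvSub.{u}) (hFxType : FxType.{u}) (hTsIn : TsIn.{u}) :
    G1O.{u} := by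
  intro F _ _ a₀ b₀ hA p _ _ d m hm1 hmd r _ hr2 hrp hio hile hlt x hxiso hxr
  have hd : 1 ≤ d := by omega
  have hipos : 0 < orderOf ((Fintype.card F : ℕ) : ZMod r) := hio.pos
  have hfnd := hFixND F a₀ b₀ hA p d r hrp x hxiso hxr
  obtain ⟨E, hperp, hEnd, hinf, hdim, hstabE⟩ :=
    hPerp F a₀ b₀ hA d hd (FxM (x : Matrix (M d) (M d) F)) hfnd
  have hstabFx : StabM (x : Matrix (M d) (M d) F) (FxM (x : Matrix (M d) (M d) F)) :=
    stab_of_le_FxM _ le_rfl
  have hEstab := hstabE x hxiso hstabFx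
  have hEbot : E ⊓ FxM (x : Matrix (M d) (M d) F) = ⊥ := by rw [inf_comm]; exact hinf
  obtain ⟨U, hUE, hUstab, hUts, hUdim⟩ :=
    hHalf F a₀ b₀ hA p d r hr2 hrp hio x hxiso hxr E hEstab hEnd hEbot
  have hUbot : U ⊓ FxM (x : Matrix (M d) (M d) F) = ⊥ := by
    rw [eq_bot_iff, ← hEbot]
    exact inf_le_inf_right _ hUE
  obtain ⟨β, hβ⟩ := hInvDim F a₀ b₀ hA p d r hrp x hxr U hUstab hUbot
  have hnplus : ¬ PlusM d F a₀ b₀ (FxM (x : Matrix (M d) (M d) F)) := by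
    intro hpl
    have h1 := ((hFxType F a₀ b₀ hA p d r hd hr2 hrp x hxiso hxr).mp hpl).1
    exact (Nat.not_even_iff_odd.mpr hio) h1
  have hf0 : 0 < Module.finrank F ↥(FxM (x : Matrix (M d) (M d) F)) := by
    by_contra hcon
    have h0 : Module.finrank F ↥(FxM (x : Matrix (M d) (M d) F)) = 0 := by omega
    apply hnplus
    refine ⟨⊥, bot_le, ?_, ?_⟩
    · intro w hw
      rw [Submodule.mem_bot] at hw
      rw [hw]
      simp [Cfsg.quadFormMinus]
    · rw [finrank_bot, h0]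
  have hn : Module.finrank F ↥(FxM (x : Matrix (M d) (M d) F)) +
      β * (2 * orderOf ((Fintype.card F : ℕ) : ZMod r)) = 2 * d := by
    have h2 : β * (2 * orderOf ((Fintype.card F : ℕ) : ZMod r)) =
        2 * (orderOf ((Fintype.card F : ℕ) : ZMod r) * β) := by ring
    omega
  obtain ⟨ha1, ha2⟩ := arith d m _ _ β hipos hn hmd hf0 hlt
  obtain ⟨U', hU'U, hU'stab, hU'dim⟩ := hInvSub F a₀ b₀ hA p d r hrp x hxr U hUstab hUbot
    (min β (m / orderOf ((Fintype.card F : ℕ) : ZMod r)))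
    (by rw [hβ]; exact Nat.mul_le_mul_left _ (min_le_left _ _))
  obtain ⟨W0, hW0Fx, hW0ts, hW0dim⟩ := hTsIn F a₀ b₀ hA d (FxM (x : Matrix (M d) (M d) F))
    (m - orderOf ((Fintype.card F : ℕ) : ZMod r) *
      min β (m / orderOf ((Fintype.card F : ℕ) : ZMod r))) hfnd ha2
  have hinf' : U' ⊓ W0 = ⊥ := by
    rw [eq_bot_iff, ← hEbot]
    exact inf_le_inf (hU'U.trans hUE) hW0Fx
  refine ⟨U' ⊔ W0, ?_, ?_, stab_sup hU'stab (stab_of_le_FxM _ hW0Fx)⟩
  · have h := Submodule.finrank_sup_add_finrank_inf_eq U' W0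
    rw [hinf', finrank_bot, hU'dim, hW0dim] at h
    omega
  · intro w hw
    obtain ⟨u, hu, w0, hw0, rfl⟩ := Submodule.mem_sup.mp hw
    have hpol := hperp w0 (hW0Fx hw0) u (hUE (hU'U hu))
    have h1 : Cfsg.quadFormMinus (d - 1) F a₀ b₀ u = 0 := hUts u (hU'U hu)
    have h2 : Cfsg.quadFormMinus (d - 1) F a₀ b₀ w0 = 0 := hW0ts w0 hw0
    unfold QuadraticMap.polar at hpol
    rw [h1, h2, sub_zero, sub_zero, add_comm] at hpol
    exact hpol

end Cfsg.Agent.Lib.Helper99.TMG1O
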