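import Mathlib
import Cfsg.Agent.Lib.Helper74.WinStmt

/-! S4467 piece CENT: the centre of `C_U(x)` lies in the centre of `U`. -/

set_option autoImplicit false

namespace Cfsg.Agent.Lib.Helper99.WinCENT

open Cfsg Cfsg.Agent.Lib.Helper74.WinStmt

universe u

/-- The product of the conjugates `x ^ i * u * x ^ (-i)`, `i < n`. -/
def W {G : Type u} [Group G] (x u : G) : ℕ → G
  | 0 => 1
  | (n + 1) => W x u n * (x ^ n * u * (x ^ n)⁻¹)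

theorem W_mem {G : Type u} [Group G] (U : Subgroup G) (hU : U.Normal) (x : G) {u : G}
    (hu : u ∈ U) : ∀ n : ℕ, W x u n ∈ U
  | 0 => U.one_mem
  | (n + 1) => U.mul_mem (W_mem U hU x hu n) (hU.conj_mem u hu (x ^ n))

theorem W_conj {G : Type u} [Group G] (x u : G) :
    ∀ n : ℕ, x * W x u n * x⁻¹ = u⁻¹ * W x u n * (x ^ n * u * (x ^ n)⁻¹)
  | 0 => by simp [W]
  | (n + 1) => by
    have ih := W_conj x u n
    show x * (W x u n * (x ^ n * u * (x ^ n)⁻¹)) * x⁻¹ =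
      u⁻¹ * (W x u n * (x ^ n * u * (x ^ n)⁻¹)) * (x ^ (n + 1) * u * (x ^ (n + 1))⁻¹)
    have h1 : x * (x ^ n * u * (x ^ n)⁻¹) * x⁻¹ = x ^ (n + 1) * u * (x ^ (n + 1))⁻¹ := by
      group
    calc x * (W x u n * (x ^ n * u * (x ^ n)⁻¹)) * x⁻¹
        = (x * W x u n * x⁻¹) * (x * (x ^ n * u * (x ^ n)⁻¹) * x⁻¹) := by group
      _ = (u⁻¹ * W x u n * (x ^ n * u * (x ^ n)⁻¹)) * (x ^ (n + 1) * u * (x ^ (n + 1))⁻¹) := by
          rw [ih, h1]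
      _ = u⁻¹ * (W x u n * (x ^ n * u * (x ^ n)⁻¹)) * (x ^ (n + 1) * u * (x ^ (n + 1))⁻¹) := by
          group

theorem main : Cent.{u} := by
  intro G _ _ p q hp hq hpq U hU hUq hcomm x hx z hz hxz hzc u hu
  obtain ⟨k, hk⟩ := hx ⟨x, Subgroup.mem_zpowers x⟩
  have hxN : x ^ (p ^ k) = 1 := by
    have h := congrArg (fun y : ↥(Subgroup.zpowers x) => (y : G)) hk
    simpa using h
  have hkill : ∀ c ∈ U, c ^ (p ^ k) = 1 → c = 1 := by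
    intro c hc hcN
    obtain ⟨j, hj⟩ := hUq ⟨c, hc⟩
    have hcq : c ^ (q ^ j) = 1 := by
      have h := congrArg (fun y : ↥U => (y : G)) hj
      simpa using h
    have h1 : orderOf c ∣ p ^ k := orderOf_dvd_of_pow_eq_one hcN
    have h2 : orderOf c ∣ q ^ j := orderOf_dvd_of_pow_eq_one hcq
    have hcop : Nat.Coprime (p ^ k) (q ^ j) :=
      Nat.Coprime.pow k j ((Nat.coprime_primes hp hq).mpr hpq)
    exact orderOf_eq_one_iff.mp ((Nat.Coprime.coprime_dvd_left h1 hcop).eq_one_of_dvd h2)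
  obtain ⟨w, hw⟩ : ∃ w : G, w = W x u (p ^ k) := ⟨_, rfl⟩
  have hwU : w ∈ U := by rw [hw]; exact W_mem U hU x hu _
  have hconj : x * w * x⁻¹ = u⁻¹ * w * u := by
    have h := W_conj x u (p ^ k)
    rw [hxN, ← hw] at h
    simpa using h
  obtain ⟨c, hcdef⟩ : ∃ c : G, c = w⁻¹ * u⁻¹ * w⁻¹⁻¹ * u⁻¹⁻¹ := ⟨_, rfl⟩
  have hcC : c ∈ Subgroup.center G := by
    rw [hcdef]; exact hcomm _ (U.inv_mem hwU) _ (U.inv_mem hu)
  have hcU : c ∈ U := by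
    rw [hcdef]
    exact U.mul_mem (U.mul_mem (U.mul_mem (U.inv_mem hwU) (U.inv_mem hu))
      (U.inv_mem (U.inv_mem hwU))) (U.inv_mem (U.inv_mem hu))
  have hconj2 : x * w * x⁻¹ = w * c := by rw [hconj, hcdef]; group
  have hpowc : ∀ n : ℕ, x ^ n * w * (x ^ n)⁻¹ = w * c ^ n := by
    intro n
    induction n with
    | zero => simp
    | succ n ih =>
      have h2 : x * c ^ n = c ^ n * x :=
        Subgroup.mem_center_iff.mp (Subgroup.pow_mem _ hcC n) x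
      have h1 : x * c ^ n * x⁻¹ = c ^ n := by rw [h2, mul_inv_cancel_right]
      calc x ^ (n + 1) * w * (x ^ (n + 1))⁻¹ = x * (x ^ n * w * (x ^ n)⁻¹) * x⁻¹ := by group
        _ = x * (w * c ^ n) * x⁻¹ := by rw [ih]
        _ = (x * w * x⁻¹) * (x * c ^ n * x⁻¹) := by group
        _ = w * c * c ^ n := by rw [hconj2, h1]
        _ = w * c ^ (n + 1) := by rw [pow_succ', mul_assoc]
  have hcN : c ^ (p ^ k) = 1 := by
    have h := hpowc (p ^ k)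
    rw [hxN] at h
    have h' : w * c ^ (p ^ k) = w := by
      rw [← h]; simp
    exact mul_eq_left.mp h'
  have hc1 : c = 1 := hkill c hcU hcN
  have hxw : x * w = w * x := by
    rw [hc1, mul_one] at hconj2
    calc x * w = x * w * x⁻¹ * x := by group
      _ = w * x := by rw [hconj2]
  have hzw : z * w = w * z := hzc w hwU hxw
  have hDcen : ∀ a ∈ U, z * a * z⁻¹ * a⁻¹ ∈ Subgroup.center G := fun a ha => hcomm z hz a ha
  have hDmul : ∀ a ∈ U, ∀ b ∈ U, z * (a * b) * z⁻¹ * (a * b)⁻¹ =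
      (z * a * z⁻¹ * a⁻¹) * (z * b * z⁻¹ * b⁻¹) := by
    intro a ha b hb
    have h1 : a⁻¹ * (z * b * z⁻¹ * b⁻¹) = (z * b * z⁻¹ * b⁻¹) * a⁻¹ :=
      Subgroup.mem_center_iff.mp (hDcen b hb) a⁻¹
    calc z * (a * b) * z⁻¹ * (a * b)⁻¹ = z * a * z⁻¹ * ((z * b * z⁻¹ * b⁻¹) * a⁻¹) := by group
      _ = z * a * z⁻¹ * (a⁻¹ * (z * b * z⁻¹ * b⁻¹)) := by rw [h1]
      _ = (z * a * z⁻¹ * a⁻¹) * (z * b * z⁻¹ * b⁻¹) := by group
  have hDf : ∀ n : ℕ, z * (x ^ n * u * (x ^ n)⁻¹) * z⁻¹ * (x ^ n * u * (x ^ n)⁻¹)⁻¹ =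
      z * u * z⁻¹ * u⁻¹ := by
    intro n
    have h1 : x ^ n * (z * u * z⁻¹ * u⁻¹) = (z * u * z⁻¹ * u⁻¹) * x ^ n :=
      Subgroup.mem_center_iff.mp (hDcen u hu) (x ^ n)
    have h2 : z * x ^ n = x ^ n * z := (Commute.pow_right (show Commute z x from hxz.symm) n).eq
    have e1 : x ^ n * z * (x ^ n)⁻¹ = z := by rw [← h2, mul_inv_cancel_right]
    have e2 : x ^ n * (z * u * z⁻¹ * u⁻¹) * (x ^ n)⁻¹ = z * u * z⁻¹ * u⁻¹ := by
      rw [h1, mul_inv_cancel_right]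
    calc z * (x ^ n * u * (x ^ n)⁻¹) * z⁻¹ * (x ^ n * u * (x ^ n)⁻¹)⁻¹
        = (x ^ n * z * (x ^ n)⁻¹) * (x ^ n * u * (x ^ n)⁻¹) * (x ^ n * z * (x ^ n)⁻¹)⁻¹ *
            (x ^ n * u * (x ^ n)⁻¹)⁻¹ := by rw [e1]
      _ = x ^ n * (z * u * z⁻¹ * u⁻¹) * (x ^ n)⁻¹ := by group
      _ = z * u * z⁻¹ * u⁻¹ := e2
  have hDW : ∀ n : ℕ, z * W x u n * z⁻¹ * (W x u n)⁻¹ = (z * u * z⁻¹ * u⁻¹) ^ n := by
    intro n
    induction n with
    | zero =>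
      show z * 1 * z⁻¹ * (1 : G)⁻¹ = _
      simp
    | succ n ih =>
      show z * (W x u n * (x ^ n * u * (x ^ n)⁻¹)) * z⁻¹ *
        (W x u n * (x ^ n * u * (x ^ n)⁻¹))⁻¹ = _
      rw [hDmul _ (W_mem U hU x hu n) _ (hU.conj_mem u hu (x ^ n)), ih, hDf n, pow_succ]
  have hD1 : (z * u * z⁻¹ * u⁻¹) ^ (p ^ k) = 1 := by
    have h := hDW (p ^ k)
    rw [← hw, hzw, mul_inv_cancel_right, mul_inv_cancel] at h
    exact h.symm
  have hDU : z * u * z⁻¹ * u⁻¹ ∈ U :=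
    U.mul_mem (U.mul_mem (U.mul_mem hz hu) (U.inv_mem hz)) (U.inv_mem hu)
  have hfin := hkill _ hDU hD1
  have h3 : z * u * z⁻¹ = u := mul_inv_eq_one.mp hfin
  exact mul_inv_eq_iff_eq_mul.mp h3

end Cfsg.Agent.Lib.Helper99.WinCENT
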